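import Cfsg.Agent.Lib.Geometric.OrthTensorMax.Central

/-!
Siegel elements at a pure vector inside one slice, in an overgroup of the stabiliser of an
orthogonal tensor product, make that vector full and generate `omegaGL`.
-/

namespace CfsgLib.Geometric.OrthTensor

open Matrix QuadraticMap Tensor

set_option linter.unusedSectionVars false

variable {ι : Type} [Fintype ι] [DecidableEq ι] {F : Type*} [Field F]

/-- The Siegel element of `p` and `X` is defined and lies in `M`. -/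
def SgIn (Q : QuadraticForm F (ι → F)) (M : Subgroup (GL ι F)) (p X : ι → F) : Prop :=
  ∃ (hp : Q p = 0) (hX : polar Q p X = 0), Orth.sg Q p X hp hX ∈ M

namespace SgIn

variable {Q : QuadraticForm F (ι → F)} {M : Subgroup (GL ι F)} {p X Y : ι → F}

lemma congr (h : SgIn Q M p X) (e : X = Y) : SgIn Q M p Y := e ▸ h

lemma zero (hp : Q p = 0) : SgIn Q M p 0 := by
  refine ⟨hp, polar_zero_right Q p, ?_⟩
  have h : Orth.sg Q p 0 hp (polar_zero_right Q p) = 1 := gl_ext fun z => by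
    rw [Orth.ap_sg]; simp
  rw [h]; exact one_mem M

lemma add (h : SgIn Q M p X) (h' : SgIn Q M p Y) : SgIn Q M p (X + Y) := by
  obtain ⟨hp, hX, hm⟩ := h
  obtain ⟨hp', hY, hm'⟩ := h'
  refine ⟨hp, by rw [polar_add_right, hX, hY, add_zero], ?_⟩
  rw [← Orth.sg_mul' hp hX hY]
  exact mul_mem hm hm'

lemma neg (h : SgIn Q M p X) : SgIn Q M p (-X) := by
  obtain ⟨hp, hX, hm⟩ := h
  have hX' : polar Q p (-X) = 0 := by rw [polar_neg_right, hX, neg_zero]
  refine ⟨hp, hX', ?_⟩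
  have h : Orth.sg Q p X hp hX * Orth.sg Q p (-X) hp hX' = 1 := by
    rw [Orth.sg_mul' hp hX hX']
    exact gl_ext fun z => by rw [Orth.ap_sg]; simp
  rw [← inv_eq_of_mul_eq_one_right h]
  exact inv_mem hm

lemma sub (h : SgIn Q M p X) (h' : SgIn Q M p Y) : SgIn Q M p (X - Y) := by
  rw [sub_eq_add_neg]; exact h.add h'.neg

lemma map (hMI : M ≤ Cfsg.isometryGroup F (⇑Q)) (h : SgIn Q M p X) {g : GL ι F} (hg : g ∈ M) :
    SgIn Q M (ap g p) (ap g X) := by
  obtain ⟨hp, hX, hm⟩ := h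
  refine ⟨by rw [Orth.mem_isometryGroup_iff.mp (hMI hg), hp], by rw [Orth.polar_ap (hMI hg), hX], ?_⟩
  rw [← Orth.conj_sg (hMI hg) hp hX]
  exact mul_mem (mul_mem hg hm) (inv_mem hg)

lemma sum {κ : Type*} (s : Finset κ) {f : κ → ι → F} (hp : Q p = 0)
    (h : ∀ i ∈ s, SgIn Q M p (f i)) : SgIn Q M p (∑ i ∈ s, f i) := by
  classical
  induction s using Finset.induction with
  | empty => simpa using zero hp
  | insert i s hi ih =>
    rw [Finset.sum_insert hi]
    exact (h i (Finset.mem_insert_self i s)).add (ih fun j hj => h j (Finset.mem_insert_of_mem hj))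

end SgIn

variable {Q : QuadraticForm F (ι → F)} {n₁ n₂ : ℕ} {e : ι ≃ Fin n₁ × Fin n₂} {P : GL ι F}
  {f₁ : (Fin n₁ → F) → (Fin n₁ → F) → F} {f₂ : (Fin n₂ → F) → (Fin n₂ → F) → F} {c : F}

namespace OTensor

variable (hT : OTensor Q e P f₁ f₂ c) {M : Subgroup (GL ι F)} [Finite F]
  (hMI : M ≤ Cfsg.isometryGroup F (⇑Q))
  (hH : Cfsg.Geo.tensorProductSubgroup n₁ n₂ e P ⊓ Cfsg.Geo.omegaGL (⇑Q) ≤ M)
include hT hMI hH

/-- From some root one with anisotropic second vector. -/
lemma exists_root_aniso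
    (hline : 5 ≤ n₁ ∨ ∀ u p, u ≠ 0 → f₁ u u = 0 → f₁ u p = 0 → f₁ p p = 0 →
      p ∈ Submodule.span F {u})
    {u p : Fin n₁ → F} {w : Fin n₂ → F} (hu : f₁ u u = 0) (hu0 : u ≠ 0) (hup : f₁ u p = 0)
    (hp : p ∉ Submodule.span F {u}) (hw : f₂ w w = 0) (h : HasRoot Q e P M u p w) :
    ∃ d, f₁ u d = 0 ∧ f₁ d d ≠ 0 ∧ ∀ r : F, SgIn Q M (pt e P u w) (pt e P (r • d) w) := by
  have hQ := hT.Q_pt_iso u hw
  have hpol : ∀ x, polar Q (pt e P u w) (pt e P x w) = 0 := fun x => by
    rw [hT.polar_pt, hw, mul_zero, mul_zero]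
  have hr : ∀ r : F, SgIn Q M (pt e P u w) (pt e P (r • p) w) := fun r =>
    ⟨hQ, hpol _, h r hQ (hpol _)⟩
  by_cases hpp : f₁ p p = 0
  swap
  · exact ⟨p, hup, hpp, hr⟩
  have h5 : 5 ≤ n₁ := hline.resolve_right fun hl => hp (hl u p hu0 hu hup hpp)
  have hg := hT.sym₁
  have h2 := hT.two_ne
  have hind : LinearIndependent F ![u, p] := LinearIndependent.pair_iff.mpr fun s t hst => by
    by_cases ht : t = 0
    · refine ⟨?_, ht⟩
      rw [ht, zero_smul, add_zero] at hst
      exact (smul_eq_zero.mp hst).resolve_right hu0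
    · refine absurd (Submodule.mem_span_singleton.mpr ⟨-(t⁻¹ * s), ?_⟩) hp
      have h1 : t • p = -(s • u) := eq_neg_of_add_eq_zero_right hst
      rw [neg_smul, ← smul_smul, ← smul_neg, ← h1, inv_smul_smul₀ ht]
  obtain ⟨x, hxu, hxp⟩ := Orth.exists_pairings (Q := hg.sq) hg.nondeg_sq hind 0 1
  rw [hg.polar_sq] at hxu hxp
  set s := x - ((2 : F)⁻¹ * f₁ x x) • p with hsdef
  have hus : f₁ u s = 0 := by
    rw [hsdef, hg.sub_right, hg.smul_right, hg.symm u x, hxu, hup]; ring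
  have hps : f₁ p s = 1 := by
    rw [hsdef, hg.sub_right, hg.smul_right, hg.symm p x, hxp, hpp]; ring
  have hss : f₁ s s = 0 := by
    rw [hsdef, hg.sub_left, hg.sub_right, hg.sub_right, hg.smul_left, hg.smul_left, hg.smul_right,
      hg.smul_right, hpp, hxp, hg.symm p x, hxp]
    field_simp; ring
  obtain ⟨v, hv, hvv⟩ := Orth.exists_anisotropic (Q := hg.sq) hg.nondeg_sq
    (W := LinearMap.ker ((hg.fl u).prod (hg.fl s))) (by
      have h3 := ((hg.fl u).prod (hg.fl s)).finrank_range_add_finrank_ker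
      have h4 := Submodule.finrank_le (LinearMap.range ((hg.fl u).prod (hg.fl s)))
      rw [Module.finrank_prod, Module.finrank_self] at h4
      rw [Module.finrank_fin_fun] at h3
      rw [Fintype.card_fin]
      omega)
  have hvv' : f₁ v v ≠ 0 := fun h0 => hvv (hg.sq_eq_zero.mpr h0)
  obtain ⟨hvu, hvs⟩ : f₁ v u = 0 ∧ f₁ v s = 0 := by simpa using hv
  have hsv : f₁ s v = 0 := by rw [hg.symm, hvs]
  set a := hg.rho s v hss hsv
  have hau : ap a u = u := hg.ap_rho_fix hss hsv hus (by rw [hg.symm, hvu])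
  have hk := hH (hT.kron_mem_inf (hg.rho_mem_commutator hss hsv)
    (one_mem (⁅isom f₂, isom f₂⁆)))
  refine ⟨ap a p - p, ?_, ?_, fun r => ?_⟩
  · rw [hg.sub_right, hup, sub_zero]
    conv_lhs => rw [← hau]
    rw [mem_isom_iff.mp (hg.rho_mem_isom hss hsv), hup]
  · rw [hg.ap_rho, hps, one_smul]
    simp only [hg.sub_left, hg.sub_right, hg.add_left, hg.add_right, hg.smul_left, hg.smul_right,
      hss, hsv, hvs, hps, hg.symm s p, hg.symm v p]
    intro h0
    exact hvv' (by linear_combination h0)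
  · have h1 := (hr r).map hMI hk
    rw [ap_kron, ap_kron, ap_one, hau, ap_smul] at h1
    exact (h1.sub (hr r)).congr (by rw [← pt_sub_left, smul_sub])

/-- The pure vectors with first entry `u` paired with all of `u ⊗ z`. -/
lemma root_line {u d : Fin n₁ → F} (hu : f₁ u u = 0) (hud : f₁ u d = 0) (hd : f₁ d d ≠ 0)
    (hall : ∀ w, f₂ w w = 0 → w ≠ 0 → ∀ r : F, SgIn Q M (pt e P u w) (pt e P (r • d) w))
    {w : Fin n₂ → F} (hw : f₂ w w = 0) (hw0 : w ≠ 0) (z : Fin n₂ → F) :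
    SgIn Q M (pt e P u w) (pt e P u z) := by
  have hQ := hT.Q_pt_iso u hw
  let S : Submodule F (Fin n₂ → F) :=
    { carrier := {z | ∀ t : F, SgIn Q M (pt e P u w) (pt e P u (t • z))}
      add_mem' := fun ha hb t => by
        rw [smul_add, pt_add_right]; exact (ha t).add (hb t)
      zero_mem' := fun t => by rw [smul_zero, pt_zero_right]; exact SgIn.zero hQ
      smul_mem' := fun s a ha t => by rw [smul_smul]; exact ha _ }
  have h0 := hT.sym₂.eq_zero_of_iso_near (by rw [Fintype.card_fin]; linarith [hT.pos₂]) hw hw0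
    (L := S.mkQ) (fun x hx hxw => by
      rw [Submodule.mkQ_apply, Submodule.Quotient.mk_eq_zero]
      intro t
      have hwx : f₂ w x ≠ 0 := fun h => hxw (hT.sym₂.eq_zero_comm.mp h)
      have hx0 : x ≠ 0 := fun h => hwx (by rw [h, hT.sym₂.zero_right])
      set l := -t / (c * f₁ d d * f₂ w x) with hl
      obtain ⟨hp', hX', hm'⟩ := hall x hx hx0 l
      have h1 := (hall w hw hw0 1).map hMI hm'
      have e1 : ap (Orth.sg Q _ _ hp' hX') (pt e P u w) = pt e P u w := by
        refine Orth.ap_sg_fix _ _ ?_ ?_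
        · rw [hT.polar_pt, hu, zero_mul, mul_zero]
        · rw [hT.polar_pt, hT.sym₁.smul_right, hud, mul_zero, zero_mul, mul_zero]
      have hden : c * f₁ d d * f₂ w x ≠ 0 := mul_ne_zero (mul_ne_zero hT.c_ne hd) hwx
      have e2 : ap (Orth.sg Q _ _ hp' hX') (pt e P ((1 : F) • d) w) =
          pt e P ((1 : F) • d) w + pt e P u (t • x) := by
        rw [Orth.ap_sg, hT.polar_pt, hT.polar_pt, hT.Q_pt_iso _ hx, hT.sym₁.smul_left,
          hT.sym₁.smul_left, hT.sym₁.smul_right, hT.sym₁.symm d u, hud, pt_smul_right]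
        have : c * (1 * (l * f₁ d d) * f₂ w x) = -t := by
          have hc := hT.c_ne
          rw [hl]; field_simp
        rw [this]
        simp
      rw [e1, e2] at h1
      exact (h1.sub (hall w hw hw0 1)).congr (by abel))
  have h1 : z ∈ S := by
    have h := LinearMap.congr_fun h0 z
    rwa [Submodule.mkQ_apply, LinearMap.zero_apply, Submodule.Quotient.mk_eq_zero] at h
  have h2 : ∀ t : F, SgIn Q M (pt e P u w) (pt e P u (t • z)) := h1
  simpa using h2 1

/-- All pure vectors orthogonal to the slice. -/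
lemma root_perp {u : Fin n₁ → F} (hu : f₁ u u = 0) (hu0 : u ≠ 0)
    (hline : ∀ w, f₂ w w = 0 → w ≠ 0 → ∀ z, SgIn Q M (pt e P u w) (pt e P u z))
    {w : Fin n₂ → F} (hw : f₂ w w = 0) (hw0 : w ≠ 0) (a : Fin n₁ → F) {z : Fin n₂ → F}
    (hz : f₂ z w = 0) : SgIn Q M (pt e P u w) (pt e P a z) := by
  have hg := hT.sym₁
  have hg₂ := hT.sym₂
  have h2 := hT.two_ne
  have hQ := hT.Q_pt_iso u hw
  have hd₁ : 3 ≤ Fintype.card (Fin n₁) := by rw [Fintype.card_fin]; exact hT.pos₁
  have hd₂ : 3 ≤ Fintype.card (Fin n₂) := by rw [Fintype.card_fin]; linarith [hT.pos₂]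
  obtain ⟨u', hu', h1⟩ := hg.exists_hyp hu hu0
  have h1' : f₁ u' u = 1 := by rw [hg.symm, h1]
  obtain ⟨w', hw', hww'⟩ := hg₂.exists_hyp hw hw0
  obtain ⟨y, hy, hyy⟩ := hg₂.exists_aniso_perp hd₂ hw hw0
  -- the vectors in the orbit of `u`
  have horb : ∀ x, f₁ x u = 0 → f₁ x u' = 0 → f₁ x x ≠ 0 → ∀ z, f₂ z w = 0 →
      SgIn Q M (pt e P u w) (pt e P (SymForm.iso3 f₁ u u' x) z) := by
    intro x hxu hxu' hxx
    set v := SymForm.iso3 f₁ u u' x with hv
    have hu'x : f₁ u' x = 0 := by rw [hg.symm, hxu']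
    set k := hg.rho u' x hu' hu'x
    have hkv : ap k u = v := by
      rw [hg.ap_rho, h1, hg.symm u x, hxu, one_smul, hv, SymForm.iso3]
      simp
    have hvv : f₁ v v = 0 := (hg.iso3_spec hu hu' h1 hxu hxu').1
    have huv : f₁ u v ≠ 0 := by
      rw [hv, SymForm.iso3, hg.sub_right, hg.add_right, hg.smul_right, hu, h1, hg.symm u x, hxu]
      simpa using ⟨h2, hxx⟩
    have hk := hH (hT.kron_mem_inf (hg.rho_mem_commutator hu' hu'x)
      (one_mem (⁅isom f₂, isom f₂⁆)))
    have step : ∀ z2, f₂ z2 w = 0 → ∀ z3, SgIn Q M (pt e P u w)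
        (pt e P v ((c * f₁ u v * f₂ z3 w) • z2 - (c * f₁ u v * f₂ z3 z2) • w)) := by
      intro z2 hz2 z3
      have h3 := (hline w hw hw0 z2).map hMI hk
      rw [ap_kron, ap_kron, ap_one, ap_one, hkv] at h3
      obtain ⟨hp', hX', hm'⟩ := h3
      have h4 := (hline w hw hw0 z3).map hMI hm'
      have e1 : ap (Orth.sg Q _ _ hp' hX') (pt e P u w) = pt e P u w := by
        refine Orth.ap_sg_fix _ _ ?_ ?_
        · rw [hT.polar_pt, hw, mul_zero, mul_zero]
        · rw [hT.polar_pt, hg₂.symm w z2, hz2, mul_zero, mul_zero]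
      rw [e1, Orth.ap_sg, hT.polar_pt, hT.polar_pt, hT.Q_pt_iso' hvv] at h4
      refine (h4.sub (hline w hw hw0 z3)).congr ?_
      rw [pt_sub_right, pt_smul_right, pt_smul_right]
      module
    intro z hz
    have hne : c * f₁ u v ≠ 0 := mul_ne_zero hT.c_ne huv
    set t := (c * f₁ u v)⁻¹
    have s1 := step (t • z) (by rw [hg₂.smul_left, hz, mul_zero]) w'
    have s2 := step ((t * f₂ z w' / f₂ y y) • y)
      (by rw [hg₂.smul_left, hg₂.symm y w, hy, mul_zero]) y
    refine (s1.sub s2).congr ?_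
    rw [← pt_sub_right]
    congr 1
    simp only [hg₂.smul_right, hg₂.symm w' w, hww', hg₂.symm y w, hy, hg₂.symm z w', t]
    have hc := hT.c_ne
    match_scalars <;> field_simp <;> ring
  -- they span
  let S : Submodule F (Fin n₁ → F) :=
    { carrier := {a | ∀ z, f₂ z w = 0 → SgIn Q M (pt e P u w) (pt e P a z)}
      add_mem' := fun ha hb z hz => by rw [pt_add_left]; exact (ha z hz).add (hb z hz)
      zero_mem' := fun z _ => by rw [pt_zero_left]; exact SgIn.zero hQ
      smul_mem' := fun t a ha z hz => by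
        rw [pt_smul_left, ← pt_smul_right]
        exact ha _ (by rw [hg₂.smul_left, hz, mul_zero]) }
  suffices h : a ∈ S from h z hz
  have huS : u ∈ S := fun z _ => hline w hw hw0 z
  have hoS : ∀ x, f₁ x u = 0 → f₁ x u' = 0 → f₁ x x ≠ 0 → SymForm.iso3 f₁ u u' x ∈ S := horb
  have hW : ∀ x, f₁ x u = 0 → f₁ x u' = 0 → f₁ x x ≠ 0 → x ∈ S := by
    intro x hxu hxu' hxx
    have e1 := S.sub_mem (hoS x hxu hxu' hxx) (hoS (-x) (by rw [hg.neg_left, hxu, neg_zero])
      (by rw [hg.neg_left, hxu', neg_zero]) (by rw [hg.neg_left, hg.neg_right, neg_neg]; exact hxx))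
    have e2 := S.smul_mem (2 : F)⁻¹ e1
    convert e2 using 1
    simp only [SymForm.iso3, hg.neg_left, hg.neg_right, neg_neg]
    match_scalars <;> field_simp <;> ring
  obtain ⟨v, hv, hv', hvv⟩ := hg.exists_aniso_pr hd₁ hu hu' h1
  have hu'S : u' ∈ S := by
    have e1 := S.sub_mem (S.add_mem huS (hW v hv hv' hvv)) (hoS v hv hv' hvv)
    have e2 := S.smul_mem ((2 : F)⁻¹ * f₁ v v)⁻¹ e1
    convert e2 using 1
    simp only [SymForm.iso3]
    match_scalars <;> field_simp <;> ring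
  obtain ⟨p1, p2⟩ := hg.pr_perp hu hu' h1 a
  set x := SymForm.pr f₁ u u' a with hx
  have hxS : x ∈ S := by
    by_cases hxx : f₁ x x = 0
    swap
    · exact hW x p1 p2 hxx
    by_cases hp' : f₁ (x + v) (x + v) = 0
    · have h3 : f₁ (x - v) (x - v) ≠ 0 := by
        intro h0
        simp only [hg.add_left, hg.add_right, hg.sub_left, hg.sub_right, hxx, hg.symm v x] at hp' h0
        exact mul_ne_zero h2 hvv (by linear_combination hp' + h0)
      simpa using S.add_mem (hW (x - v) (by rw [hg.sub_left, p1, hv, sub_zero])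
        (by rw [hg.sub_left, p2, hv', sub_zero]) h3) (hW v hv hv' hvv)
    · simpa using S.sub_mem (hW (x + v) (by rw [hg.add_left, p1, hv, add_zero])
        (by rw [hg.add_left, p2, hv', add_zero]) hp') (hW v hv hv' hvv)
  rw [show a = x + f₁ a u' • u + f₁ a u • u' by rw [hx, SymForm.pr]; abel]
  exact S.add_mem (S.add_mem hxS (S.smul_mem _ huS)) (S.smul_mem _ hu'S)

/-- A root forces the whole of `omegaGL`. -/
theorem omega_le_of_root (hQ : CfsgLib.ClassicalForms.Nondeg Q)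
    (hline : 5 ≤ n₁ ∨ ∀ u p, u ≠ 0 → f₁ u u = 0 → f₁ u p = 0 → f₁ p p = 0 →
      p ∈ Submodule.span F {u})
    {u p : Fin n₁ → F} {w : Fin n₂ → F} (hu : f₁ u u = 0) (hu0 : u ≠ 0) (hup : f₁ u p = 0)
    (hp : p ∉ Submodule.span F {u}) (hw : f₂ w w = 0) (hw0 : w ≠ 0) (h : HasRoot Q e P M u p w) :
    Cfsg.Geo.omegaGL (⇑Q) ≤ M := by
  have hg := hT.sym₁
  have hg₂ := hT.sym₂
  have h2 := hT.two_ne
  have hd₁ : 3 ≤ Fintype.card (Fin n₁) := by rw [Fintype.card_fin]; exact hT.pos₁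
  have hd₂ : 5 ≤ Fintype.card (Fin n₂) := by rw [Fintype.card_fin]; exact hT.pos₂
  obtain ⟨d, hud, hd, hr⟩ := hT.exists_root_aniso hMI hH hline hu hu0 hup hp hw h
  have hall : ∀ w, f₂ w w = 0 → w ≠ 0 → ∀ r : F, SgIn Q M (pt e P u w) (pt e P (r • d) w) := by
    intro z hz hz0 r
    obtain ⟨b, hb, hbw⟩ := hg₂.exists_move hd₂ hw hz hw0 hz0
    have h1 := (hr r).map hMI (hH (hT.kron_mem_inf (one_mem (⁅isom f₁, isom f₁⁆)) hb))
    rwa [ap_kron, ap_kron, ap_one, ap_one, hbw] at h1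
  have hperp : ∀ w, f₂ w w = 0 → w ≠ 0 → ∀ a z, f₂ z w = 0 →
      SgIn Q M (pt e P u w) (pt e P a z) := fun w hw hw0 a z hz =>
    hT.root_perp hMI hH hu hu0 (fun w hw hw0 => hT.root_line hMI hH hu hud hd hall hw hw0)
      hw hw0 a hz
  obtain ⟨u', hu', h1⟩ := hg.exists_hyp hu hu0
  obtain ⟨x, hxu, hxu', hxx⟩ := hg.exists_aniso_pr hd₁ hu hu' h1
  have hu'x : f₁ u' x = 0 := by rw [hg.symm, hxu']
  set k := hg.rho u' x hu' hu'x
  set v := ap k u with hv
  have hvv : f₁ v v = 0 := by rw [hv, mem_isom_iff.mp (hg.rho_mem_isom hu' hu'x), hu]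
  have huv : f₁ u v ≠ 0 := by
    rw [hv, hg.ap_rho, hg.sub_right, hg.add_right, hg.smul_right, hg.smul_right, hu, h1,
      hg.symm u x, hxu]
    simpa using ⟨h2, hxx⟩
  have hk := hg.rho_mem_commutator hu' hu'x
  have hkM := hH (hT.kron_mem_inf hk (one_mem (⁅isom f₂, isom f₂⁆)))
  have hfull : Orth.Full Q M (pt e P u w) := by
    intro hQu X hX
    obtain ⟨w', hw', hww'⟩ := hg₂.exists_hyp hw hw0
    obtain ⟨w2, hw2, hw20, hw2i⟩ : ∃ w2, f₂ w2 w = 0 ∧ w2 ≠ 0 ∧ f₂ w2 w2 = 0 ∧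
        f₂ w2 w' = 0 := by
      obtain ⟨v2, hv2, hv20, hv2i⟩ := Orth.exists_singular (Q := hg₂.sq) h2
        (W := LinearMap.ker ((hg₂.fl w).prod (hg₂.fl w'))) (by
          have h3 := ((hg₂.fl w).prod (hg₂.fl w')).finrank_range_add_finrank_ker
          have h4 := Submodule.finrank_le (LinearMap.range ((hg₂.fl w).prod (hg₂.fl w')))
          rw [Module.finrank_prod, Module.finrank_self] at h4
          rw [Module.finrank_fintype_fun_eq_card] at h3
          omega)
      obtain ⟨a, b⟩ : f₂ v2 w = 0 ∧ f₂ v2 w' = 0 := by simpa using hv2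
      exact ⟨v2, a, hv20, hg₂.sq_eq_zero.mp hv2i, b⟩
    have hww2 : f₂ w w2 = 0 := by rw [hg₂.symm, hw2]
    have hw'w : f₂ w' w = 1 := by rw [hg₂.symm, hww']
    have hw'2 : f₂ w' w2 = 0 := by rw [hg₂.symm, hw2i.2]
    -- the transversal part
    have hC : ∀ a, f₁ a u = 0 → SgIn Q M (pt e P u w) (pt e P a w') := by
      intro a ha
      obtain ⟨z3, hz3⟩ := hg₂.exists_one hw20
      set z4 := (c * f₁ u v)⁻¹ • z3 with hz4
      have h3 := (hperp w2 hw2i.1 hw20 (ap k⁻¹ a) w' hw'2).map hMI hkM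
      rw [ap_kron, ap_kron, ap_one, ap_one, ← hv, ap_ap_inv] at h3
      obtain ⟨hp', hX', hm'⟩ := h3
      have h4 := (hT.root_line hMI hH hu hud hd hall hw hw0 z4).map hMI hm'
      have e1 : ap (Orth.sg Q _ _ hp' hX') (pt e P u w) = pt e P u w := by
        refine Orth.ap_sg_fix _ _ ?_ ?_
        · rw [hT.polar_pt, hww2, mul_zero, mul_zero]
        · rw [hT.polar_pt, hg.symm u a, ha, zero_mul, mul_zero]
      rw [e1, Orth.ap_sg, hT.polar_pt, hT.polar_pt, hg.symm u a, ha,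
        show c * (f₁ u v * f₂ z4 w2) = 1 by
          rw [hz4, hg₂.smul_left, hz3]
          field_simp [hT.c_ne]] at h4
      refine ((h4.sub (hT.root_line hMI hH hu hud hd hall hw hw0 z4)).add
        (hperp w hw hw0 (Q (pt e P a w') • v) w2 hw2)).congr ?_
      rw [pt_smul_left]
      module
    -- decomposition
    have hdec : X = (∑ j, pt e P (con e P (LinearMap.proj j) X)
        (Pi.single j 1 - (f₂ (Pi.single j 1) w) • w')) + pt e P (hT.cc w X) w' := by
      have h : LinearMap.id = (∑ j, (ptl e P (Pi.single j 1 - (f₂ (Pi.single j 1) w) • w')).comp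
          (con e P (LinearMap.proj j))) + (ptl e P w').comp (hT.cc w) :=
        ext_pt e P fun a z => by
          simp only [LinearMap.id_apply, LinearMap.add_apply, LinearMap.sum_apply,
            LinearMap.comp_apply, con_pt, LinearMap.proj_apply, ptl_apply, cc_pt, pt_smul_left,
            ← pt_smul_right]
          simp only [← ptr_apply e P a, ← map_sum, ← map_add]
          congr 1
          conv_lhs => rw [pi_eq_sum_univ' z]
          have hzw : f₂ z w = ∑ j, z j * f₂ (Pi.single j 1) w := by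
            conv_lhs => rw [pi_eq_sum_univ' z, ← SymForm.fl_apply hg₂, map_sum]
            simp
          simp only [smul_sub, Finset.sum_sub_distrib, smul_smul]
          rw [hzw, Finset.sum_smul, sub_add_cancel]
      simpa using LinearMap.congr_fun h X
    have hall' : SgIn Q M (pt e P u w) X := by
      rw [hdec]
      refine (SgIn.sum _ hQu fun j _ => hperp w hw hw0 _ _ ?_).add (hC _ ?_)
      · rw [hg₂.sub_left, hg₂.smul_left, hw'w, mul_one, sub_self]
      · rw [polar_comm, hT.polar_right] at hX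
        exact (mul_eq_zero.mp hX).resolve_left hT.c_ne
    exact hall'.2.2
  obtain ⟨w', hw', hww'⟩ := hg₂.exists_hyp hw hw0
  have hw'0 : w' ≠ 0 := fun h => by simp [h, hg₂.zero_right] at hww'
  obtain ⟨b, hb, hbw⟩ := hg₂.exists_move hd₂ hw hw' hw0 hw'0
  have hfull' := hfull.ap hMI (hH (hT.kron_mem_inf hk hb))
  rw [ap_kron, hbw, ← hv] at hfull'
  refine Orth.Full.le_of_pair hQ hT.five_le_card hMI hfull hfull' (hT.Q_pt_iso _ hw)
    (hT.Q_pt_iso _ hw') ?_
  rw [hT.polar_pt, hww', mul_one]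
  exact mul_ne_zero hT.c_ne huv

end OTensor

end CfsgLib.Geometric.OrthTensor
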