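import Cfsg.Agent.Lib.Geometric.OrthTensorMax.Sym

/-!
Linear maps on an orthogonal space in odd characteristic: a self-adjoint map commuting with its
conjugates by Siegel elements is scalar, and conjugation by Siegel elements reduces a non-zero
skew map to one of rank two with an isotropic vector in its range.
-/

namespace CfsgLib.Geometric.OrthTensor

open Matrix QuadraticMap

set_option linter.unusedSectionVars false
set_option linter.unusedSimpArgs false

namespace SymForm

variable {F : Type*} [Field F] {κ : Type} {g : (κ → F) → (κ → F) → F} (hg : SymForm g)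
variable [Fintype κ] [DecidableEq κ] [Finite F]
include hg

/-- A self-adjoint map whose form vanishes on the isotropic vectors is scalar. -/
theorem scalar_of_iso (hd : 3 ≤ Fintype.card κ)
    (hq : 4 ≤ Fintype.card κ ∨ ∃ t : F, t ≠ 0 ∧ t * t ≠ 1)
    {β : (κ → F) →ₗ[F] (κ → F)} (hβ : ∀ x y, g (β x) y = g x (β y))
    (h : ∀ u, g u u = 0 → g (β u) u = 0) : ∃ k : F, ∀ x, β x = k • x := by
  have h2 := hg.two_ne
  have hS : ∀ x y, g (β x) y = g (β y) x := fun x y => by rw [hβ, hg.symm]
  have key : ∀ u u' v : κ → F, g u u = 0 → g u' u' = 0 → g u u' = 1 → g v u = 0 → g v u' = 0 →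
      g (β v) v = g v v * g (β u) u' ∧ 2 * g (β u) v = g v v * g (β v) u' := by
    intro u u' v hu hu' h1 hv hv'
    have e1 := h _ (hg.iso3_spec hu hu' h1 hv hv').1
    have e2 := h _ (hg.iso3_spec hu hu' h1 (v := -v) (by rw [hg.neg_left, hv, neg_zero])
      (by rw [hg.neg_left, hv', neg_zero])).1
    simp only [iso3, map_sub, map_add, map_smul, map_neg, hg.add_left, hg.add_right, hg.sub_left,
      hg.sub_right, hg.smul_left, hg.smul_right, hg.neg_left, hg.neg_right, neg_neg,
      h u hu, h u' hu', hS u' u, hS v u, hS u' v] at e1 e2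
    have hc : 2 * (2 : F)⁻¹ = 1 := mul_inv_cancel₀ h2
    constructor <;> refine mul_left_cancel₀ h2 ?_
    · linear_combination e1 + e2 + 2 * g v v * g (β u) u' * hc
    · linear_combination e1 - e2 + 2 * g v v * g (β v) u' * hc
  obtain ⟨u, hu0, hu⟩ := hg.exists_isotropic hd
  obtain ⟨u', hu', h1⟩ := hg.exists_hyp hu hu0
  have h1' : g u' u = 1 := by rw [hg.symm, h1]
  set k := g (β u) u' with hk
  have hmid : ∀ v, g v u = 0 → g v u' = 0 → g (β u) v = 0 ∧ g (β u') v = 0 := by
    intro v hv hv'
    have hk1 := (key u u' v hu hu' h1 hv hv').2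
    have hk2 := (key u' u v hu' hu h1' hv' hv).2
    by_cases hvv : g v v = 0
    · rw [hvv, zero_mul, mul_eq_zero] at hk1 hk2
      exact ⟨hk1.resolve_left h2, hk2.resolve_left h2⟩
    have hR : g (β v) u' = 0 := by
      rcases hq with hd4 | ⟨t, ht0, ht⟩
      · obtain ⟨z, hz, hz', hzv, hzz⟩ := hg.exists_aniso_pr_two hd4 hu hu' h1 hv hv' hvv
        have e1 := (key u u' (v + z) hu hu' h1 (by rw [hg.add_left, hv, hz, add_zero])
          (by rw [hg.add_left, hv', hz', add_zero])).2
        have e2 := (key u u' (v - z) hu hu' h1 (by rw [hg.sub_left, hv, hz, sub_zero])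
          (by rw [hg.sub_left, hv', hz', sub_zero])).2
        simp only [map_sub, map_add, hg.add_left, hg.add_right, hg.sub_left, hg.sub_right, hzv,
          hg.symm v z] at e1 e2
        have e3 : 2 * g z z * g (β v) u' = 0 := by linear_combination 2 * hk1 - e1 - e2
        exact (mul_eq_zero.mp e3).resolve_left (mul_ne_zero h2 hzz)
      · have e1 := (key u u' (t • v) hu hu' h1 (by rw [hg.smul_left, hv, mul_zero])
          (by rw [hg.smul_left, hv', mul_zero])).2
        simp only [map_smul, hg.smul_left, hg.smul_right] at e1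
        have e3 : (t * (t * t - 1) * g v v) * g (β v) u' = 0 := by
          linear_combination t * hk1 - e1
        exact (mul_eq_zero.mp e3).resolve_left
          (mul_ne_zero (mul_ne_zero ht0 (sub_ne_zero.mpr ht)) hvv)
    refine ⟨?_, by rw [hS]; exact hR⟩
    rw [hR, mul_zero, mul_eq_zero] at hk1
    exact hk1.resolve_left h2
  have hmid2 : ∀ v v', g v u = 0 → g v u' = 0 → g v' u = 0 → g v' u' = 0 →
      g (β v) v' = k * g v v' := by
    intro v v' hv hv' hw hw'
    have e1 := (key u u' (v + v') hu hu' h1 (by rw [hg.add_left, hv, hw, add_zero])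
      (by rw [hg.add_left, hv', hw', add_zero])).1
    simp only [map_add, hg.add_left, hg.add_right, (key u u' v hu hu' h1 hv hv').1,
      (key u u' v' hu hu' h1 hw hw').1, hS v' v, hg.symm v' v] at e1
    refine mul_left_cancel₀ h2 ?_
    linear_combination e1
  refine ⟨k, fun x => hg.eq_of_forall fun y => ?_⟩
  obtain ⟨p1, p2⟩ := hg.pr_perp hu hu' h1 x
  obtain ⟨r1, r2⟩ := hg.pr_perp hu hu' h1 y
  set p := pr g u u' x with hp
  set r := pr g u u' y with hr
  have hx : x = p + g x u' • u + g x u • u' := by rw [hp, pr]; abel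
  have hy : y = r + g y u' • u + g y u • u' := by rw [hr, pr]; abel
  rw [hg.smul_left, hx, hy]
  simp only [map_add, map_smul, hg.add_left, hg.add_right, hg.smul_left, hg.smul_right, h u hu,
    h u' hu', hS u' u, ← hk, hmid2 p r p1 p2 r1 r2, (hmid r r1 r2).1, (hmid r r1 r2).2, hS p u,
    hS p u', (hmid p p1 p2).1, (hmid p p1 p2).2, p1, p2, hu, hu', h1, h1', hg.symm u r,
    hg.symm u' r, r1, r2]
  ring

/-- A self-adjoint map commuting with its conjugates by Siegel elements is scalar. -/
theorem scalar_of_commute (hd : 3 ≤ Fintype.card κ)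
    (hq : 4 ≤ Fintype.card κ ∨ ∃ t : F, t ≠ 0 ∧ t * t ≠ 1)
    {β : (κ → F) →ₗ[F] (κ → F)} (hβ : ∀ x y, g (β x) y = g x (β y))
    (h : ∀ u v (hu : g u u = 0) (hv : g u v = 0) x,
      β (ap (hg.rho u v hu hv) (β (ap (hg.rho u v hu hv)⁻¹ x))) =
        ap (hg.rho u v hu hv) (β (ap (hg.rho u v hu hv)⁻¹ (β x)))) :
    ∃ k : F, ∀ x, β x = k • x := by
  have h2 := hg.two_ne
  refine hg.scalar_of_iso hd hq hβ fun u hu => ?_
  by_cases hu0 : u = 0
  · rw [hu0, hg.zero_right]
  set z := β u with hz
  set α := g z u with hα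
  have key : ∀ v, g u v = 0 → 2 * α * g (β v) v - 2 * g z v * g z v - g v v * g z z +
      (2 : F)⁻¹ * g v v * g v v * α * α = 0 := by
    intro v hv
    have hv' : g u (-v) = 0 := by rw [hg.neg_right, hv, neg_zero]
    have hvu : g v u = 0 := by rw [hg.symm, hv]
    have e1 := h u v hu hv u
    have e2 := h u (-v) hu hv' u
    have s1 : g (β z) u = g z z := by rw [hβ, ← hz]
    have s2 : g (β v) u = g z v := by rw [hβ, ← hz, hg.symm]
    simp only [hg.rho_inv, hg.ap_rho, map_add, map_sub, map_smul, map_neg, neg_neg, hu, hv, hvu,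
      hg.neg_right, hg.neg_left, hg.add_left, hg.sub_left, hg.smul_left, ← hz, ← hα, s1, s2,
      mul_zero, zero_mul, add_zero, sub_zero, zero_smul, smul_zero, neg_zero] at e1 e2
    have hc : (2 : F) * (2 : F)⁻¹ = 1 := mul_inv_cancel₀ h2
    have e3 : (2 * α * g (β v) v - 2 * g z v * g z v - g v v * g z z +
        (2 : F)⁻¹ * g v v * g v v * α * α) • u = 0 := by
      have e4 := congrArg₂ (fun a b => a + b) e1 e2
      linear_combination (norm := (match_scalars <;> field_simp <;> ring)) -e4
    exact (smul_eq_zero.mp e3).resolve_right hu0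
  obtain ⟨u', hu', h1⟩ := hg.exists_hyp hu hu0
  obtain ⟨v, hv, hv', hvv⟩ := hg.exists_aniso_pr hd hu hu' h1
  have huv : g u v = 0 := by rw [hg.symm, hv]
  have hc : (2 : F) * (2 : F)⁻¹ = 1 := mul_inv_cancel₀ h2
  rcases hq with hd4 | ⟨t, ht0, ht⟩
  · obtain ⟨w, hw, -, hwv, hww⟩ := hg.exists_aniso_pr_two hd4 hu hu' h1 hv hv' hvv
    have huw : g u w = 0 := by rw [hg.symm, hw]
    have e1 := key (v + w) (by rw [hg.add_right, huv, huw, add_zero])
    have e2 := key (v - w) (by rw [hg.sub_right, huv, huw, sub_zero])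
    have e3 := key v huv
    have e4 := key w huw
    simp only [map_add, map_sub, hg.add_left, hg.add_right, hg.sub_left, hg.sub_right, hg.symm v w,
      hwv] at e1 e2
    have e5 : 2 * (g v v * g w w) * (α * α) = 0 := by
      linear_combination e1 + e2 - 2 * e3 - 2 * e4 - 2 * g v v * g w w * α * α * hc
    simpa [h2, hvv, hww] using e5
  · have e1 := key (t • v) (by rw [hg.smul_right, huv, mul_zero])
    have e3 := key v huv
    simp only [map_smul, hg.smul_left, hg.smul_right] at e1
    have e5 : (t * t * (t * t - 1) * (g v v * g v v)) * (α * α) = 0 := by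
      linear_combination 2 * e1 - 2 * t * t * e3 - t * t * (t * t - 1) * g v v * g v v * α * α * hc
    simpa [ht0, sub_ne_zero.mpr ht, hvv] using e5

omit hg in
/-- The skew map of rank at most two attached to `u` and `p`. -/
def wedge (hg : SymForm g) (u p : κ → F) : (κ → F) →ₗ[F] (κ → F) :=
  (hg.fl p).smulRight u - (hg.fl u).smulRight p

@[simp] lemma wedge_apply (u p x : κ → F) : hg.wedge u p x = g x p • u - g x u • p := rfl

/-- A family of skew maps stable under the differences with Siegel conjugates and holding a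
non-zero map holds one of rank two with an isotropic vector in its range. -/
theorem exists_wedge (hd : 3 ≤ Fintype.card κ) {P : ((κ → F) →ₗ[F] (κ → F)) → Prop}
    (hskew : ∀ B, P B → ∀ x y, g (B x) y + g x (B y) = 0)
    (hΔ : ∀ B u v (hu : g u u = 0) (hv : g u v = 0), P B →
      P ((apEquiv (hg.rho u v hu hv)).toLinearMap ∘ₗ B ∘ₗ
        (apEquiv (hg.rho u v hu hv)⁻¹).toLinearMap - B))
    {A : (κ → F) →ₗ[F] (κ → F)} (hA : P A) (hA0 : A ≠ 0) :
    ∃ u p, u ≠ 0 ∧ g u u = 0 ∧ g u p = 0 ∧ p ∉ Submodule.span F {u} ∧ P (hg.wedge u p) := by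
  have h2 := hg.two_ne
  obtain ⟨u, hu, hAu⟩ : ∃ u, g u u = 0 ∧ A u ≠ 0 := by
    by_contra h
    push Not at h
    exact hA0 (hg.eq_zero_of_iso hd h)
  have hu0 : u ≠ 0 := fun h => hAu (by rw [h, map_zero])
  obtain ⟨B, b, hB, hb, hBu⟩ : ∃ (B : (κ → F) →ₗ[F] (κ → F)) (b : F),
      P B ∧ b ≠ 0 ∧ B u = b • u := by
    by_cases hin : ∃ b : F, A u = b • u
    · obtain ⟨b, hb⟩ := hin
      exact ⟨A, b, hA, fun h => hAu (by rw [hb, h, zero_smul]), hb⟩
    push Not at hin
    have hzu : g (A u) u = 0 := by
      have e := hskew A hA u u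
      rw [hg.symm u (A u)] at e
      exact (mul_eq_zero.mp (show 2 * g (A u) u = 0 by linear_combination e)).resolve_left h2
    obtain ⟨v, hv, hzv⟩ : ∃ v, g u v = 0 ∧ g (A u) v ≠ 0 := by
      by_contra hc
      push Not at hc
      obtain ⟨u', hu', h1⟩ := hg.exists_hyp hu hu0
      refine hin (g (A u) u') (hg.eq_of_forall fun x => ?_)
      have e := hc (x - g u x • u') (by rw [hg.sub_right, hg.smul_right, h1, mul_one, sub_self])
      rw [hg.sub_right, hg.smul_right] at e
      rw [hg.smul_left]
      linear_combination e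
    refine ⟨_, -g (A u) v, hΔ A u v hu hv hA, neg_ne_zero.mpr hzv, ?_⟩
    simp [hg.rho_inv, hg.ap_rho, hu, hv, hzu, hg.neg_right, neg_smul]
  obtain ⟨v, hv, hvv⟩ := hg.exists_aniso_perp hd hu hu0
  have hvu : g v u = 0 := by rw [hg.symm, hv]
  have hBsk := hskew B hB
  refine ⟨u, B v + b • v, hu0, hu, ?_, ?_, ?_⟩
  · have e := hBsk u v
    rw [hBu, hg.smul_left, hv, mul_zero, zero_add] at e
    rw [hg.add_right, hg.smul_right, hv, e, mul_zero, add_zero]
  · intro hm
    obtain ⟨s, hs⟩ := Submodule.mem_span_singleton.mp hm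
    have e1 := congrArg (fun x => g x v) hs
    simp only [hg.smul_left, hg.add_left, hv, mul_zero] at e1
    have e2 := hBsk v v
    rw [hg.symm v (B v)] at e2
    refine mul_ne_zero hb hvv ?_
    refine (mul_eq_zero.mp (show 2 * (b * g v v) = 0 by linear_combination -2 * e1 - e2)).resolve_left h2
  · convert hΔ B u v hu hv hB using 1
    refine LinearMap.ext fun x => ?_
    have e1 : g (B x) u = -(b * g x u) := by
      have e := hBsk x u
      rw [hBu, hg.smul_right] at e
      linear_combination e
    have e2 : g (B v) u = 0 := by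
      have e := hBsk v u
      rw [hBu, hg.smul_right, hvu] at e
      linear_combination e
    have e3 : g (B x) v = -g x (B v) := eq_neg_of_add_eq_zero_left (hBsk x v)
    have e4 : g (B v) v = 0 := by
      have e := hBsk v v
      rw [hg.symm v (B v)] at e
      exact (mul_eq_zero.mp (show 2 * g (B v) v = 0 by linear_combination e)).resolve_left h2
    simp only [hg.wedge_apply, LinearMap.sub_apply, LinearMap.comp_apply, LinearEquiv.coe_coe,
      apEquiv_apply, hg.rho_inv, hg.ap_rho, map_add, map_sub, map_smul, map_neg, hBu,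
      hg.neg_right, hg.neg_left, hg.add_left, hg.add_right, hg.sub_left, hg.smul_left,
      hg.smul_right, e1, e2, e3, e4, hu, hvu, hv, neg_neg]
    match_scalars <;> field_simp <;> ring

end SymForm

end CfsgLib.Geometric.OrthTensor
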