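import Cfsg.Agent.Lib.Geometric.OrthTensorMax.Alg
import Cfsg.Agent.Lib.Geometric.TensorMaps

/-!
A quadratic form in odd characteristic whose polar form is a tensor product of two symmetric forms:
contractions and the factorwise elements of `omegaGL`.
-/

namespace CfsgLib.Geometric.OrthTensor

open Matrix QuadraticMap Tensor

set_option linter.unusedSectionVars false

variable {ι : Type} [Fintype ι] [DecidableEq ι] {F : Type*} [Field F]

/-- The polar form of `Q` is the tensor product of two symmetric forms, scaled by `c`. -/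
structure OTensor (Q : QuadraticForm F (ι → F)) {n₁ n₂ : ℕ} (e : ι ≃ Fin n₁ × Fin n₂) (P : GL ι F)
    (f₁ : (Fin n₁ → F) → (Fin n₁ → F) → F) (f₂ : (Fin n₂ → F) → (Fin n₂ → F) → F) (c : F) :
    Prop where
  sym₁ : SymForm f₁
  sym₂ : SymForm f₂
  c_ne : c ≠ 0
  pos₁ : 3 ≤ n₁
  pos₂ : 5 ≤ n₂
  polar_pt : ∀ x x' y y', polar Q (pt e P x y) (pt e P x' y') = c * (f₁ x x' * f₂ y y')

variable {Q : QuadraticForm F (ι → F)} {n₁ n₂ : ℕ} {e : ι ≃ Fin n₁ × Fin n₂} {P : GL ι F}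
  {f₁ : (Fin n₁ → F) → (Fin n₁ → F) → F} {f₂ : (Fin n₂ → F) → (Fin n₂ → F) → F} {c : F}

namespace OTensor

variable (hT : OTensor Q e P f₁ f₂ c)
include hT

lemma five_le_card : 5 ≤ Fintype.card ι := by
  have h1 := hT.pos₁
  have h2 := hT.pos₂
  rw [Fintype.card_congr e, Fintype.card_prod, Fintype.card_fin, Fintype.card_fin]
  nlinarith

lemma two_ne : (2 : F) ≠ 0 := hT.sym₁.two_ne

lemma Q_eq (x : ι → F) : Q x = (2 : F)⁻¹ * polar Q x x := by
  rw [Orth.polar_self', ← mul_assoc, inv_mul_cancel₀ hT.two_ne, one_mul]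

lemma Q_pt (a : Fin n₁ → F) (z : Fin n₂ → F) :
    Q (pt e P a z) = (2 : F)⁻¹ * (c * (f₁ a a * f₂ z z)) := by
  rw [hT.Q_eq, hT.polar_pt]

lemma Q_pt_iso (a : Fin n₁ → F) {z : Fin n₂ → F} (hz : f₂ z z = 0) : Q (pt e P a z) = 0 := by
  rw [hT.Q_pt, hz, mul_zero, mul_zero, mul_zero]

lemma Q_pt_iso' {a : Fin n₁ → F} (ha : f₁ a a = 0) (z : Fin n₂ → F) : Q (pt e P a z) = 0 := by
  rw [hT.Q_pt, ha, zero_mul, mul_zero, mul_zero]

omit hT in
/-- Contraction with `f₂(·, y)`. -/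
def cc (hT : OTensor Q e P f₁ f₂ c) (y : Fin n₂ → F) : (ι → F) →ₗ[F] (Fin n₁ → F) :=
  con e P (hT.sym₂.fl y)

@[simp] lemma cc_pt (y : Fin n₂ → F) (a : Fin n₁ → F) (z : Fin n₂ → F) :
    hT.cc y (pt e P a z) = f₂ z y • a := by simp [cc]

lemma cc_add (y y' : Fin n₂ → F) (v : ι → F) : hT.cc (y + y') v = hT.cc y v + hT.cc y' v := by
  have h : hT.cc (y + y') = hT.cc y + hT.cc y' := ext_pt e P fun a z => by
    simp [hT.sym₂.add_right, add_smul]
  exact LinearMap.congr_fun h v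

lemma cc_smul (t : F) (y : Fin n₂ → F) (v : ι → F) : hT.cc (t • y) v = t • hT.cc y v := by
  have h : hT.cc (t • y) = t • hT.cc y := ext_pt e P fun a z => by
    simp [hT.sym₂.smul_right, mul_smul]
  exact LinearMap.congr_fun h v

lemma cc_zero (v : ι → F) : hT.cc 0 v = 0 := by
  have h := hT.cc_smul 0 0 v
  simpa using h

omit hT in
/-- The contraction as a map in the contracted vector. -/
def ccl (hT : OTensor Q e P f₁ f₂ c) (v : ι → F) : (Fin n₂ → F) →ₗ[F] (Fin n₁ → F) where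
  toFun y := hT.cc y v
  map_add' y y' := hT.cc_add y y' v
  map_smul' t y := hT.cc_smul t y v

@[simp] lemma ccl_apply (v : ι → F) (y : Fin n₂ → F) : hT.ccl v y = hT.cc y v := rfl

lemma cc_neg (y : Fin n₂ → F) (v : ι → F) : hT.cc (-y) v = -hT.cc y v := (hT.ccl v).map_neg y

lemma cc_sub (y y' : Fin n₂ → F) (v : ι → F) : hT.cc (y - y') v = hT.cc y v - hT.cc y' v :=
  (hT.ccl v).map_sub y y'

/-- Pairing with a pure tensor through the contraction. -/
lemma polar_right (v : ι → F) (a : Fin n₁ → F) (z : Fin n₂ → F) :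
    polar Q v (pt e P a z) = c * f₁ (hT.cc z v) a := by
  have h : (polarBilin Q).flip (pt e P a z) = c • ((hT.sym₁.fl a).comp (hT.cc z)) :=
    ext_pt e P fun x y => by
      simp only [LinearMap.flip_apply, polarBilin_apply_apply, hT.polar_pt, LinearMap.smul_apply,
        LinearMap.comp_apply, cc_pt, SymForm.fl_apply, hT.sym₁.smul_left, smul_eq_mul]
      ring
  simpa using LinearMap.congr_fun h v

lemma polar_left (v : ι → F) (a : Fin n₁ → F) (z : Fin n₂ → F) :
    polar Q (pt e P a z) v = c * f₁ (hT.cc z v) a := by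
  rw [polar_comm, hT.polar_right]

/-- Two vectors are equal when their contractions are. -/
lemma ext_cc {X Y : ι → F} (h : ∀ z, hT.cc z X = hT.cc z Y) : X = Y := by
  refine sub_eq_zero.mp ((coords e P).symm.injective (funext fun a => ?_))
  obtain ⟨i, j⟩ := a
  obtain ⟨ω, hω⟩ : ∃ ω : Fin n₂ → F, hT.sym₂.fl ω = LinearMap.proj j := by
    obtain ⟨ω, hω⟩ := Orth.exists_eq_polar (Q := hT.sym₂.sq) hT.sym₂.nondeg_sq (LinearMap.proj j)
    exact ⟨ω, LinearMap.ext fun x => by rw [SymForm.fl_apply, ← hT.sym₂.polar_sq, hω]⟩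
  have h1 : hT.cc ω (X - Y) = 0 := by rw [map_sub, h, sub_self]
  have h2 := congrFun h1 i
  rw [cc, hω, con_apply] at h2
  simpa using h2

/-- An isometry carries contractions at a slice to contractions at its image. -/
lemma cc_ap {g : GL ι F} (hg : g ∈ Cfsg.isometryGroup F (⇑Q)) {z z' : Fin n₂ → F}
    {a a' : Fin n₁ → F} (h : ap g (pt e P a z) = pt e P a' z') (v : ι → F) :
    f₁ (hT.cc z' (ap g v)) a' = f₁ (hT.cc z v) a := by
  have h1 := Orth.polar_ap hg v (pt e P a z)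
  rw [h, hT.polar_right, hT.polar_right] at h1
  exact mul_left_cancel₀ hT.c_ne h1

/-- A map keeping the pairing of pure tensors is an isometry. -/
lemma isometry_of_pt {g : GL ι F}
    (h : ∀ x y x' y', polar Q (ap g (pt e P x y)) (ap g (pt e P x' y')) =
      c * (f₁ x x' * f₂ y y')) : g ∈ Cfsg.isometryGroup F (⇑Q) := by
  have h' : (polarBilin Q).compl₁₂ (apEquiv g).toLinearMap (apEquiv g).toLinearMap = polarBilin Q :=
    ext_pt e P fun u z => ext_pt e P fun u' z' => by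
      simp only [LinearMap.compl₁₂_apply, LinearEquiv.coe_coe, apEquiv_apply,
        polarBilin_apply_apply, h, hT.polar_pt]
  refine Orth.mem_isometryGroup_iff.mpr fun x => ?_
  rw [hT.Q_eq, hT.Q_eq x]
  congr 1
  exact LinearMap.congr_fun (LinearMap.congr_fun h' x) x

/-- Factorwise similitudes with inverse multipliers are isometries. -/
lemma kron_isometry (a : GL (Fin n₁) F) (b : GL (Fin n₂) F) {μ ν : F} (hμν : μ * ν = 1)
    (ha : ∀ x x', f₁ (ap a x) (ap a x') = μ * f₁ x x')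
    (hb : ∀ y y', f₂ (ap b y) (ap b y') = ν * f₂ y y') :
    kron e P a b ∈ Cfsg.isometryGroup F (⇑Q) := by
  refine hT.isometry_of_pt fun x y x' y' => ?_
  simp only [ap_kron, hT.polar_pt, ha, hb]
  linear_combination c * f₁ x x' * f₂ y y' * hμν

lemma kron_isometry_of_isom {a : GL (Fin n₁) F} {b : GL (Fin n₂) F} (ha : a ∈ isom f₁)
    (hb : b ∈ isom f₂) : kron e P a b ∈ Cfsg.isometryGroup F (⇑Q) :=
  hT.kron_isometry a b (μ := 1) (ν := 1) (one_mul 1)
    (fun x x' => by rw [one_mul]; exact mem_isom_iff.mp ha x x')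
    (fun y y' => by rw [one_mul]; exact mem_isom_iff.mp hb y y')

omit hT in
lemma kron_mul (a a' : GL (Fin n₁) F) (b b' : GL (Fin n₂) F) :
    kron e P (a * a') (b * b') = kron e P a b * kron e P a' b' :=
  gl_ext_pt e P fun x y => by simp [ap_mul]

omit hT in
lemma kron_one : kron e P (1 : GL (Fin n₁) F) (1 : GL (Fin n₂) F) = 1 :=
  gl_ext_pt e P fun x y => by simp

/-- Factorwise commutators of isometries lie in the stabiliser in `omegaGL`. -/
lemma kron_mem_inf {a : GL (Fin n₁) F} {b : GL (Fin n₂) F} (ha : a ∈ ⁅isom f₁, isom f₁⁆)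
    (hb : b ∈ ⁅isom f₂, isom f₂⁆) :
    kron e P a b ∈ Cfsg.Geo.tensorProductSubgroup n₁ n₂ e P ⊓ Cfsg.Geo.omegaGL (⇑Q) := by
  refine ⟨kron_mem e P a b, ?_⟩
  let φ₁ : GL (Fin n₁) F →* GL ι F :=
    MonoidHom.mk' (fun a => kron e P a (1 : GL (Fin n₂) F)) fun a a' => by
      rw [← kron_mul, one_mul]
  let φ₂ : GL (Fin n₂) F →* GL ι F :=
    MonoidHom.mk' (fun b => kron e P (1 : GL (Fin n₁) F) b) fun b b' => by
      rw [← kron_mul, one_mul]
  have h1 : (⁅isom f₁, isom f₁⁆).map φ₁ ≤ Cfsg.Geo.omegaGL (⇑Q) := by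
    rw [Subgroup.map_commutator, Orth.omegaGL_eq]
    refine Subgroup.commutator_mono ?_ ?_ <;>
    · rintro _ ⟨x, hx, rfl⟩
      exact hT.kron_isometry_of_isom hx (one_mem _)
  have h2 : (⁅isom f₂, isom f₂⁆).map φ₂ ≤ Cfsg.Geo.omegaGL (⇑Q) := by
    rw [Subgroup.map_commutator, Orth.omegaGL_eq]
    refine Subgroup.commutator_mono ?_ ?_ <;>
    · rintro _ ⟨x, hx, rfl⟩
      exact hT.kron_isometry_of_isom (one_mem _) hx
  show kron e P a b ∈ Cfsg.Geo.omegaGL (⇑Q)
  have h := mul_mem (h1 ⟨a, ha, rfl⟩) (h2 ⟨b, hb, rfl⟩)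
  simpa only [φ₁, φ₂, MonoidHom.mk'_apply, ← kron_mul, one_mul, mul_one] using h

omit hT in
/-- The factorwise Siegel element of the second factor. -/
def xs (hT : OTensor Q e P f₁ f₂ c) (w y : Fin n₂ → F) (hw : f₂ w w = 0) (hy : f₂ w y = 0) :
    GL ι F :=
  kron e P (1 : GL (Fin n₁) F) (hT.sym₂.rho w y hw hy)

lemma xs_mem {w y : Fin n₂ → F} (hw : f₂ w w = 0) (hy : f₂ w y = 0) :
    hT.xs w y hw hy ∈ Cfsg.Geo.tensorProductSubgroup n₁ n₂ e P ⊓ Cfsg.Geo.omegaGL (⇑Q) :=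
  hT.kron_mem_inf (one_mem _) (hT.sym₂.rho_mem_commutator hw hy)

lemma ap_xs {w y : Fin n₂ → F} (hw : f₂ w w = 0) (hy : f₂ w y = 0) (v : ι → F) :
    ap (hT.xs w y hw hy) v = v + pt e P (hT.cc w v) y -
      pt e P (hT.cc y v + ((2 : F)⁻¹ * f₂ y y) • hT.cc w v) w := by
  have h : (apEquiv (hT.xs w y hw hy)).toLinearMap =
      LinearMap.id + (ptl e P y).comp (hT.cc w) -
        (ptl e P w).comp (hT.cc y + ((2 : F)⁻¹ * f₂ y y) • hT.cc w) :=
    ext_pt e P fun a z => by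
      simp [xs, hT.sym₂.ap_rho, pt_add_right, pt_sub_right, pt_smul_right, pt_smul_left, pt_add_left,
        smul_smul, add_smul]
  exact LinearMap.congr_fun h v

lemma ap_xs_of_cc {w y : Fin n₂ → F} (hw : f₂ w w = 0) (hy : f₂ w y = 0) {v : ι → F}
    (hv : hT.cc w v = 0) :
    ap (hT.xs w y hw hy) v = v - pt e P (hT.cc y v) w := by
  rw [hT.ap_xs, hv, pt_zero_left, add_zero, smul_zero, add_zero]

/-- Contraction after a factorwise map with an isometry in the second factor. -/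
lemma cc_kron {a : GL (Fin n₁) F} {b : GL (Fin n₂) F} (hb : b ∈ isom f₂) (z : Fin n₂ → F)
    (v : ι → F) : hT.cc z (ap (kron e P a b) v) = ap a (hT.cc (ap b⁻¹ z) v) := by
  have h : (hT.cc z).comp (apEquiv (kron e P a b)).toLinearMap =
      (apEquiv a).toLinearMap.comp (hT.cc (ap b⁻¹ z)) := ext_pt e P fun x y => by
    have h := mem_isom_iff.mp hb y (ap b⁻¹ z)
    rw [ap_ap_inv] at h
    simp [h]
  exact LinearMap.congr_fun h v

lemma isometry_of_le {M : Subgroup (GL ι F)} (hMI : M ≤ Cfsg.isometryGroup F (⇑Q)) {g : GL ι F}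
    (hg : g ∈ M) (x y : ι → F) : polar Q (ap g x) (ap g y) = polar Q x y :=
  Orth.polar_ap (hMI hg) x y

end OTensor

end CfsgLib.Geometric.OrthTensor
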