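import Cfsg.Agent.Lib.Geometric.OrthTensorMax.Basic

/-!
The central elements of the radical of a slice stabiliser in an overgroup of the stabiliser of an
orthogonal tensor product: a non-trivial one yields Siegel elements at a pure vector.
-/

namespace CfsgLib.Geometric.OrthTensor

open Matrix QuadraticMap Tensor

set_option linter.unusedSectionVars false

variable {ι : Type} [Fintype ι] [DecidableEq ι] {F : Type*} [Field F]
variable {Q : QuadraticForm F (ι → F)} {n₁ n₂ : ℕ} {e : ι ≃ Fin n₁ × Fin n₂} {P : GL ι F}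
  {f₁ : (Fin n₁ → F) → (Fin n₁ → F) → F} {f₂ : (Fin n₂ → F) → (Fin n₂ → F) → F} {c : F}

namespace OTensor

variable (hT : OTensor Q e P f₁ f₂ c) {M : Subgroup (GL ι F)}

/-- An element of `M` adding `A` of the contraction at `w` to the slice of `w`. -/
def Cen (hT : OTensor Q e P f₁ f₂ c) (M : Subgroup (GL ι F)) (w : Fin n₂ → F)
    (A : (Fin n₁ → F) →ₗ[F] (Fin n₁ → F)) : Prop :=
  ∃ k ∈ M, ∀ X, ap k X = X + pt e P (A (hT.cc w X)) w

/-- `M` holds the Siegel elements of `u ⊗ w` and the multiples of `p ⊗ w`. -/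
def HasRoot (Q : QuadraticForm F (ι → F)) (e : ι ≃ Fin n₁ × Fin n₂) (P : GL ι F)
    (M : Subgroup (GL ι F)) (u p : Fin n₁ → F) (w : Fin n₂ → F) : Prop :=
  ∀ (r : F) (hu : Q (pt e P u w) = 0) (hp : polar Q (pt e P u w) (pt e P (r • p) w) = 0),
    Orth.sg Q (pt e P u w) (pt e P (r • p) w) hu hp ∈ M

include hT

variable {w : Fin n₂ → F} {A B : (Fin n₁ → F) →ₗ[F] (Fin n₁ → F)}

lemma Cen.congr (h : hT.Cen M w A) (hAB : A = B) : hT.Cen M w B := hAB ▸ h

lemma Cen.zero : hT.Cen M w 0 :=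
  ⟨1, one_mem M, fun X => by simp [pt_zero_left]⟩

variable (hw : f₂ w w = 0)
include hw

lemma Cen.add (h : hT.Cen M w A) (h' : hT.Cen M w B) : hT.Cen M w (A + B) := by
  obtain ⟨k, hk, hkx⟩ := h
  obtain ⟨k', hk', hkx'⟩ := h'
  refine ⟨k * k', mul_mem hk hk', fun X => ?_⟩
  rw [ap_mul, hkx', hkx, map_add, cc_pt, hw, zero_smul, add_zero, LinearMap.add_apply,
    pt_add_left]
  abel

lemma Cen.neg (h : hT.Cen M w A) : hT.Cen M w (-A) := by
  obtain ⟨k, hk, hkx⟩ := h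
  refine ⟨k⁻¹, inv_mem hk, fun X => ap_injective k ?_⟩
  rw [ap_ap_inv, hkx, map_add, cc_pt, hw, zero_smul, add_zero, LinearMap.neg_apply,
    ← ptl_apply e P w (-_), map_neg, ptl_apply]
  abel

lemma Cen.sub (h : hT.Cen M w A) (h' : hT.Cen M w B) : hT.Cen M w (A - B) := by
  rw [sub_eq_add_neg]
  exact Cen.add hT hw h (Cen.neg hT hw h')

/-- The maps occurring are skew. -/
lemma Cen.skew (hMI : M ≤ Cfsg.isometryGroup F (⇑Q)) (hw0 : w ≠ 0) (h : hT.Cen M w A)
    (x y : Fin n₁ → F) : f₁ (A x) y + f₁ x (A y) = 0 := by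
  obtain ⟨k, hk, hkx⟩ := h
  obtain ⟨z, hz⟩ := hT.sym₂.exists_one hw0
  have h1 := hT.isometry_of_le hMI hk (pt e P x z) (pt e P y z)
  rw [hkx, hkx, cc_pt, cc_pt, hz, one_smul, one_smul] at h1
  simp only [polar_add_left, polar_add_right, hT.polar_pt, hz, hw, hT.sym₂.symm w z] at h1
  apply mul_left_cancel₀ hT.c_ne
  linear_combination h1

variable (hH : Cfsg.Geo.tensorProductSubgroup n₁ n₂ e P ⊓ Cfsg.Geo.omegaGL (⇑Q) ≤ M)
include hH

/-- Conjugation by a factorwise element scaling `w`. -/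
lemma Cen.conj (h : hT.Cen M w A) {a : GL (Fin n₁) F} (ha : a ∈ ⁅isom f₁, isom f₁⁆)
    {b : GL (Fin n₂) F} (hb : b ∈ ⁅isom f₂, isom f₂⁆) {l : F} (hbw : ap b w = l • w) :
    hT.Cen M w ((l * l) • ((apEquiv a).toLinearMap ∘ₗ A ∘ₗ (apEquiv a⁻¹).toLinearMap)) := by
  obtain ⟨k, hk, hkx⟩ := h
  have hkr := hH (hT.kron_mem_inf ha hb)
  refine ⟨kron e P a b * k * (kron e P a b)⁻¹, mul_mem (mul_mem hkr hk) (inv_mem hkr),
    fun X => ?_⟩
  have hbI : b⁻¹ ∈ isom f₂ := inv_mem (Subgroup.commutator_le_self _ hb)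
  have h2 : hT.cc w (ap (kron e P a b)⁻¹ X) = l • ap a⁻¹ (hT.cc w X) := by
    rw [kron_inv, hT.cc_kron hbI, inv_inv, hbw, hT.cc_smul, ap_smul]
  rw [ap_mul, ap_mul, hkx, ap_add, ap_ap_inv, ap_kron, hbw, h2]
  simp only [LinearMap.smul_apply, LinearMap.comp_apply, LinearEquiv.coe_coe, apEquiv_apply,
    map_smul, ap_smul, pt_smul_left, pt_smul_right, smul_smul]

lemma Cen.conj_rho (h : hT.Cen M w A) {a : GL (Fin n₁) F} (ha : a ∈ ⁅isom f₁, isom f₁⁆) :
    hT.Cen M w ((apEquiv a).toLinearMap ∘ₗ A ∘ₗ (apEquiv a⁻¹).toLinearMap) :=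
  Cen.congr hT (Cen.conj hT hw hH h ha (one_mem _) (l := 1) (by simp)) (by simp)

variable [Finite F]

/-- The maps occurring form a subspace. -/
lemma Cen.smul (hw0 : w ≠ 0) (h : hT.Cen M w A) (t : F) : hT.Cen M w (t • A) := by
  have key : ∀ l : F, hT.Cen M w ((l * l) • A) := by
    intro l
    by_cases hl : l = 0
    · rw [hl, zero_mul, zero_smul]; exact Cen.zero hT
    obtain ⟨b, hb, hbw⟩ := hT.sym₂.exists_move (by rw [Fintype.card_fin]; exact hT.pos₂) hw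
      (b := l • w) (by rw [hT.sym₂.smul_left, hT.sym₂.smul_right, hw, mul_zero, mul_zero]) hw0
      (smul_ne_zero hl hw0)
    exact Cen.congr hT (Cen.conj hT hw hH h (one_mem _) hb hbw) (by ext; simp)
  have h2 := hT.two_ne
  refine Cen.congr hT (Cen.sub hT hw (key ((t + 1) / 2)) (key ((t - 1) / 2))) ?_
  match_scalars
  field_simp
  ring

omit [Finite F] hH in
lemma root_apply {u p : Fin n₁ → F} (r : F) (hu : Q (pt e P u w) = 0)
    (hp : polar Q (pt e P u w) (pt e P (r • p) w) = 0) (X : ι → F) :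
    ap (Orth.sg Q (pt e P u w) (pt e P (r • p) w) hu hp) X =
      X + pt e P (((-(c * r)) • hT.sym₁.wedge u p) (hT.cc w X)) w := by
  have hwd : ∀ x, hT.sym₁.wedge u p x = f₁ x p • u - f₁ x u • p := fun x => rfl
  rw [Orth.ap_sg, hT.polar_right, hT.polar_right, hT.Q_pt_iso _ hw, hT.sym₁.smul_right,
    LinearMap.smul_apply, hwd]
  simp only [smul_sub, pt_sub_left, pt_smul_left, smul_smul, zero_mul, add_zero]
  module

/-- A non-trivial central element yields Siegel elements at a pure vector. -/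
theorem exists_root (hMI : M ≤ Cfsg.isometryGroup F (⇑Q)) (hw0 : w ≠ 0) (h : hT.Cen M w A)
    (hA : A ≠ 0) :
    ∃ u p, u ≠ 0 ∧ f₁ u u = 0 ∧ f₁ u p = 0 ∧ p ∉ Submodule.span F {u} ∧
      HasRoot Q e P M u p w := by
  obtain ⟨u, p, hu0, hu, hup, hp, hP⟩ := hT.sym₁.exists_wedge
    (by rw [Fintype.card_fin]; exact hT.pos₁) (P := hT.Cen M w)
    (fun B hB => Cen.skew hT hw hMI hw0 hB)
    (fun B u v hu hv hB => Cen.sub hT hw
      (Cen.conj_rho hT hw hH hB (hT.sym₁.rho_mem_commutator hu hv)) hB) h hA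
  refine ⟨u, p, hu0, hu, hup, hp, fun r hu' hp' => ?_⟩
  obtain ⟨k, hk, hkx⟩ := Cen.smul hT hw hH hw0 hP (-(c * r))
  convert hk using 1
  exact gl_ext fun X => by rw [hT.root_apply hw r hu' hp', hkx]

end OTensor

end CfsgLib.Geometric.OrthTensor
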