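import Cfsg.Agent.Lib.Geometric.TensorMaps

/-!
The fixed space of a Kronecker product whose first factor is unipotent.
-/

namespace CfsgLib.Geometric.Tensor

open Matrix

variable {ι : Type} [Fintype ι] [DecidableEq ι] {F : Type*} [Field F]
variable {n₁ n₂ : ℕ} (e : ι ≃ Fin n₁ × Fin n₂) (P : GL ι F)

lemma conr_add (η η' : (Fin n₁ → F) →ₗ[F] F) :
    conr e P (η + η') = conr e P η + conr e P η' :=
  ext_pt e P fun x y => by simp [add_smul]

lemma conr_smul (t : F) (η : (Fin n₁ → F) →ₗ[F] F) : conr e P (t • η) = t • conr e P η :=
  ext_pt e P fun x y => by simp [smul_smul]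

lemma conr_zero : conr e P (0 : (Fin n₁ → F) →ₗ[F] F) = 0 :=
  ext_pt e P fun x y => by simp

/-- If `a - 1` is nilpotent the fixed space of `a ⊗ b` has at most the dimension of `n₂` copies of
the fixed space of `a`. -/
theorem finrank_fixed_le (a : GL (Fin n₁) F) (b : GL (Fin n₂) F) {k : ℕ}
    (hnil : ∀ x, (((apEquiv a).toLinearMap - LinearMap.id : Module.End F (Fin n₁ → F)) ^ k) x = 0) :
    Module.finrank F (LinearMap.ker ((apEquiv (kron e P a b)).toLinearMap - LinearMap.id)) ≤
      Module.finrank F (LinearMap.ker ((apEquiv a).toLinearMap - LinearMap.id)) * n₂ := by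
  classical
  set N : Module.End F (Fin n₁ → F) := (apEquiv a).toLinearMap - LinearMap.id with hN
  obtain ⟨S, hS⟩ := (LinearMap.range N.dualMap).exists_isCompl
  have hSdim : Module.finrank F S = Module.finrank F (LinearMap.ker N) := by
    have h1 := Submodule.finrank_add_eq_of_isCompl hS
    rw [LinearMap.finrank_range_dualMap_eq_finrank_range, Subspace.dual_finrank_eq] at h1
    have h2 := LinearMap.finrank_range_add_finrank_ker N
    omega
  have : Module.Free F S := Module.Free.of_divisionRing F S
  let bS := Module.finBasis F S
  set Fix := LinearMap.ker ((apEquiv (kron e P a b)).toLinearMap - LinearMap.id) with hFix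
  let Φ : Fix →ₗ[F] (Fin (Module.finrank F S) → Fin n₂ → F) :=
    LinearMap.pi fun i => (conr e P (bS i : (Fin n₁ → F) →ₗ[F] F)).comp Fix.subtype
  have hinj : Function.Injective Φ := by
    rw [injective_iff_map_eq_zero]
    rintro ⟨X, hX⟩ hΦ
    have hX' : ap (kron e P a b) X = X := by
      have := hX
      rw [hFix, LinearMap.mem_ker, LinearMap.sub_apply, sub_eq_zero] at this
      simpa using this
    let K : Submodule F (Module.Dual F (Fin n₁ → F)) :=
      { carrier := {η | conr e P η X = 0}
        add_mem' := fun {p r} hp hr => by
          show conr e P (p + r) X = 0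
          rw [conr_add, LinearMap.add_apply, show conr e P p X = 0 from hp,
            show conr e P r X = 0 from hr, add_zero]
        zero_mem' := by show conr e P 0 X = 0; rw [conr_zero, LinearMap.zero_apply]
        smul_mem' := fun t p hp => by
          show conr e P (t • p) X = 0
          rw [conr_smul, LinearMap.smul_apply, show conr e P p X = 0 from hp, smul_zero] }
    have hSK : S ≤ K := by
      intro η hη
      have hb : ∀ i, ((bS i : S) : Module.Dual F (Fin n₁ → F)) ∈ K := fun i => by
        have := congrFun hΦ i
        exact this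
      have h := congrArg Subtype.val (bS.sum_repr ⟨η, hη⟩)
      simp only [Submodule.coe_sum, Submodule.coe_smul] at h
      rw [← h]
      exact K.sum_mem fun i _ => K.smul_mem _ (hb i)
    have hinv : ∀ η ∈ K, N.dualMap η ∈ K := by
      intro η hη
      have h : (conr e P η).comp (apEquiv (kron e P a b)).toLinearMap =
          (apEquiv b).toLinearMap.comp (conr e P (η.comp (apEquiv a).toLinearMap)) :=
        ext_pt e P fun x y => by simp
      have h2 : conr e P (η.comp (apEquiv a).toLinearMap) X = 0 := by
        apply ap_injective b
        have h3 := LinearMap.congr_fun h X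
        simp only [LinearMap.comp_apply, LinearEquiv.coe_coe, apEquiv_apply, hX'] at h3
        rw [ap_zero, ← h3]
        exact hη
      have h4 : N.dualMap η = η.comp (apEquiv a).toLinearMap - η := by
        refine LinearMap.ext fun x => ?_
        simp [hN, LinearMap.dualMap_apply]
      rw [h4]
      exact K.sub_mem h2 hη
    have hall : ∀ j : ℕ, ∀ η, ∃ s ∈ K, ∃ ξ, η = s + (N.dualMap ^ j) ξ := by
      intro j
      induction j with
      | zero => exact fun η => ⟨0, K.zero_mem, η, by simp⟩
      | succ j ih =>
        intro η
        obtain ⟨s, hs, ξ, rfl⟩ := ih η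
        obtain ⟨s', hs', r, ⟨ξ', rfl⟩, rfl⟩ := Submodule.mem_sup.mp
          ((hS.symm.sup_eq_top).symm ▸ Submodule.mem_top (x := ξ))
        refine ⟨s + (N.dualMap ^ j) s', K.add_mem hs ?_, ξ', ?_⟩
        · have hpow : ∀ i, (N.dualMap ^ i) s' ∈ K := fun i => by
            induction i with
            | zero => simpa using hSK hs'
            | succ i ih => rw [pow_succ']; exact hinv _ ih
          exact hpow j
        · rw [map_add, pow_succ, Module.End.mul_apply]
          abel
    have hpow : ∀ j : ℕ, (N.dualMap ^ j : Module.End F _) = (N ^ j).dualMap := fun j => by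
      induction j with
      | zero => rfl
      | succ j ih =>
        rw [pow_succ', pow_succ, ih]
        rfl
    refine Subtype.ext ((coords e P).symm.injective (funext fun p => ?_))
    obtain ⟨i, j⟩ := p
    obtain ⟨s, hs, ξ, hξ⟩ := hall k (LinearMap.proj i)
    have hzero : (N.dualMap ^ k) ξ = 0 := by
      rw [hpow]
      exact LinearMap.ext fun x => by rw [LinearMap.dualMap_apply, hnil, map_zero]; rfl
    rw [hzero, add_zero] at hξ
    have h0 : conr e P (LinearMap.proj i) X = 0 := by rw [hξ]; exact hs
    have h5 := congrFun h0 j
    rw [conr_apply] at h5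
    simpa using h5
  have h := LinearMap.finrank_le_finrank_of_injective hinj
  rw [Module.finrank_pi_fintype] at h
  simpa [hSdim] using h

end CfsgLib.Geometric.Tensor
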