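import Cfsg.Agent.Lib.Geometric.OrthTensorMax.Slice
import Cfsg.Agent.Lib.Geometric.OrthTensorMax.Fix
import Cfsg.Agent.Lib.Geometric.LinearTensorUnip

/-!
In a proper overgroup of the stabiliser of an orthogonal tensor product a conjugate of a factorwise
Siegel element is factorwise only trivially, and one of a factorwise reflection only if the
conjugating element carries a slice to the slice of the reflection.
-/

namespace CfsgLib.Geometric.OrthTensor

open Matrix QuadraticMap Tensor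

set_option linter.unusedSectionVars false
set_option linter.unusedVariables false
set_option linter.style.haveILetI false
set_option linter.unusedSimpArgs false

variable {ι : Type} [Fintype ι] [DecidableEq ι] {F : Type*} [Field F]
variable {Q : QuadraticForm F (ι → F)} {n₁ n₂ : ℕ} {e : ι ≃ Fin n₁ × Fin n₂} {P : GL ι F}
  {f₁ : (Fin n₁ → F) → (Fin n₁ → F) → F} {f₂ : (Fin n₂ → F) → (Fin n₂ → F) → F} {c : F}

/-- A scalar multiple of an invertible matrix. -/
def smulGL {κ : Type} [Fintype κ] [DecidableEq κ] (s : F) (hs : s ≠ 0) (a : GL κ F) : GL κ F :=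
  ofEquiv ((apEquiv a).trans (LinearEquiv.smulOfNeZero F (κ → F) s hs))

lemma ap_smulGL {κ : Type} [Fintype κ] [DecidableEq κ] {s : F} (hs : s ≠ 0) (a : GL κ F)
    (x : κ → F) : ap (smulGL s hs a) x = s • ap a x := by
  rw [smulGL, ap_ofEquiv]; rfl

lemma ap_pow_smulGL {κ : Type} [Fintype κ] [DecidableEq κ] {s : F} (hs : s ≠ 0) (a : GL κ F)
    (m : ℕ) (x : κ → F) : ap (smulGL s hs a ^ m) x = s ^ m • ap (a ^ m) x := by
  induction m generalizing x with
  | zero => simp
  | succ m ih => rw [pow_succ, ap_mul, ih, ap_smulGL, ap_smul, smul_smul, ← pow_succ, pow_succ a, ap_mul]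

namespace OTensor

variable (hT : OTensor Q e P f₁ f₂ c) {M : Subgroup (GL ι F)} [Finite F] (hM : hT.Small M)
include hT

omit [Finite F] in
lemma xs_pow {w y : Fin n₂ → F} (hw : f₂ w w = 0) (hy : f₂ w y = 0) (m : ℕ) :
    hT.xs w y hw hy ^ m =
      hT.xs w ((m : F) • y) hw (by rw [hT.sym₂.smul_right, hy, mul_zero]) := by
  induction m with
  | zero =>
    refine gl_ext fun X => ?_
    rw [pow_zero, ap_one, hT.ap_xs]
    simp [hT.cc_zero, hT.sym₂.zero_left, pt_zero_left, pt_zero_right]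
  | succ m ih =>
    rw [pow_succ, ih]
    refine gl_ext_pt e P fun a z => ?_
    simp only [xs, ap_mul, ap_kron, ap_one]
    congr 1
    rw [← ap_mul, SymForm.rho, SymForm.rho, SymForm.rho, Orth.sg_mul', Orth.ap_sg, Orth.ap_sg]
    simp only [Nat.cast_succ, add_smul, one_smul]

include hM

/-- A first factor with a unipotent conjugate of a Siegel element is trivial. -/
lemma eq_one_of_fixed (h12 : n₁ < n₂) {p : ℕ} [hp : Fact p.Prime] [CharP F p]
    {a : GL (Fin n₁) F} {b : GL (Fin n₂) F} (ha : a ^ p = 1) (haI : a ∈ isom f₁)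
    (hfix : n₁ * n₂ ≤ Module.finrank F
      (LinearMap.ker ((apEquiv (kron e P a b)).toLinearMap - LinearMap.id)) + 2 * n₁) : a = 1 := by
  classical
  have hg := hT.sym₁
  have h3 := hT.pos₁
  set A : Module.End F (Fin n₁ → F) := (apEquiv a).toLinearMap with hA
  set N : Module.End F (Fin n₁ → F) := A - LinearMap.id with hN
  have hApow : ∀ (m : ℕ) x, (A ^ m) x = ap (a ^ m) x := by
    intro m
    induction m with
    | zero => simp
    | succ m ih =>
      intro x
      rw [pow_succ, pow_succ, Module.End.mul_apply, ih, ap_mul]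
      rfl
  haveI : Nontrivial (Fin n₁ → F) := by
    haveI : Nonempty (Fin n₁) := ⟨⟨0, by omega⟩⟩
    infer_instance
  haveI : CharP (Module.End F (Fin n₁ → F)) p :=
    charP_of_injective_algebraMap (algebraMap F (Module.End F (Fin n₁ → F))).injective p
  have hnil : ∀ x, (N ^ p) x = 0 := by
    intro x
    rw [hN, show (LinearMap.id : Module.End F (Fin n₁ → F)) = 1 from rfl,
      sub_pow_char_of_commute p (Commute.one_right A), one_pow, LinearMap.sub_apply, hApow, ha]
    simp
  by_contra ha1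
  have hrank : 2 ≤ Module.finrank F (LinearMap.range N) := by
    by_contra hc
    obtain ⟨v, hv⟩ := finrank_le_one_iff.mp (show Module.finrank F (LinearMap.range N) ≤ 1 by omega)
    set q : Fin n₁ → F := (v : Fin n₁ → F) with hq
    have hspan : ∀ x, ∃ t : F, N x = t • q := fun x => by
      obtain ⟨t, ht⟩ := hv ⟨N x, LinearMap.mem_range_self N x⟩
      exact ⟨t, (congrArg Subtype.val ht).symm⟩
    obtain ⟨x₀, hx₀⟩ : ∃ x, N x ≠ 0 := by
      by_contra hc'
      push Not at hc'
      refine ha1 (gl_ext fun x => ?_)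
      have := hc' x
      rw [hN, LinearMap.sub_apply, sub_eq_zero] at this
      simpa [hA] using this
    have hq0 : q ≠ 0 := fun h => by
      obtain ⟨t, ht⟩ := hspan x₀
      exact hx₀ (by rw [ht, h, smul_zero])
    obtain ⟨η, -, hη⟩ := exists_functional_eq_one
      (U := (⊥ : Submodule F (Fin n₁ → F))) (x := q) (by simpa using hq0)
    set φ := η.comp N with hφ
    have hNx : ∀ x, N x = φ x • q := fun x => by
      obtain ⟨t, ht⟩ := hspan x
      rw [hφ, LinearMap.comp_apply, ht, map_smul, hη, smul_eq_mul, mul_one]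
    have hax : ∀ x, ap a x = x + φ x • q := fun x => by
      have h := hNx x
      rw [hN, LinearMap.sub_apply, sub_eq_iff_eq_add'] at h
      simpa [hA] using h
    have he : φ q = 0 := by
      have hpw : ∀ m : ℕ, ap (a ^ m) q = (1 + φ q) ^ m • q := by
        intro m
        induction m with
        | zero => simp
        | succ m ih =>
          rw [pow_succ', ap_mul, ih, ap_smul, hax, pow_succ]
          module
      have h1 := hpw p
      rw [ha, ap_one] at h1
      have h2 : (1 + φ q) ^ p = 1 := by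
        have h3 : ((1 + φ q) ^ p - 1) • q = 0 := by rw [sub_smul, one_smul, ← h1, sub_self]
        exact sub_eq_zero.mp ((smul_eq_zero.mp h3).resolve_right hq0)
      have h4 : frobenius F p (1 + φ q) = frobenius F p 1 := by
        rw [frobenius_def, frobenius_def, h2, one_pow]
      simpa using frobenius_inj F p h4
    have hqq : f₁ q q = 0 := by
      have h1 := mem_isom_iff.mp haI x₀ q
      rw [hax, hax q, he, zero_smul, add_zero, hg.add_left, hg.smul_left, add_eq_left,
        mul_eq_zero] at h1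
      refine h1.resolve_left fun h => hx₀ ?_
      rw [hNx, h, zero_smul]
    have hzero : ∀ x, φ x = 0 ∨ f₁ x q = 0 := fun x => by
      have h1 := mem_isom_iff.mp haI x x
      rw [hax, hg.add_left, hg.add_right, hg.add_right, hg.smul_left, hg.smul_left, hg.smul_right,
        hg.smul_right, hqq, hg.symm q x] at h1
      have h2 : 2 * (φ x * f₁ x q) = 0 := by linear_combination h1
      exact mul_eq_zero.mp ((mul_eq_zero.mp h2).resolve_left hg.two_ne)
    obtain ⟨x₁, hx₁⟩ := hg.exists_one hq0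
    have hφx₁ : φ x₁ = 0 := (hzero x₁).resolve_right (by rw [hx₁]; exact one_ne_zero)
    have hφx₀ : φ x₀ ≠ 0 := fun h => hx₀ (by rw [hNx, h, zero_smul])
    have hx₀q : f₁ x₀ q = 0 := (hzero x₀).resolve_left hφx₀
    rcases hzero (x₀ + x₁) with h | h
    · rw [map_add, hφx₁, add_zero] at h; exact hφx₀ h
    · rw [hg.add_left, hx₀q, hx₁, zero_add] at h; exact one_ne_zero h
  have hker : Module.finrank F (LinearMap.ker N) + 2 ≤ n₁ := by
    have h1 := LinearMap.finrank_range_add_finrank_ker N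
    rw [Module.finrank_fin_fun] at h1
    omega
  have h := finrank_fixed_le e P a b (k := p) hnil
  have h' : Module.finrank F (LinearMap.ker N) * n₂ + 2 * n₂ ≤ n₁ * n₂ := by
    rw [← Nat.add_mul]
    exact Nat.mul_le_mul_right _ hker
  rw [← hA, ← hN] at h
  omega

/-- A conjugate of a factorwise Siegel element is factorwise only trivially. -/
theorem mem_of_conj_xs (h12 : n₁ < n₂) {g : GL ι F} (hg : g ∈ M) {w y : Fin n₂ → F}
    (hw : f₂ w w = 0) (hw0 : w ≠ 0) (hy : f₂ w y = 0) (hyn : y ∉ Submodule.span F {w})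
    (hk : g * hT.xs w y hw hy * g⁻¹ ∈ Cfsg.Geo.tensorProductSubgroup n₁ n₂ e P) :
    g ∈ Cfsg.Geo.tensorProductSubgroup n₁ n₂ e P := by
  classical
  have hg₁ := hT.sym₁
  have hg₂ := hT.sym₂
  have h2 := hT.two_ne
  have hp₁ := hT.pos₁
  obtain ⟨p, hcp⟩ := CharP.exists F
  haveI hp : Fact p.Prime := ⟨CharP.char_is_prime F p⟩
  have hgI := hM.le_isom hg
  set x := hT.xs w y hw hy with hxdef
  set k := g * x * g⁻¹ with hkdef
  have hxp : x ^ p = 1 := by
    rw [hxdef, hT.xs_pow]
    refine gl_ext fun X => ?_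
    rw [hT.ap_xs, ap_one, CharP.cast_eq_zero F p]
    simp [hT.cc_zero, hg₂.zero_left, pt_zero_left, pt_zero_right]
  have hkp : k ^ p = 1 := by rw [hkdef, conj_pow, hxp, mul_one, mul_inv_cancel]
  obtain ⟨a, b, hab⟩ := (mem_iff e P k).mp hk
  have hkab : k = kron e P a b := gl_ext_pt e P fun u r => by rw [hab, ap_kron]
  obtain ⟨r₀, hr₀⟩ : ∃ r : Fin n₂ → F, r ≠ 0 :=
    ⟨Pi.single ⟨0, by omega⟩ 1, fun h => by simpa using congrFun h ⟨0, by omega⟩⟩
  -- normalise the first factor
  have habp : ∀ m u r, ap (k ^ m) (pt e P u r) = pt e P (ap (a ^ m) u) (ap (b ^ m) r) := by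
    intro m
    induction m with
    | zero => simp
    | succ m ih => intro u r; rw [pow_succ, ap_mul, hab, ih, ← ap_mul, ← ap_mul, ← pow_succ, ← pow_succ]
  have heig : ∀ u, ∃ s : F, (apEquiv (a ^ p)).toLinearMap u = s • u := by
    intro u
    have h := habp p u r₀
    rw [hkp, ap_one] at h
    obtain ⟨j, hj⟩ := Function.ne_iff.mp (ap_ne_zero (b ^ p) hr₀)
    refine ⟨r₀ j / ap (b ^ p) r₀ j, funext fun i => ?_⟩
    have h2 := congrFun ((coords e P).injective h) (i, j)
    simp only [Pi.zero_apply] at hj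
    simp only [LinearEquiv.coe_coe, apEquiv_apply, Pi.smul_apply, smul_eq_mul] at h2 ⊢
    field_simp
    linear_combination -h2
  obtain ⟨μ, hμ⟩ := exists_scalar heig
  simp only [LinearEquiv.coe_coe, apEquiv_apply] at hμ
  have hμ0 : μ ≠ 0 := fun h => by
    have hu : (Pi.single ⟨0, by omega⟩ 1 : Fin n₁ → F) ≠ 0 := fun h' => by
      simpa using congrFun h' ⟨0, by omega⟩
    exact ap_ne_zero (a ^ p) hu (by rw [hμ, h, zero_smul])
  obtain ⟨ρ, hρ⟩ := (Finite.injective_iff_surjective.mp (frobenius_inj F p)) μ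
  rw [frobenius_def] at hρ
  have hρ0 : ρ ≠ 0 := fun h => hμ0 (by rw [← hρ, h, zero_pow hp.out.ne_zero])
  set a' := smulGL ρ⁻¹ (inv_ne_zero hρ0) a with ha'
  set b' := smulGL ρ hρ0 b with hb'
  have hab' : ∀ u r, ap k (pt e P u r) = pt e P (ap a' u) (ap b' r) := fun u r => by
    rw [ha', hb', ap_smulGL, ap_smulGL, pt_smul_left, pt_smul_right, smul_smul,
      inv_mul_cancel₀ hρ0, one_smul, hab]
  have ha'p : a' ^ p = 1 := gl_ext fun u => by
    rw [ha', ap_pow_smulGL, hμ, smul_smul, ap_one, inv_pow, ← hρ, inv_mul_cancel₀ (pow_ne_zero _ hρ0),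
      one_smul]
  -- it is an isometry
  have hkI : k ∈ Cfsg.isometryGroup F (⇑Q) :=
    mul_mem (mul_mem hgI (hM.le_isom (hM.stab_le (hT.xs_mem hw hy)))) (inv_mem hgI)
  have hmul : ∀ u u' r r', f₁ (ap a' u) (ap a' u') * f₂ (ap b' r) (ap b' r') =
      f₁ u u' * f₂ r r' := fun u u' r r' => by
    have h := Orth.polar_ap hkI (pt e P u r) (pt e P u' r')
    rw [hab', hab', hT.polar_pt, hT.polar_pt] at h
    exact mul_left_cancel₀ hT.c_ne h
  obtain ⟨yA, -, -, hyA⟩ := hg₂.exists_aniso_two hT.pos₂ w w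
  obtain ⟨ua, hua0, hua⟩ : ∃ ua, ua ≠ 0 ∧ f₁ ua ua ≠ 0 := by
    obtain ⟨x, hx0, hx⟩ := hg₁.exists_isotropic (by rw [Fintype.card_fin]; exact hp₁)
    obtain ⟨v, -, hv⟩ := hg₁.exists_aniso_perp (by rw [Fintype.card_fin]; exact hp₁) hx hx0
    exact ⟨v, fun h => hv (by rw [h, hg₁.zero_left]), hv⟩
  set d := f₂ (ap b' yA) (ap b' yA) with hd
  have hd0 : d ≠ 0 := fun h => by
    have h1 := hmul ua ua yA yA
    rw [← hd, h, mul_zero] at h1
    exact mul_ne_zero hua hyA h1.symm
  set ν := f₂ yA yA / d with hν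
  have hsim : ∀ u u', f₁ (ap a' u) (ap a' u') = ν * f₁ u u' := fun u u' => by
    rw [hν, div_mul_eq_mul_div, eq_div_iff hd0, hd, hmul u u' yA yA, mul_comm]
  have hν1 : ν = 1 := by
    have hpw : ∀ m : ℕ, ∀ u u', f₁ (ap (a' ^ m) u) (ap (a' ^ m) u') = ν ^ m * f₁ u u' := by
      intro m
      induction m with
      | zero => simp
      | succ m ih => intro u u'; rw [pow_succ', ap_mul, ap_mul, hsim, ih, ← mul_assoc, ← pow_succ']
    have h1 := hpw p ua ua
    rw [ha'p, ap_one] at h1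
    have h4 : frobenius F p ν = frobenius F p 1 := by
      rw [frobenius_def, frobenius_def, one_pow]
      exact mul_right_cancel₀ hua (by rw [one_mul, ← h1])
    exact frobenius_inj F p h4
  -- it is trivial
  set δ : (ι → F) →ₗ[F] (ι → F) := (apEquiv x).toLinearMap - LinearMap.id with hδ
  have hδx : ∀ X, δ X = pt e P (hT.cc w X) y -
      pt e P (hT.cc y X + ((2 : F)⁻¹ * f₂ y y) • hT.cc w X) w := fun X => by
    simp only [hδ, LinearMap.sub_apply, LinearEquiv.coe_coe, apEquiv_apply, LinearMap.id_apply,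
      hxdef, hT.ap_xs]
    abel
  have hkδ : ∀ X, ap k X - X = ap g (δ (ap g⁻¹ X)) := fun X => by
    simp only [hδ, LinearMap.sub_apply, LinearEquiv.coe_coe, apEquiv_apply, LinearMap.id_apply,
      ap_sub, ap_ap_inv, hkdef, ap_mul]
  have hfix : n₁ * n₂ ≤ Module.finrank F
      (LinearMap.ker ((apEquiv (kron e P a' b')).toLinearMap - LinearMap.id)) + 2 * n₁ := by
    have hk' : kron e P a' b' = k := gl_ext_pt e P fun u r => by rw [ap_kron, hab']
    set L := LinearMap.ker ((hT.cc w).prod (hT.cc y)) with hLdef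
    have hL : n₁ * n₂ ≤ Module.finrank F L + 2 * n₁ := by
      have h3 := ((hT.cc w).prod (hT.cc y)).finrank_range_add_finrank_ker
      have h4 := Submodule.finrank_le (LinearMap.range ((hT.cc w).prod (hT.cc y)))
      rw [Module.finrank_prod, Module.finrank_fin_fun] at h4
      rw [Module.finrank_fintype_fun_eq_card, Fintype.card_congr e, Fintype.card_prod,
        Fintype.card_fin, Fintype.card_fin] at h3
      rw [hLdef]
      omega
    refine le_trans hL (Nat.add_le_add_right ?_ _)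
    rw [← LinearEquiv.finrank_map_eq (apEquiv g) L]
    refine Submodule.finrank_mono ?_
    rintro _ ⟨X, hX, rfl⟩
    obtain ⟨hX1, hX2⟩ : hT.cc w X = 0 ∧ hT.cc y X = 0 := by simpa [hLdef] using hX
    rw [LinearMap.mem_ker, LinearMap.sub_apply, hk', LinearMap.id_apply]
    simp only [LinearEquiv.coe_coe, apEquiv_apply, hkδ, ap_inv_ap, hδx, hX1, hX2, smul_zero,
      add_zero, pt_zero_left, sub_zero, ap_zero]
  have ha1 : a' = 1 := hT.eq_one_of_fixed hM h12 (p := p) ha'p
    (mem_isom_iff.mpr fun u u' => by rw [hsim, hν1, one_mul]) hfix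
  have hk1 : ∀ u r, ap k (pt e P u r) = pt e P u (ap b' r) := fun u r => by rw [hab', ha1, ap_one]
  have hz : ∀ r, ∀ u, ap g⁻¹ (pt e P u (ap b' r - r)) = δ (ap g⁻¹ (pt e P u r)) := fun r u => by
    apply ap_injective g
    rw [ap_ap_inv, ← hkδ, hk1, pt_sub_right]
  -- the case of an anisotropic vector
  have haniso : ∀ {y : Fin n₂ → F} (hy : f₂ w y = 0), f₂ y y ≠ 0 → ∀ {g : GL ι F}, g ∈ M →
      ∀ {b' : GL (Fin n₂) F}, (∀ u r, ap (g * hT.xs w y hw hy * g⁻¹) (pt e P u r) =
        pt e P u (ap b' r)) → g ∈ Cfsg.Geo.tensorProductSubgroup n₁ n₂ e P := by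
    intro y hy hyy g hg b' hk1
    set x := hT.xs w y hw hy with hxdef
    set N2 : (Fin n₂ → F) → (Fin n₂ → F) := fun r => ap b' (ap b' r - r) - (ap b' r - r) with hN2
    have hδ2 : ∀ X, ap x (ap x X - X) - (ap x X - X) = (-(f₂ y y)) • pt e P (hT.cc w X) w := by
      intro X
      simp only [hxdef, hT.ap_xs, map_sub, map_add, map_smul, cc_pt, hw, hy, hT.sym₂.symm y w,
        pt_sub_left, pt_add_left, pt_smul_left, zero_smul, smul_zero, add_zero, sub_zero,
        pt_zero_left]
      match_scalars <;> field_simp <;> ring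
    have hN2' : ∀ u r, pt e P u (N2 r) =
        ap g ((-(f₂ y y)) • pt e P (hT.cc w (ap g⁻¹ (pt e P u r))) w) := by
      intro u r
      simp only [hN2, pt_sub_right, ← hk1, ← hδ2, ap_sub, ap_mul, ap_ap_inv, ap_inv_ap, ap_add]
    obtain ⟨ua, hua0, hua⟩ : ∃ ua, ua ≠ 0 ∧ f₁ ua ua ≠ 0 := ⟨ua, hua0, hua⟩
    obtain ⟨r, hr⟩ : ∃ r, N2 r ≠ 0 := by
      by_contra hc
      push Not at hc
      obtain ⟨z₀, hz₀⟩ := hg₂.exists_one hw0
      have h0 : (apEquiv g).toLinearMap ∘ₗ ((-(f₂ y y)) • (ptl e P w).comp (hT.cc w)) ∘ₗ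
          (apEquiv g⁻¹).toLinearMap = 0 := ext_pt e P fun u r => by
        simp only [LinearMap.comp_apply, LinearMap.smul_apply, LinearEquiv.coe_coe, apEquiv_apply,
          ptl_apply, LinearMap.zero_apply, ← hN2', hc r, pt_zero_right]
      have h1 := LinearMap.congr_fun h0 (ap g (pt e P ua z₀))
      simp only [LinearMap.comp_apply, LinearMap.smul_apply, LinearEquiv.coe_coe, apEquiv_apply,
        ptl_apply, LinearMap.zero_apply, ap_inv_ap, cc_pt, hz₀, one_smul] at h1
      exact ap_ne_zero g (smul_ne_zero (neg_ne_zero.mpr hyy) (pt_ne_zero e P hua0 hw0)) h1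
    have hmap : ∀ u, ap g⁻¹ (pt e P u (N2 r)) ∈ slice e P w := fun u => by
      rw [hN2', ap_inv_ap, ← pt_smul_left]
      exact pt_mem_slice e P _ _
    have hzz : f₂ (N2 r) (N2 r) = 0 := by
      obtain ⟨a', ha'⟩ := hmap ua
      rw [ptl_apply] at ha'
      have h := Orth.polar_ap (inv_mem (hM.le_isom hg)) (pt e P ua (N2 r)) (pt e P ua (N2 r))
      rw [← ha', hT.polar_pt, hw, mul_zero, mul_zero, hT.polar_pt] at h
      simpa [hT.c_ne, hua] using h.symm
    simpa using inv_mem (hT.mem_of_slice_map hM (inv_mem hg) hzz hr hw hw0 hmap)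
  by_cases hyy : f₂ y y = 0
  swap
  · exact haniso hy hyy hg hk1
  -- the isotropic case
  obtain ⟨r, hr⟩ : ∃ r, ap b' r - r ≠ 0 := by
    by_contra hc
    push Not at hc
    have hk0 : k = 1 := gl_ext_pt e P fun u r => by rw [hk1, sub_eq_zero.mp (hc r), ap_one]
    have hx0 : x = 1 := by
      rw [hkdef, conj_eq_one_iff] at hk0
      exact hk0
    obtain ⟨z₀, hz₀⟩ := hg₂.exists_one hw0
    have h := congrArg (fun k => ap k (pt e P ua z₀)) hx0
    simp only [hxdef, xs, ap_kron, ap_one] at h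
    have h' := pt_inj_right e P hua0 h
    rw [hg₂.ap_rho, hz₀, one_smul, add_sub_assoc, add_eq_left, sub_eq_zero] at h'
    exact hyn (Submodule.mem_span_singleton.mpr ⟨_, h'.symm⟩)
  set z := ap b' r - r
  have hzz : f₂ z z = 0 := by
    have h := Orth.polar_ap (inv_mem hgI) (pt e P ua z) (pt e P ua z)
    rw [hz, hδx, hT.polar_pt] at h
    simp only [polar_sub_left, polar_sub_right, hT.polar_pt, hyy, hw, hy, hg₂.symm y w, mul_zero,
      sub_zero] at h
    simpa [hT.c_ne, hua] using h.symm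
  obtain ⟨y₃, hy₃w, hy₃y, hy₃⟩ := hg₂.exists_aniso_two hT.pos₂ w y
  have hwy₃ : f₂ w y₃ = 0 := hg₂.eq_zero_comm.mp hy₃w
  have hyy₃ : f₂ y y₃ = 0 := hg₂.eq_zero_comm.mp hy₃y
  set τ := g * hT.xs w y₃ hw hwy₃ * g⁻¹ with hτ
  have hτM : τ ∈ M := mul_mem (mul_mem hg (hM.stab_le (hT.xs_mem hw hwy₃))) (inv_mem hg)
  have hfixz : ∀ u, ap τ (pt e P u z) = pt e P u z := fun u => by
    rw [hτ, ap_mul, ap_mul, hz, hT.ap_xs, hδx]
    simp only [map_sub, cc_pt, hy, hw, hg₂.symm y w, hyy₃, hwy₃, zero_smul, smul_zero, sub_zero,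
      add_zero, pt_zero_left]
    rw [← hδx, ← hz, ap_ap_inv]
  have hτT := hT.mem_of_slice_map hM hτM hzz hr hzz hr fun u => by
    rw [hfixz]; exact pt_mem_slice e P u z
  obtain ⟨a₃, b₃, hab₃⟩ := (mem_iff e P τ).mp hτT
  obtain ⟨s, hs⟩ : ∃ s : F, ∀ u, ap a₃ u = s • u := by
    have heig : ∀ u, ∃ s : F, (apEquiv a₃).toLinearMap u = s • u := by
      intro u
      have h := hab₃ u z
      rw [hfixz] at h
      obtain ⟨j, hj⟩ := Function.ne_iff.mp (ap_ne_zero b₃ hr)
      refine ⟨z j / ap b₃ z j, funext fun i => ?_⟩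
      have h2 := congrFun ((coords e P).injective h) (i, j)
      simp only [Pi.zero_apply] at hj
      simp only [LinearEquiv.coe_coe, apEquiv_apply, Pi.smul_apply, smul_eq_mul] at h2 ⊢
      field_simp
      linear_combination -h2
    obtain ⟨s, hs⟩ := exists_scalar heig
    exact ⟨s, fun u => by simpa using hs u⟩
  have hs0 : s ≠ 0 := fun h => ap_ne_zero a₃ hua0 (by rw [hs, h, zero_smul])
  exact haniso hwy₃ hy₃ hg (b' := smulGL s hs0 b₃) fun u r => by
    rw [← hτ, hab₃, hs, pt_smul_left, ← pt_smul_right, ap_smulGL]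

end OTensor

/-- Minus the reflection along `v`. -/
noncomputable def negRefl {n₂ : ℕ} {f₂ : (Fin n₂ → F) → (Fin n₂ → F) → F} (hf : SymForm f₂)
    (v : Fin n₂ → F) : GL (Fin n₂) F :=
  ofEquiv (LinearEquiv.neg F) * Orth.rf hf.sq v

namespace OTensor

variable (hT : OTensor Q e P f₁ f₂ c) {M : Subgroup (GL ι F)} [Finite F]

/-- Minus the factorwise reflection along `v`. -/
noncomputable def xr (hT : OTensor Q e P f₁ f₂ c) (v : Fin n₂ → F) : GL ι F :=
  kron e P (1 : GL (Fin n₁) F) (negRefl hT.sym₂ v)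

include hT

lemma ap_xr {v : Fin n₂ → F} (hv : f₂ v v ≠ 0) (X : ι → F) :
    ap (hT.xr v) X = -X + (2 / f₂ v v) • pt e P (hT.cc v X) v := by
  have h : (apEquiv (hT.xr v)).toLinearMap =
      -LinearMap.id + (2 / f₂ v v) • (ptl e P v).comp (hT.cc v) := ext_pt e P fun a z => by
    have h2 := hT.two_ne
    simp only [xr, negRefl, LinearEquiv.coe_coe, apEquiv_apply, ap_kron, ap_one, ap_mul,
      ap_ofEquiv, LinearEquiv.neg_apply, Orth.ap_rf, hT.sym₂.sq_apply, hT.sym₂.polar_sq,
      LinearMap.add_apply, LinearMap.neg_apply, LinearMap.id_apply, LinearMap.smul_apply,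
      LinearMap.comp_apply, cc_pt, ptl_apply, pt_neg_right, pt_sub_right, pt_smul_right,
      pt_smul_left, smul_smul]
    match_scalars <;> field_simp
  exact LinearMap.congr_fun h X

variable (hM : hT.Small M)
include hM

/-- A factorwise conjugate of a factorwise reflection with scalar first factor carries a slice to
its slice. -/
theorem exists_slice_of_scalar {g : GL ι F} (hg : g ∈ M) {v : Fin n₂ → F} (hv : f₂ v v ≠ 0)
    {a : GL (Fin n₁) F} {b : GL (Fin n₂) F} {μ : F}
    (hab : ∀ x y, ap (g⁻¹ * hT.xr v * g) (pt e P x y) = pt e P (ap a x) (ap b y))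
    (hμ : ∀ u, ap a u = μ • u) :
    ∃ z, f₂ z z ≠ 0 ∧ ∀ u, ap g (pt e P u z) ∈ slice e P v := by
  have hg₁ := hT.sym₁
  have hp₁ := hT.pos₁
  set k := g⁻¹ * hT.xr v * g with hkdef
  have hkx : ∀ X, ap k X = -X + (2 / f₂ v v) • ap g⁻¹ (pt e P (hT.cc v (ap g X)) v) := fun X => by
    rw [hkdef, ap_mul, ap_mul, hT.ap_xr hv, ap_add, ap_smul, ← neg_one_smul F (ap g X), ap_smul,
      ap_inv_ap, neg_one_smul]
  obtain ⟨ua, hua0, hua⟩ : ∃ ua, ua ≠ 0 ∧ f₁ ua ua ≠ 0 := by
    obtain ⟨x, hx0, hx⟩ := hg₁.exists_isotropic (by rw [Fintype.card_fin]; exact hp₁)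
    obtain ⟨w, -, hw⟩ := hg₁.exists_aniso_perp (by rw [Fintype.card_fin]; exact hp₁) hx hx0
    exact ⟨w, fun h => hw (by rw [h, hg₁.zero_left]), hw⟩
  have hv0 : v ≠ 0 := fun h => hv (by rw [h, hT.sym₂.zero_left])
  have hzu : ∀ u r, pt e P u (μ • ap b r + r) =
      (2 / f₂ v v) • ap g⁻¹ (pt e P (hT.cc v (ap g (pt e P u r))) v) := fun u r => by
    have h := hkx (pt e P u r)
    rw [hab, hμ, pt_smul_left] at h
    rw [pt_add_right, pt_smul_right, h]
    abel
  obtain ⟨r, hr⟩ : ∃ r, μ • ap b r + r ≠ 0 := by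
    by_contra hc
    push Not at hc
    have h0 : (apEquiv g⁻¹).toLinearMap ∘ₗ ((2 / f₂ v v) • (ptl e P v).comp (hT.cc v)) ∘ₗ
        (apEquiv g).toLinearMap = 0 := ext_pt e P fun u r => by
      simp only [LinearMap.comp_apply, LinearMap.smul_apply, LinearEquiv.coe_coe, apEquiv_apply,
        ptl_apply, LinearMap.zero_apply, ap_smul, ← hzu, hc r, pt_zero_right]
    have h1 := LinearMap.congr_fun h0 (ap g⁻¹ (pt e P ua v))
    simp only [LinearMap.comp_apply, LinearMap.smul_apply, LinearEquiv.coe_coe, apEquiv_apply,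
      ptl_apply, LinearMap.zero_apply, ap_ap_inv, cc_pt, ← pt_smul_left, smul_smul] at h1
    exact ap_ne_zero g⁻¹ (pt_ne_zero e P (smul_ne_zero
      (mul_ne_zero (div_ne_zero hT.two_ne hv) hv) hua0) hv0) h1
  set z := μ • ap b r + r
  have hmap : ∀ u, ap g (pt e P u z) ∈ slice e P v := fun u => by
    rw [hzu, ap_smul, ap_ap_inv, ← pt_smul_left]
    exact pt_mem_slice e P _ _
  refine ⟨z, fun hz => ?_, hmap⟩
  -- the map on the slice is onto
  obtain ⟨ω, -, hω⟩ := exists_functional_eq_one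
    (U := (⊥ : Submodule F (Fin n₂ → F))) (x := v) (by simpa using hv0)
  set L := (con e P ω).comp ((apEquiv g).toLinearMap.comp (ptl e P z)) with hL
  have hLg : ∀ u, ap g (pt e P u z) = pt e P (L u) v := fun u => by
    obtain ⟨u', hu'⟩ := hmap u
    rw [ptl_apply] at hu'
    simp [hL, ← hu', hω]
  have hinj : Function.Injective L := fun u u' h =>
    pt_inj_left e P hr (ap_injective g (by rw [hLg, hLg, h]))
  obtain ⟨u, hu⟩ := LinearMap.injective_iff_surjective.mp hinj ua
  have h := Orth.polar_ap (hM.le_isom hg) (pt e P u z) (pt e P u z)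
  rw [hLg, hu, hT.polar_pt, hT.polar_pt, hz, mul_zero, mul_zero] at h
  exact mul_ne_zero hT.c_ne (mul_ne_zero hua hv) h

/-- A conjugate of a factorwise reflection is factorwise only if a slice goes to its slice. -/
theorem exists_slice_of_conj_xr (h12 : n₁ < n₂) {g : GL ι F} (hg : g ∈ M) {v : Fin n₂ → F}
    (hv : f₂ v v ≠ 0) (hk : g⁻¹ * hT.xr v * g ∈ Cfsg.Geo.tensorProductSubgroup n₁ n₂ e P) :
    ∃ z, f₂ z z ≠ 0 ∧ ∀ u, ap g (pt e P u z) ∈ slice e P v := by
  set k := g⁻¹ * hT.xr v * g with hkdef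
  have hkx : ∀ X, ap k X = -X + (2 / f₂ v v) • ap g⁻¹ (pt e P (hT.cc v (ap g X)) v) := fun X => by
    rw [hkdef, ap_mul, ap_mul, hT.ap_xr hv, ap_add, ap_smul, ← neg_one_smul F (ap g X), ap_smul,
      ap_inv_ap, neg_one_smul]
  obtain ⟨a, b, hab⟩ := (mem_iff e P k).mp hk
  have heig : ∀ u, ∃ s : F, (apEquiv a).toLinearMap u = s • u := by
    intro u
    by_cases hu : u = 0
    · exact ⟨0, by simp [hu, ap_zero]⟩
    have hker : LinearMap.ker ((hT.cc v).comp ((apEquiv g).toLinearMap.comp (ptr e P u)))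
        ≠ ⊥ := LinearMap.ker_ne_bot_of_finrank_lt (by simpa using h12)
    obtain ⟨r, hr, hr0⟩ := Submodule.exists_mem_ne_zero_of_ne_bot hker
    simp only [LinearMap.mem_ker, LinearMap.comp_apply, LinearEquiv.coe_coe, apEquiv_apply,
      ptr_apply] at hr
    have h1 := hkx (pt e P u r)
    rw [hr, pt_zero_left, ap_zero, smul_zero, add_zero, hab, ← pt_neg_right] at h1
    obtain ⟨j, hj⟩ := Function.ne_iff.mp (ap_ne_zero b hr0)
    refine ⟨-r j / ap b r j, funext fun i => ?_⟩
    have h2 := congrFun ((coords e P).injective h1) (i, j)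
    simp only [Pi.zero_apply] at hj
    simp only [LinearEquiv.coe_coe, apEquiv_apply, Pi.smul_apply, smul_eq_mul, Pi.neg_apply] at h2 ⊢
    field_simp
    linear_combination h2
  obtain ⟨μ, hμ⟩ := exists_scalar heig
  exact hT.exists_slice_of_scalar hM hg hv hab fun u => by simpa using hμ u

end OTensor

end CfsgLib.Geometric.OrthTensor
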