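import Cfsg.Agent.Lib.Geometric.OrthTensorMax.Reflect

/-!
In a proper overgroup of the stabiliser of an orthogonal tensor product an element outside the
stabiliser keeping some vectors of an isotropic slice in place leads to one keeping more of them.
-/

namespace CfsgLib.Geometric.OrthTensor

open Matrix QuadraticMap Tensor

set_option linter.unusedSectionVars false
set_option linter.unusedVariables false

variable {ι : Type} [Fintype ι] [DecidableEq ι] {F : Type*} [Field F]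
variable {Q : QuadraticForm F (ι → F)} {n₁ n₂ : ℕ} {e : ι ≃ Fin n₁ × Fin n₂} {P : GL ι F}
  {f₁ : (Fin n₁ → F) → (Fin n₁ → F) → F} {f₂ : (Fin n₂ → F) → (Fin n₂ → F) → F} {c : F}

namespace OTensor

/-- An element of `M` outside the stabiliser keeping the vectors `u ⊗ w`, `u ∈ U`, among
themselves. -/
def St (hT : OTensor Q e P f₁ f₂ c) (M : Subgroup (GL ι F)) (g : GL ι F) (w : Fin n₂ → F)
    (U : Submodule F (Fin n₁ → F)) : Prop :=
  g ∈ M ∧ g ∉ Cfsg.Geo.tensorProductSubgroup n₁ n₂ e P ∧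
    ∀ u ∈ U, ∃ u' ∈ U, ap g (pt e P u w) = pt e P u' w

variable (hT : OTensor Q e P f₁ f₂ c) {M : Subgroup (GL ι F)} [Finite F] (hM : hT.Small M)
include hT

omit [Finite F] in
lemma ptl_injective {w : Fin n₂ → F} (hw0 : w ≠ 0) : Function.Injective (ptl e P w) :=
  fun _ _ h => pt_inj_left e P hw0 h

omit [Finite F] in
/-- An invertible map keeping the vectors `u ⊗ w`, `u ∈ U`, among themselves has inverse doing the
same. -/
lemma back_of_keep {g : GL ι F} {w : Fin n₂ → F} {U : Submodule F (Fin n₁ → F)}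
    (h : ∀ u ∈ U, ∃ u' ∈ U, ap g (pt e P u w) = pt e P u' w) {u : Fin n₁ → F} (hu : u ∈ U) :
    ∃ u' ∈ U, ap g⁻¹ (pt e P u w) = pt e P u' w := by
  have hle : (U.map (ptl e P w)).map (apEquiv g).toLinearMap ≤ U.map (ptl e P w) := by
    rintro _ ⟨_, ⟨a, ha, rfl⟩, rfl⟩
    obtain ⟨a', ha', e'⟩ := h a ha
    exact ⟨a', ha', e'.symm⟩
  have heq := Submodule.eq_of_le_of_finrank_eq hle (LinearEquiv.finrank_map_eq (apEquiv g) _)
  obtain ⟨_, ⟨a, ha, rfl⟩, e'⟩ :=
    heq.symm ▸ (Submodule.mem_map_of_mem (f := ptl e P w) hu)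
  refine ⟨a, ha, ap_injective g ?_⟩
  rw [ap_ap_inv]
  exact e'.symm

omit [Finite F] in
/-- The contraction of a vector killed at `w` is in `U` at some vector orthogonal to `w` off its
line. -/
lemma exists_perp_into {w : Fin n₂ → F} {U : Submodule F (Fin n₁ → F)}
    (hd : n₁ + 3 ≤ n₂ + Module.finrank F U) {X : ι → F} :
    ∃ y, f₂ w y = 0 ∧ y ∉ Submodule.span F {w} ∧ hT.cc y X ∈ U := by
  set Φ := (hT.sym₂.fl w).prod (U.mkQ.comp (hT.ccl X)) with hΦ
  have hker : 2 ≤ Module.finrank F (LinearMap.ker Φ) := by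
    have h3 := Φ.finrank_range_add_finrank_ker
    have h4 := Submodule.finrank_le (LinearMap.range Φ)
    have h5 := U.finrank_quotient_add_finrank
    rw [Module.finrank_fin_fun] at h5
    rw [Module.finrank_prod, Module.finrank_self] at h4
    rw [Module.finrank_fin_fun] at h3
    omega
  have hnle : ¬ LinearMap.ker Φ ≤ Submodule.span F {w} := fun h => by
    have h1 := Submodule.finrank_mono h
    have h2 := finrank_span_le_card (R := F) ({w} : Set (Fin n₂ → F))
    simp only [Set.toFinset_singleton, Finset.card_singleton] at h2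
    omega
  obtain ⟨y, hy, hyw⟩ := SetLike.not_le_iff_exists.mp hnle
  obtain ⟨h1, h2⟩ : f₂ y w = 0 ∧ hT.cc y X ∈ U := by simpa [hΦ] using hy
  exact ⟨y, hT.sym₂.eq_zero_comm.mp h1, hyw, h2⟩

include hM

/-- Commuting with a Siegel element enlarges the kept vectors. -/
lemma exists_more (h12 : n₁ < n₂) {k : GL ι F} {w y : Fin n₂ → F} {U : Submodule F (Fin n₁ → F)}
    (hk : k ∈ M) (hkT : k ∉ Cfsg.Geo.tensorProductSubgroup n₁ n₂ e P)
    (hkeep : ∀ u ∈ U, ∃ u' ∈ U, ap k (pt e P u w) = pt e P u' w)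
    (hw : f₂ w w = 0) (hw0 : w ≠ 0) {a : Fin n₁ → F} (ha : hT.cc w (ap k (pt e P a w)) = 0)
    (hy : f₂ w y = 0) (hyn : y ∉ Submodule.span F {w})
    (hyU : hT.cc y (ap k (pt e P a w)) ∈ U) :
    ∃ g, hT.St M g w (U ⊔ Submodule.span F {a}) := by
  set x := hT.xs w y hw hy with hx
  have hg : k⁻¹ * x * k ∈ M :=
    mul_mem (mul_mem (inv_mem hk) (hM.stab_le (hT.xs_mem hw hy))) hk
  refine ⟨k⁻¹ * x * k, hg, fun h => hkT ?_, ?_⟩
  · have h' := hT.mem_of_conj_xs hM h12 (inv_mem hk) hw hw0 hy hyn (by rwa [inv_inv])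
    simpa using inv_mem h'
  intro v hv
  obtain ⟨u, hu, z, hz, rfl⟩ := Submodule.mem_sup.mp hv
  obtain ⟨t, rfl⟩ := Submodule.mem_span_singleton.mp hz
  obtain ⟨u', hu', eu⟩ := hkeep u hu
  obtain ⟨u₁, hu₁, e₁⟩ := hT.back_of_keep hkeep hyU
  have hfix : ap (k⁻¹ * x * k) (pt e P u w) = pt e P u w := by
    rw [ap_mul, ap_mul, eu, hx, hT.ap_xs_of_cc hw hy (by rw [cc_pt, hw, zero_smul]), cc_pt, hy,
      zero_smul, pt_zero_left, sub_zero, ← eu, ap_inv_ap]
  have hmove : ap (k⁻¹ * x * k) (pt e P a w) = pt e P (a - u₁) w := by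
    rw [ap_mul, ap_mul, hx, hT.ap_xs_of_cc hw hy ha, ap_sub, ap_inv_ap, e₁, ← pt_sub_left]
  refine ⟨u + t • (a - u₁), ?_, ?_⟩
  · rw [smul_sub, add_sub]
    exact Submodule.sub_mem _
      (Submodule.add_mem _ (Submodule.mem_sup_left hu)
        (Submodule.mem_sup_right (Submodule.smul_mem _ _ (Submodule.mem_span_singleton_self a))))
      (Submodule.mem_sup_left (U.smul_mem _ hu₁))
  · rw [pt_add_left, pt_smul_left, ap_add, ap_smul, hfix, hmove, ← pt_smul_left, ← pt_add_left]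

/-- From some kept vectors to more. -/
theorem exists_step (h12 : n₁ < n₂) {g : GL ι F} {w : Fin n₂ → F} {U : Submodule F (Fin n₁ → F)}
    (hw : f₂ w w = 0) (hw0 : w ≠ 0) (hd : n₁ + 3 ≤ n₂ + Module.finrank F U)
    (hex : 6 ≤ n₂ ∨ n₁ ≤ Module.finrank F U + 1 ∨
      ∃ r, r ≠ 0 ∧ f₁ r r = 0 ∧ U = Submodule.span F {r})
    (hU : U ≠ ⊤) (hg : hT.St M g w U) :
    ∃ g' U', hT.St M g' w U' ∧ U < U' := by
  classical
  obtain ⟨hgM, hgT, hkeep⟩ := hg
  have hg₁ := hT.sym₁
  have hg₂ := hT.sym₂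
  have hgI := hM.le_isom hgM
  have hfin : ∀ a, a ∉ U → ∀ k ∈ M, k ∉ Cfsg.Geo.tensorProductSubgroup n₁ n₂ e P →
      (∀ u ∈ U, ∃ u' ∈ U, ap k (pt e P u w) = pt e P u' w) →
      hT.cc w (ap k (pt e P a w)) = 0 → ∃ g' U', hT.St M g' w U' ∧ U < U' := by
    intro a ha k hk hkT hkk hka
    obtain ⟨y, hy, hyn, hyU⟩ := hT.exists_perp_into (w := w) hd (X := ap k (pt e P a w))
    obtain ⟨g', hg'⟩ := hT.exists_more hM h12 hk hkT hkk hw hw0 hka hy hyn hyU
    exact ⟨g', _, hg', lt_of_le_of_ne le_sup_left fun h => ha (by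
      rw [h]; exact Submodule.mem_sup_right (Submodule.mem_span_singleton_self a))⟩
  set R := (hT.cc w).comp ((apEquiv g).toLinearMap.comp (ptl e P w)) with hR
  have hRa : ∀ a, R a = hT.cc w (ap g (pt e P a w)) := fun a => rfl
  by_cases hRker : ∃ a, a ∉ U ∧ R a = 0
  · obtain ⟨a, ha, hRa0⟩ := hRker
    exact hfin a ha g hgM hgT hkeep hRa0
  push Not at hRker
  have hRU : ∀ u ∈ U, R u = 0 := fun u hu => by
    obtain ⟨u', -, e'⟩ := hkeep u hu
    rw [hRa, e', cc_pt, hw, zero_smul]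
  have hkerR : LinearMap.ker R = U :=
    le_antisymm (fun a ha => by_contra fun h => hRker a h ha) hRU
  have hRperp : ∀ a, ∀ u ∈ U, f₁ (R a) u = 0 := by
    intro a u hu
    obtain ⟨u₁, -, e₁⟩ := hT.back_of_keep hkeep hu
    have h := Orth.polar_ap hgI (pt e P a w) (pt e P u₁ w)
    rw [← e₁, ap_ap_inv, hT.polar_right, e₁, hT.polar_pt, hw, mul_zero, mul_zero, ← hRa] at h
    exact (mul_eq_zero.mp h).resolve_left hT.c_ne
  have hRrank : Module.finrank F (LinearMap.range R) + Module.finrank F U = n₁ := by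
    have h := R.finrank_range_add_finrank_ker
    rwa [hkerR, Module.finrank_fin_fun] at h
  -- the vector to be added
  obtain ⟨a, ha, haa⟩ : ∃ a, a ∉ U ∧
      (f₁ (R a) (R a) = 0 ∨ n₁ ≤ Module.finrank F U + 1 ∨
        (n₁ ≤ Module.finrank F U + 2 ∧ 6 ≤ n₂)) := by
    have hiso : (∃ r ∈ LinearMap.range R, r ≠ 0 ∧ f₁ r r = 0) →
        ∃ a, a ∉ U ∧ f₁ (R a) (R a) = 0 := by
      rintro ⟨_, ⟨a, rfl⟩, hr0, hr⟩
      exact ⟨a, fun h => hr0 (hRU a h), hr⟩
    obtain ⟨a₀, -, ha₀⟩ := SetLike.exists_of_lt (lt_top_iff_ne_top.mpr hU)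
    by_cases h3 : n₁ ≤ Module.finrank F U + 1
    · exact ⟨a₀, ha₀, Or.inr (Or.inl h3)⟩
    by_cases h4 : Module.finrank F U + 3 ≤ n₁
    · obtain ⟨r, hr, hr0, hrr⟩ := Orth.exists_singular (Q := hg₁.sq) hT.two_ne
        (W := LinearMap.range R) (by omega)
      obtain ⟨a, h1, h2⟩ := hiso ⟨r, hr, hr0, hg₁.sq_eq_zero.mp hrr⟩
      exact ⟨a, h1, Or.inl h2⟩
    rcases hex with h6 | h6 | ⟨r, hr0, hr, hUr⟩
    · exact ⟨a₀, ha₀, Or.inr (Or.inr ⟨by omega, h6⟩)⟩
    · omega
    · have hd1 : Module.finrank F U = 1 := by rw [hUr]; exact finrank_span_singleton hr0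
      have hle : LinearMap.range R ≤ LinearMap.ker (hg₁.fl r) := by
        rintro _ ⟨b, rfl⟩
        exact hRperp b r (by rw [hUr]; exact Submodule.mem_span_singleton_self r)
      have hlt : Module.finrank F (LinearMap.ker (hg₁.fl r)) < n₁ := by
        have h := Submodule.finrank_lt (s := LinearMap.ker (hg₁.fl r)) fun h => by
          obtain ⟨b, hb⟩ := hg₁.exists_one hr0
          have hb' : b ∈ LinearMap.ker (hg₁.fl r) := by rw [h]; trivial
          exact one_ne_zero (hb.symm.trans hb')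
        rwa [Module.finrank_fin_fun] at h
      have heq := Submodule.eq_of_le_of_finrank_le hle (by omega)
      obtain ⟨a, h1, h2⟩ := hiso ⟨r, heq.symm ▸ (show r ∈ LinearMap.ker (hg₁.fl r) from hr), hr0, hr⟩
      exact ⟨a, h1, Or.inl h2⟩
  -- the second Siegel vector
  obtain ⟨w', hw', hww'⟩ := hg₂.exists_hyp hw hw0
  let φ : ((Fin n₂ → F) × F) →ₗ[F] (Fin n₁ → F) →ₗ[F] F :=
    LinearMap.mk₂ F (fun p b => f₁ (hT.cc p.1 (ap g (pt e P b w))) (R a) -
        f₁ (R b) (hT.cc p.1 (ap g (pt e P a w))) - p.2 * f₁ (R b) (R a))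
      (fun p p' b => by
        simp only [Prod.fst_add, Prod.snd_add, cc_add, hg₁.add_left, hg₁.add_right]; ring)
      (fun t p b => by
        simp only [Prod.smul_fst, Prod.smul_snd, cc_smul, hg₁.smul_left, hg₁.smul_right,
          smul_eq_mul]
        ring)
      (fun p b b' => by
        simp only [pt_add_left, ap_add, map_add, hg₁.add_left]; ring)
      (fun t p b => by
        simp only [pt_smul_left, ap_smul, map_smul, hg₁.smul_left, smul_eq_mul]; ring)
  have hφ : ∀ p b, φ p b = f₁ (hT.cc p.1 (ap g (pt e P b w))) (R a) -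
      f₁ (R b) (hT.cc p.1 (ap g (pt e P a w))) - p.2 * f₁ (R b) (R a) := fun p b => rfl
  obtain ⟨W, hW⟩ := Submodule.exists_isCompl (U ⊔ Submodule.span F {a})
  let Ψ := ((hg₂.fl w).comp (LinearMap.fst F _ F)).prod
    (((hg₂.fl w').comp (LinearMap.fst F _ F)).prod (W.subtype.dualMap.comp φ))
  have hWd : Module.finrank F W + Module.finrank F U + 1 = n₁ := by
    have h := Submodule.finrank_add_eq_of_isCompl hW
    have h1 : Module.finrank F ↥(U ⊔ Submodule.span F {a}) = Module.finrank F U + 1 := by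
      have h2 := Submodule.finrank_sup_add_finrank_inf_eq U (Submodule.span F {a})
      have h3 : U ⊓ Submodule.span F {a} = ⊥ := by
        rw [eq_bot_iff]
        rintro z ⟨hz1, hz2⟩
        obtain ⟨t, rfl⟩ := Submodule.mem_span_singleton.mp hz2
        rcases eq_or_ne t 0 with rfl | ht
        · simp
        · exact absurd ((U.smul_mem_iff ht).mp hz1) ha
      rw [h3, finrank_bot, finrank_span_singleton fun h0 : a = 0 => ha (by rw [h0]; exact U.zero_mem)]
        at h2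
      omega
    rw [h1, Module.finrank_fin_fun] at h
    omega
  have hker : n₂ + Module.finrank F U ≤ Module.finrank F (LinearMap.ker Ψ) + n₁ := by
    have h3 := Ψ.finrank_range_add_finrank_ker
    have h4 := Submodule.finrank_le (LinearMap.range Ψ)
    rw [Module.finrank_prod, Module.finrank_fin_fun, Module.finrank_self] at h3
    rw [Module.finrank_prod, Module.finrank_prod, Module.finrank_self, Subspace.dual_finrank_eq]
      at h4
    omega
  have hmem : ∀ p, p ∈ LinearMap.ker Ψ ↔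
      f₂ p.1 w = 0 ∧ f₂ p.1 w' = 0 ∧ ∀ b ∈ W, φ p b = 0 := fun p => by
    simp [Ψ, LinearMap.ext_iff]
  -- what is needed of it
  obtain ⟨v, hvw, hv0, hvw', hvφ, hvC⟩ : ∃ v : Fin n₂ → F, f₂ v w = 0 ∧ v ≠ 0 ∧ f₂ v w' = 0 ∧
      (∀ b ∈ W, φ (v, (2 : F)⁻¹ * f₂ v v) b = 0) ∧ f₂ v v * f₁ (R a) (R a) = 0 := by
    set K0 := LinearMap.ker Ψ ⊓ LinearMap.ker (LinearMap.snd F (Fin n₂ → F) F) with hK0
    have hK0d : Module.finrank F (LinearMap.ker Ψ) ≤ Module.finrank F K0 + 1 := by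
      set L := (LinearMap.snd F (Fin n₂ → F) F).domRestrict (LinearMap.ker Ψ)
      have h3 := L.finrank_range_add_finrank_ker
      have h4 := Submodule.finrank_le (LinearMap.range L)
      rw [Module.finrank_self] at h4
      have h5 : (LinearMap.ker L).map (LinearMap.ker Ψ).subtype = K0 := by
        ext p
        simp only [hK0, L, Submodule.mem_map, Submodule.mem_inf, LinearMap.mem_ker,
          LinearMap.domRestrict_apply, LinearMap.snd_apply, Submodule.coe_subtype]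
        exact ⟨fun ⟨⟨q, hq⟩, h1, h2⟩ => h2 ▸ ⟨hq, h1⟩, fun h => ⟨⟨p, h.1⟩, h.2, rfl⟩⟩
      rw [← h5, Submodule.finrank_map_subtype_eq]
      omega
    have hinj : ∀ p ∈ K0, p.1 = 0 → p = 0 := fun p hp h => Prod.ext h hp.2
    have hK0mem : ∀ p ∈ K0, f₂ p.1 p.1 = 0 → p ≠ 0 → ∃ v : Fin n₂ → F, f₂ v w = 0 ∧ v ≠ 0 ∧
        f₂ v w' = 0 ∧ (∀ b ∈ W, φ (v, (2 : F)⁻¹ * f₂ v v) b = 0) ∧
        f₂ v v * f₁ (R a) (R a) = 0 := by
      intro p hp h0 hp0
      obtain ⟨h1, h2, h3⟩ := (hmem p).mp hp.1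
      refine ⟨p.1, h1, fun h => hp0 (hinj p hp h), h2, fun b hb => ?_, by rw [h0, zero_mul]⟩
      have hp2 : p.2 = 0 := hp.2
      rw [h0, mul_zero, show ((p.1, 0) : (Fin n₂ → F) × F) = p from Prod.ext rfl hp2.symm]
      exact h3 b hb
    have hproj : 3 ≤ Module.finrank F K0 → ∃ p ∈ K0, f₂ p.1 p.1 = 0 ∧ p ≠ 0 := by
      intro h3
      have hK0inj : Function.Injective ((LinearMap.fst F (Fin n₂ → F) F).domRestrict K0) :=
        (injective_iff_map_eq_zero _).mpr fun p hp => Subtype.ext (hinj p.1 p.2 hp)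
      obtain ⟨v, ⟨⟨p, hp⟩, hpv⟩, hv0, hvv⟩ := Orth.exists_singular (Q := hg₂.sq) hT.two_ne
        (W := LinearMap.range ((LinearMap.fst F (Fin n₂ → F) F).domRestrict K0))
        (by rw [LinearMap.finrank_range_of_inj hK0inj]; exact h3)
      have hpv' : p.1 = v := hpv
      exact ⟨p, hp, by rw [hpv']; exact hg₂.sq_eq_zero.mp hvv,
        fun h => hv0 (by rw [← hpv', h]; rfl)⟩
    rcases haa with haa | haa
    · by_cases hgood : ∃ p ∈ LinearMap.ker Ψ, p.2 ≠ 0 ∧ f₂ p.1 p.1 ≠ 0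
      · obtain ⟨⟨v, s⟩, hp, hs, hν⟩ := hgood
        obtain ⟨h1, h2, h3⟩ := (hmem _).mp hp
        simp only at hs hν h1 h2 h3
        set t := 2 * s / f₂ v v
        have ht : t ≠ 0 := div_ne_zero (mul_ne_zero hT.two_ne hs) hν
        refine ⟨t • v, by rw [hg₂.smul_left, h1, mul_zero],
          smul_ne_zero ht fun h => hν (by rw [h, hg₂.zero_left]),
          by rw [hg₂.smul_left, h2, mul_zero], fun b hb => ?_, by rw [haa, mul_zero]⟩
        have he : ((t • v, (2 : F)⁻¹ * f₂ (t • v) (t • v)) : (Fin n₂ → F) × F) = t • (v, s) := by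
          rw [Prod.smul_mk, hg₂.smul_left, hg₂.smul_right, smul_eq_mul]
          congr 1
          have := hT.two_ne
          simp only [t]
          field_simp
        rw [he, map_smul, LinearMap.smul_apply, h3 b hb, smul_zero]
      push Not at hgood
      by_cases hs : ∃ p ∈ LinearMap.ker Ψ, p.2 ≠ 0
      · obtain ⟨p₁, hp₁, hs₁⟩ := hs
        obtain ⟨p, hp, hp0⟩ := Submodule.exists_mem_ne_zero_of_ne_bot
          (show K0 ≠ ⊥ from fun h => by rw [h, finrank_bot] at hK0d; omega)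
        refine hK0mem p hp ?_ hp0
        have hp2 : p.2 = 0 := hp.2
        have e0 := hgood p₁ hp₁ hs₁
        have e1 := hgood (p₁ + p) (Submodule.add_mem _ hp₁ hp.1)
          (by rwa [Prod.snd_add, hp2, add_zero])
        have e2 := hgood (p₁ - p) (Submodule.sub_mem _ hp₁ hp.1)
          (by rwa [Prod.snd_sub, hp2, sub_zero])
        simp only [Prod.fst_add, Prod.fst_sub, hg₂.add_left, hg₂.add_right, hg₂.sub_left,
          hg₂.sub_right] at e1 e2
        have e3 : 2 * f₂ p.1 p.1 = 0 := by linear_combination e1 + e2 - 2 * e0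
        exact (mul_eq_zero.mp e3).resolve_left hT.two_ne
      · push Not at hs
        have hK : LinearMap.ker Ψ ≤ K0 := fun p hp => ⟨hp, hs p hp⟩
        have := Submodule.finrank_mono hK
        obtain ⟨p, hp, h0, hp0⟩ := hproj (by omega)
        exact hK0mem p hp h0 hp0
    · have h5 := hT.pos₂
      obtain ⟨p, hp, h0, hp0⟩ := hproj (by omega)
      exact hK0mem p hp h0 hp0
  have hwv : f₂ w v = 0 := hg₂.eq_zero_comm.mp hvw
  have hvn : v ∉ Submodule.span F {w} := fun h => by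
    obtain ⟨t, rfl⟩ := Submodule.mem_span_singleton.mp h
    rw [hg₂.smul_left, hww', mul_one] at hvw'
    exact hv0 (by rw [hvw', zero_smul])
  set x := hT.xs w v hw hwv with hx
  have hxM := hM.stab_le (hT.xs_mem hw hwv)
  refine hfin a ha (g⁻¹ * x * g) (mul_mem (mul_mem (inv_mem hgM) hxM) hgM) (fun h => hgT ?_)
    (fun u hu => ?_) ?_
  · have h' := hT.mem_of_conj_xs hM h12 (inv_mem hgM) hw hw0 hwv hvn (by rwa [inv_inv])
    simpa using inv_mem h'
  · obtain ⟨u', -, e'⟩ := hkeep u hu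
    exact ⟨u, hu, by rw [ap_mul, ap_mul, e', hx, hT.ap_xs_of_cc hw hwv
      (by rw [cc_pt, hw, zero_smul]), cc_pt, hwv, zero_smul, pt_zero_left, sub_zero, ← e',
      ap_inv_ap]⟩
  -- the functional vanishes everywhere
  have hzero : φ (v, (2 : F)⁻¹ * f₂ v v) = 0 := by
    refine LinearMap.ker_eq_top.mp (top_le_iff.mp ?_)
    rw [← hW.sup_eq_top, sup_le_iff, sup_le_iff]
    refine ⟨⟨fun u hu => ?_, ?_⟩, fun b hb => LinearMap.mem_ker.mpr (hvφ b hb)⟩
    · obtain ⟨u', -, e'⟩ := hkeep u hu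
      rw [LinearMap.mem_ker, hφ, hRU u hu, hg₁.zero_left, hg₁.zero_left, e', cc_pt,
        hg₂.symm w v, hvw, zero_smul, hg₁.zero_left]
      ring
    · rw [Submodule.span_le, Set.singleton_subset_iff, SetLike.mem_coe, LinearMap.mem_ker, hφ,
        hg₁.symm (R a) (hT.cc v _)]
      linear_combination (-(2 : F)⁻¹) * hvC
  refine hg₁.eq_of_forall fun b => ?_
  rw [hg₁.zero_left]
  refine (mul_eq_zero.mp ?_).resolve_left hT.c_ne
  rw [← hT.polar_right, ap_mul, ap_mul]
  have hbg : pt e P b w = ap g⁻¹ (ap g (pt e P b w)) := (ap_inv_ap g _).symm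
  rw [hbg, Orth.polar_ap (inv_mem hgI), hx, hT.ap_xs, polar_sub_left, polar_add_left,
    hT.polar_left, hT.polar_left, Orth.polar_ap hgI, hT.polar_pt, hw, ← hRa, ← hRa]
  have h := LinearMap.congr_fun hzero b
  rw [hφ, LinearMap.zero_apply] at h
  rw [hg₁.add_right, hg₁.smul_right]
  linear_combination c * h

/-- Nothing outside the stabiliser keeps enough vectors. -/
theorem false_of_st (hgap : n₁ + 2 ≤ n₂) {w : Fin n₂ → F} (hw : f₂ w w = 0) (hw0 : w ≠ 0)
    {g : GL ι F} {U : Submodule F (Fin n₁ → F)} (hd : n₁ + 3 ≤ n₂ + Module.finrank F U)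
    (hex : 6 ≤ n₂ ∨ n₁ ≤ Module.finrank F U + 1 ∨
      ∃ r, r ≠ 0 ∧ f₁ r r = 0 ∧ U = Submodule.span F {r})
    (hg : hT.St M g w U) : False := by
  obtain ⟨m, hm⟩ : ∃ m, n₁ ≤ Module.finrank F U + m := ⟨n₁, by omega⟩
  induction m generalizing g U with
  | zero =>
    have hU : U = ⊤ := Submodule.eq_top_of_finrank_eq (by
      have := Submodule.finrank_le U
      rw [Module.finrank_fin_fun] at this ⊢
      omega)
    exact hg.2.1 (hT.mem_of_slice_map hM hg.1 hw hw0 hw hw0 fun u => by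
      obtain ⟨u', -, e'⟩ := hg.2.2 u (by rw [hU]; trivial)
      rw [e']; exact pt_mem_slice e P _ _)
  | succ m ih =>
    by_cases hU : U = ⊤
    · exact hg.2.1 (hT.mem_of_slice_map hM hg.1 hw hw0 hw hw0 fun u => by
        obtain ⟨u', -, e'⟩ := hg.2.2 u (by rw [hU]; trivial)
        rw [e']; exact pt_mem_slice e P _ _)
    obtain ⟨g', U', hg', hlt⟩ := hT.exists_step hM (by omega) hw hw0 hd hex hU hg
    have := Submodule.finrank_lt_finrank_of_lt hlt
    refine ih (by omega) ?_ hg' (by omega)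
    have := Submodule.finrank_le U
    have h1 := hT.pos₁
    rcases hex with h | h | ⟨r, hr0, -, hUr⟩
    · exact Or.inl h
    · exact Or.inr (Or.inl (by omega))
    · have hU1 : Module.finrank F U = 1 := by rw [hUr]; exact finrank_span_singleton hr0
      by_cases h6 : 6 ≤ n₂
      · exact Or.inl h6
      · exact Or.inr (Or.inl (by omega))

end OTensor

end CfsgLib.Geometric.OrthTensor
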