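import Cfsg.Agent.Lib.Geometric.OrthTensorMax.Reflect
import Cfsg.Agent.Lib.Forms.OddFinite

/-!
If the first degree is even and the second odd, every factorwise minus reflection of the second
factor lies in an overgroup of the stabiliser of an orthogonal tensor product.
-/

namespace CfsgLib.Geometric.OrthTensor

open Matrix QuadraticMap Tensor
open scoped commutatorElement

set_option linter.unusedSectionVars false
set_option linter.unusedVariables false

variable {ι : Type} [Fintype ι] [DecidableEq ι] {F : Type*} [Field F] [Finite F]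
variable {Q : QuadraticForm F (ι → F)} {n₁ n₂ : ℕ} {e : ι ≃ Fin n₁ × Fin n₂} {P : GL ι F}
  {f₁ : (Fin n₁ → F) → (Fin n₁ → F) → F} {f₂ : (Fin n₂ → F) → (Fin n₂ → F) → F} {c : F}

namespace OTensor

variable (hT : OTensor Q e P f₁ f₂ c) {M : Subgroup (GL ι F)}
include hT

/-- The product of the reflections at the pure tensors of `v` with an orthogonal list of vectors. -/
lemma ap_prod_rf {v : Fin n₂ → F} (hv : f₂ v v ≠ 0) (L : List (Fin n₁ → F))
    (hL : L.Pairwise fun a b => f₁ a b = 0) (hne : ∀ a ∈ L, f₁ a a ≠ 0) (x : Fin n₁ → F)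
    (y : Fin n₂ → F) :
    ap ((L.map fun u => Orth.rf Q (pt e P u v)).prod) (pt e P x y) =
      pt e P x y - (2 * f₂ y v / f₂ v v) •
        pt e P ((L.map fun u => (f₁ x u / f₁ u u) • u).sum) v := by
  have h2 := hT.two_ne
  have hc := hT.c_ne
  induction L with
  | nil => simp [pt_zero_left]
  | cons u L ih =>
    obtain ⟨hperp, hL'⟩ := List.pairwise_cons.mp hL
    have hsum : f₁ (L.map fun w => (f₁ x w / f₁ w w) • w).sum u = 0 := by
      rw [← SymForm.fl_apply hT.sym₁, map_list_sum]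
      refine List.sum_eq_zero fun r hr => ?_
      simp only [List.map_map, List.mem_map, Function.comp_apply, SymForm.fl_apply] at hr
      obtain ⟨w, hw, rfl⟩ := hr
      rw [hT.sym₁.smul_left, hT.sym₁.symm w u, hperp w hw, mul_zero]
    have huu := hne u (List.mem_cons_self)
    simp only [List.map_cons, List.prod_cons, List.sum_cons, ap_mul,
      ih hL' fun a ha => hne a (List.mem_cons_of_mem u ha), ap_sub, ap_smul]
    rw [Orth.ap_rf_fix (x := pt e P (List.map _ L).sum v) (by
      rw [hT.polar_pt, hsum, zero_mul, mul_zero]), Orth.ap_rf, hT.polar_pt, hT.Q_pt, pt_add_left,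
      pt_smul_left]
    match_scalars <;> field_simp

/-- The factorwise reflection is the product of the reflections along an orthogonal basis. -/
lemma kron_rf_eq {v : Fin n₂ → F} (hv : f₂ v v ≠ 0) {m : ℕ}
    (b : Module.Basis (Fin m) F (Fin n₁ → F)) (hb : ∀ i j, i ≠ j → f₁ (b i) (b j) = 0)
    (hbb : ∀ i, f₁ (b i) (b i) ≠ 0) :
    kron e P (1 : GL (Fin n₁) F) (Orth.rf hT.sym₂.sq v) =
      ((List.ofFn b).map fun u => Orth.rf Q (pt e P u v)).prod := by
  refine gl_ext_pt e P fun x y => ?_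
  have hsum : ((List.ofFn b).map fun u => (f₁ x u / f₁ u u) • u).sum = x := by
    rw [List.map_ofFn, List.sum_ofFn]
    simp only [Function.comp_apply]
    conv_rhs => rw [← b.sum_repr x]
    refine Finset.sum_congr rfl fun i _ => ?_
    congr 1
    rw [div_eq_iff (hbb i)]
    conv_lhs => rw [← b.sum_repr x, ← SymForm.fl_apply hT.sym₁, map_sum]
    rw [Finset.sum_eq_single i (fun j _ hji => by
      rw [map_smul, SymForm.fl_apply, hb j i hji, smul_zero]) (fun h => absurd (Finset.mem_univ i) h),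
      map_smul, SymForm.fl_apply, smul_eq_mul]
  rw [hT.ap_prod_rf hv _ (List.pairwise_ofFn.mpr fun i j hij => hb i j hij.ne)
    (fun a ha => by obtain ⟨i, rfl⟩ := List.mem_ofFn.mp ha; exact hbb i), hsum, ap_kron, ap_one,
    Orth.ap_rf, hT.sym₂.sq_apply, hT.sym₂.polar_sq, pt_sub_right, pt_smul_right]
  have h2 := hT.two_ne
  match_scalars <;> field_simp

variable (hM : hT.Small M)
include hM

/-- For even first degree two factorwise reflections multiply into `omegaGL`. -/
lemma kron_rf_mul_mem (h1e : Even n₁) {v v' : Fin n₂ → F} (hv : f₂ v v ≠ 0) (hv' : f₂ v' v' ≠ 0)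
    (hns : ¬ IsSquare (f₂ v v / f₂ v' v')) :
    kron e P (1 : GL (Fin n₁) F) (Orth.rf hT.sym₂.sq v * Orth.rf hT.sym₂.sq v') ∈
      Cfsg.Geo.omegaGL (⇑Q) := by
  classical
  have h2 := hT.two_ne
  have : Invertible (2 : F) := invertibleOfNonzero h2
  let B : LinearMap.BilinForm F (Fin n₁ → F) := LinearMap.mk₂ F f₁ hT.sym₁.add_left
    hT.sym₁.smul_left hT.sym₁.add_right hT.sym₁.smul_right
  obtain ⟨b, hb⟩ := LinearMap.BilinForm.exists_orthogonal_basis (B := B)
    ⟨fun x y => hT.sym₁.symm x y⟩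
  have hb' : ∀ i j, i ≠ j → f₁ (b i) (b j) = 0 := fun i j hij => hb hij
  have hbb : ∀ i, f₁ (b i) (b i) ≠ 0 := fun i h => by
    obtain ⟨y, hy⟩ := hT.sym₁.exists_ne (b.ne_zero i)
    refine hy ?_
    rw [← b.sum_repr y, hT.sym₁.symm, ← SymForm.fl_apply hT.sym₁, map_sum]
    refine Finset.sum_eq_zero fun j _ => ?_
    rcases eq_or_ne j i with rfl | hij
    · rw [map_smul, SymForm.fl_apply, h, smul_zero]
    · rw [map_smul, SymForm.fl_apply, hb' j i hij, smul_zero]
  set I := Cfsg.isometryGroup F (⇑Q) with hI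
  let ψ : (ι → F) → Abelianization I := fun A => Abelianization.of ⟨Orth.rf Q A, Orth.rf_mem_isom A⟩
  have hker : ∀ a : I, (a : GL ι F) ∈ Cfsg.Geo.omegaGL (⇑Q) → Abelianization.of a = 1 := by
    intro a ha
    rw [Orth.omegaGL_eq, ← Subgroup.map_subtype_commutator] at ha
    obtain ⟨a', ha', he⟩ := ha
    obtain rfl : a' = a := Subtype.ext he
    exact (QuotientGroup.eq_one_iff a').mpr ha'
  have hsame : ∀ A A', Q A ≠ 0 → IsSquare (Q A / Q A') → Q A' ≠ 0 → ψ A * ψ A' = 1 := by
    rintro A A' hA ⟨t, ht⟩ hA'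
    have ht0 : t ≠ 0 := fun h => div_ne_zero hA hA' (by rw [ht, h, mul_zero])
    have hQ : Q A = Q (t • A') := by
      rw [QuadraticMap.map_smul, smul_eq_mul, ← ht, div_mul_cancel₀ _ hA']
    have hr : Orth.rf Q (t • A') = Orth.rf Q A' := gl_ext fun X => by
      rw [Orth.ap_rf, Orth.ap_rf, QuadraticMap.map_smul, polar_smul_right, smul_smul]
      simp only [smul_eq_mul]
      match_scalars <;> field_simp
    have h := Orth.rf_mul_rf_mem hM.nondeg hT.five_le_card hA hQ
    rw [hr] at h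
    rw [← map_mul]
    exact hker _ h
  have hQne : ∀ i {y : Fin n₂ → F}, f₂ y y ≠ 0 → Q (pt e P (b i) y) ≠ 0 := fun i y hy => by
    rw [hT.Q_pt]
    exact mul_ne_zero (inv_ne_zero h2) (mul_ne_zero hT.c_ne (mul_ne_zero (hbb i) hy))
  set r := fun i => ψ (pt e P (b i) v) * ψ (pt e P (b i) v') with hr
  have hinv : ∀ A, Q A ≠ 0 → ψ A * ψ A = 1 := fun A hA =>
    hsame A A hA (by rw [div_self hA]; exact IsSquare.one) hA
  have hconst : ∀ i j, r i * r j = 1 := by
    intro i j
    by_cases hij : IsSquare (f₁ (b i) (b i) / f₁ (b j) (b j))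
    · simp only [hr]
      rw [mul_mul_mul_comm, hsame _ _ (hQne i hv) ?_ (hQne j hv),
        hsame _ _ (hQne i hv') ?_ (hQne j hv'), one_mul] <;>
      · convert hij using 1
        rw [hT.Q_pt, hT.Q_pt]
        have := hT.c_ne
        field_simp
    · simp only [hr]
      rw [mul_comm (ψ (pt e P (b j) v)), mul_mul_mul_comm,
        hsame _ _ (hQne i hv) ?_ (hQne j hv'), hsame _ _ (hQne i hv') ?_ (hQne j hv), one_mul]
      · have hns' : ¬ IsSquare (f₂ v' v' / f₂ v v) := fun h => hns (by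
          have := h.inv
          rwa [inv_div] at this)
        convert CfsgLib.Forms.isSquare_mul_of_not hij hns' using 1
        rw [hT.Q_pt, hT.Q_pt]
        have := hT.c_ne
        field_simp
      · convert CfsgLib.Forms.isSquare_mul_of_not hij hns using 1
        rw [hT.Q_pt, hT.Q_pt]
        have := hT.c_ne
        field_simp
  let R : (Fin n₂ → F) → List I := fun y =>
    (List.ofFn b).map fun u => ⟨Orth.rf Q (pt e P u y), Orth.rf_mem_isom _⟩
  have hR : ∀ y, f₂ y y ≠ 0 →
      ((R y).prod : GL ι F) = kron e P (1 : GL (Fin n₁) F) (Orth.rf hT.sym₂.sq y) := fun y hy => by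
    rw [hT.kron_rf_eq hy b hb' hbb, ← Subgroup.subtype_apply, map_list_prod, List.map_map]
    rfl
  have hφ : ∀ y, Abelianization.of (R y).prod = ∏ i, ψ (pt e P (b i) y) := fun y => by
    rw [map_list_prod, List.map_map, List.map_ofFn, List.prod_ofFn]
    rfl
  have hone : Abelianization.of ((R v).prod * (R v').prod) = 1 := by
    rw [map_mul, hφ, hφ, ← Finset.prod_mul_distrib]
    have i₀ : Fin (Module.finrank F (Fin n₁ → F)) := ⟨0, by
      rw [Module.finrank_fin_fun]; have := hT.pos₁; omega⟩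
    have hri : ∀ i, r i = r i₀ := fun i => by
      calc r i = r i * (r i₀ * r i₀) := by rw [hconst, mul_one]
        _ = r i₀ := by rw [← mul_assoc, hconst, one_mul]
    show ∏ i, r i = 1
    rw [Finset.prod_congr rfl fun i _ => hri i, Finset.prod_const, Finset.card_univ,
      Fintype.card_fin, Module.finrank_fin_fun]
    obtain ⟨k, hk⟩ := h1e
    rw [hk, ← two_mul, pow_mul, pow_two, hconst, one_pow]
  rw [Orth.omegaGL_eq, ← Subgroup.map_subtype_commutator]
  refine ⟨(R v).prod * (R v').prod, (QuotientGroup.eq_one_iff _).mp hone, ?_⟩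
  rw [map_mul, Subgroup.subtype_apply, Subgroup.subtype_apply, hR v hv, hR v' hv', ← kron_mul,
    one_mul]

/-- All factorwise minus reflections lie in an overgroup. -/
theorem xr_mem (h1e : Even n₁) (h2o : Odd n₂) {v : Fin n₂ → F} (hv : f₂ v v ≠ 0) :
    hT.xr v ∈ M := by
  classical
  have hg := hT.sym₂
  obtain ⟨ε, hε, hgood⟩ := hT.exists_good hM h2o
  by_cases hsq : IsSquare (f₂ v v / ε)
  · obtain ⟨t, ht⟩ := hsq
    refine hgood v t (fun h => div_ne_zero hv hε (by rw [ht, h, mul_zero])) ?_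
    rw [← ht, mul_div_cancel₀ _ hε]
  obtain ⟨v₀, hv₀, -⟩ := hg.exists_negRefl_mem h2o
  obtain ⟨w, -, hw⟩ := Orth.exists_value_in (Q := hg.sq) hT.two_ne (W := ⊤)
    (fun x _ hx => by
      obtain ⟨y, hy⟩ := hg.exists_ne hx
      exact ⟨⟨y, trivial, by rw [hg.polar_sq, hg.symm]; exact hy⟩,
        ⟨y, trivial, by rw [hg.polar_sq]; exact hy⟩⟩)
    (by rw [finrank_top, Module.finrank_fin_fun]; have := hT.pos₂; omega) ((2 : F)⁻¹ * ε)
  have hww : f₂ w w = ε := mul_left_cancel₀ (inv_ne_zero hT.two_ne) hw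
  have hw0 : f₂ w w ≠ 0 := hww ▸ hε
  have hM1 := hgood w 1 one_ne_zero (by rw [hww, mul_one, mul_one])
  have hns : ¬ IsSquare (f₂ w w / f₂ v v) := fun h => hsq (by
    have := h.inv
    rwa [inv_div, hww] at this)
  have hM2 : kron e P (1 : GL (Fin n₁) F) (Orth.rf hg.sq w * Orth.rf hg.sq v) ∈ M :=
    hM.stab_le ⟨kron_mem e P _ _, hT.kron_rf_mul_mem hM h1e hw0 hv hns⟩
  have hxr : hT.xr v = hT.xr w * kron e P (1 : GL (Fin n₁) F) (Orth.rf hg.sq w * Orth.rf hg.sq v) :=
    gl_ext_pt e P fun x y => by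
      have h2 := hT.two_ne
      simp only [xr, negRefl, ap_mul, ap_kron, ap_one, ap_ofEquiv, LinearEquiv.neg_apply]
      congr 2
      simp only [Orth.ap_rf, hg.sq_apply, hg.polar_sq, hg.sub_left, hg.smul_left]
      match_scalars <;> field_simp <;> ring
  rw [hxr]
  exact mul_mem hM1 hM2

end OTensor

end CfsgLib.Geometric.OrthTensor
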