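import Cfsg.Agent.Lib.Geometric.OrthTensorMax.Start

/-!
The stabiliser of a tensor product of two orthogonal spaces of odd dimensions differing by two or
more is maximal in `omegaGL`.
-/

namespace CfsgLib.Geometric.OrthTensor

open Matrix QuadraticMap Tensor

set_option linter.unusedSectionVars false
set_option linter.unusedVariables false

variable {ι : Type} [Fintype ι] [DecidableEq ι] {F : Type*} [Field F]
variable {Q : QuadraticForm F (ι → F)} {n₁ n₂ : ℕ} {e : ι ≃ Fin n₁ × Fin n₂} {P : GL ι F}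
  {f₁ : (Fin n₁ → F) → (Fin n₁ → F) → F} {f₂ : (Fin n₂ → F) → (Fin n₂ → F) → F} {c : F}

/-- A non-degenerate space of dimension three has no totally singular line. -/
lemma SymForm.noLine_three [Finite F] {m : ℕ} {g : (Fin m → F) → (Fin m → F) → F} (hg : SymForm g)
    (hm : m = 3) (u p : Fin m → F) (hu0 : u ≠ 0) (hu : g u u = 0) (hup : g u p = 0)
    (hp : g p p = 0) : p ∈ Submodule.span F {u} := by
  obtain ⟨u', hu', h1⟩ := hg.exists_hyp hu hu0
  obtain ⟨d, hdu, hdu', hdd⟩ :=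
    hg.exists_aniso_pr (by rw [Fintype.card_fin]; omega) hu hu' h1
  set Φ := (hg.fl u).prod (hg.fl u') with hΦ
  have hK : Module.finrank F (LinearMap.ker Φ) ≤ 1 := by
    have h3 := Φ.finrank_range_add_finrank_ker
    have hr : LinearMap.range Φ = ⊤ := by
      refine eq_top_iff.mpr fun x _ => ⟨x.1 • u' + x.2 • u, ?_⟩
      simp [hΦ, hg.add_left, hg.smul_left, hu, hu', hg.symm u' u, h1]
    rw [hr, finrank_top, Module.finrank_prod, Module.finrank_self, Module.finrank_fin_fun] at h3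
    omega
  set q := p - g p u' • u with hq
  have hqu : g q u = 0 := by rw [hq, hg.sub_left, hg.smul_left, hu, hg.symm p u, hup]; ring
  have hqu' : g q u' = 0 := by rw [hq, hg.sub_left, hg.smul_left, h1]; ring
  obtain ⟨v, hv⟩ := finrank_le_one_iff.mp hK
  obtain ⟨s, hs⟩ := hv ⟨q, by simp [hΦ, hqu, hqu']⟩
  obtain ⟨r, hr⟩ := hv ⟨d, by simp [hΦ, hdu, hdu']⟩
  have hs' : s • (v : Fin m → F) = q := congrArg Subtype.val hs
  have hr' : r • (v : Fin m → F) = d := congrArg Subtype.val hr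
  have hqq : g q q = 0 := by
    rw [hq, hg.sub_left, hg.sub_right, hg.sub_right, hg.smul_left, hg.smul_left, hg.smul_right,
      hg.smul_right, hu, hp, hup, hg.symm p u, hup]
    ring
  have hv0 : g (v : Fin m → F) v ≠ 0 := fun h => hdd (by
    rw [← hr', hg.smul_left, hg.smul_right, h, mul_zero, mul_zero])
  have hs0 : s = 0 := by
    rw [← hs', hg.smul_left, hg.smul_right, ← mul_assoc, mul_eq_zero] at hqq
    exact mul_self_eq_zero.mp (hqq.resolve_right hv0)
  rw [hs0, zero_smul] at hs'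
  exact Submodule.mem_span_singleton.mpr ⟨g p u', (sub_eq_zero.mp hs'.symm).symm⟩

namespace OTensor

variable (hT : OTensor Q e P f₁ f₂ c) [Finite F]
include hT

/-- The stabiliser is proper. -/
theorem lt_omega (hQ : CfsgLib.ClassicalForms.Nondeg Q) :
    Cfsg.Geo.tensorProductSubgroup n₁ n₂ e P ⊓ Cfsg.Geo.omegaGL (⇑Q) < Cfsg.Geo.omegaGL (⇑Q) := by
  refine lt_of_le_of_ne inf_le_right fun he => ?_
  have hg₁ := hT.sym₁
  have hg₂ := hT.sym₂
  obtain ⟨u, hu0, hu⟩ := hg₁.exists_isotropic (by rw [Fintype.card_fin]; exact hT.pos₁)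
  obtain ⟨u', hu', huu'⟩ := hg₁.exists_hyp hu hu0
  obtain ⟨w, hw0, hw⟩ := hg₂.exists_isotropic (by rw [Fintype.card_fin]; have := hT.pos₂; omega)
  obtain ⟨w', hw', hww'⟩ := hg₂.exists_hyp hw hw0
  obtain ⟨y, hyw, hyw', hy⟩ := hg₂.exists_aniso_two hT.pos₂ w w'
  have hp : Q (pt e P u w) = 0 := hT.Q_pt_iso' hu w
  have hX : polar Q (pt e P u w) (pt e P u y) = 0 := by
    rw [hT.polar_pt, hu, zero_mul, mul_zero]
  have hm : Orth.sg Q _ _ hp hX ∈
      Cfsg.Geo.tensorProductSubgroup n₁ n₂ e P ⊓ Cfsg.Geo.omegaGL (⇑Q) := by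
    rw [he]
    exact Orth.sg_mem hQ hT.five_le_card hp hX
  obtain ⟨a, b, hab⟩ := (mem_iff e P _).mp hm.1
  have h := hab u' w'
  rw [Orth.ap_sg, hT.polar_pt, hT.polar_pt, hT.Q_pt_iso' hu, hg₁.symm u' u, huu', hg₂.symm w' w,
    hww', hg₂.symm w' y, hyw', mul_zero, mul_zero, zero_mul, add_zero, zero_smul, sub_zero,
    one_mul, mul_one] at h
  have h1 := congrArg (hT.cc y) h
  have h2 := congrArg (hT.cc w) h
  simp only [map_add, map_smul, cc_pt, hg₂.symm w' y, hyw', hyw, hg₂.symm w' w, hww', zero_smul,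
    one_smul, zero_add, add_zero, smul_zero] at h1 h2
  have hu'0 : u' ≠ 0 := fun h0 => by rw [h0, hg₁.zero_right] at huu'; exact zero_ne_one huu'
  have hβ : f₂ (ap b w') w ≠ 0 := fun h0 => hu'0 (by rw [h2, h0, zero_smul])
  have h3 : (c * f₂ y y) • u = (f₂ (ap b w') y / f₂ (ap b w') w) • u' := by
    conv_rhs => rw [h2]
    rw [← smul_smul, h1, smul_smul, div_mul_cancel₀ _ hβ]
  have h4 := congrArg (fun x => f₁ x u') h3
  simp only [hg₁.smul_left, huu', hu', mul_zero, mul_one] at h4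
  exact mul_ne_zero hT.c_ne hy h4

/-- The stabiliser is maximal when the odd degrees differ by at least two. -/
theorem isMaximalIn_odd (hQ : CfsgLib.ClassicalForms.Nondeg Q) (hgap : n₁ + 2 ≤ n₂) (h1o : Odd n₁)
    (h2o : Odd n₂) (hq : 5 ≤ n₁ ∨ ∃ t : F, t ≠ 0 ∧ t * t ≠ 1) :
    Cfsg.Geo.IsMaximalIn (Cfsg.Geo.omegaGL (⇑Q))
      (Cfsg.Geo.tensorProductSubgroup n₁ n₂ e P ⊓ Cfsg.Geo.omegaGL (⇑Q)) := by
  refine ⟨hT.lt_omega hQ, fun M hHM hMS => ?_⟩
  by_cases hfull : Cfsg.Geo.omegaGL (⇑Q) ≤ M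
  · exact Or.inr (le_antisymm hMS hfull)
  have hM : hT.Small M := ⟨hQ, hMS.trans Orth.omegaGL_le, hHM, hfull, hq.imp (fun h => by omega) id,
    by
      rcases Nat.lt_or_ge n₁ 5 with h | h
      · refine Or.inr (hT.sym₁.noLine_three ?_)
        obtain ⟨k, hk⟩ := h1o
        have := hT.pos₁
        omega
      · exact Or.inl h⟩
  refine Or.inl (le_antisymm (le_inf (fun g hg => ?_) hMS) hHM)
  by_contra hgT
  have hp₁ := hT.pos₁
  obtain ⟨k, hk⟩ := h2o
  by_cases h6 : 6 ≤ n₂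
  · exact hT.false_of_six hM hgap h1o h6 ⟨k, hk⟩ hg hgT
  · exact hT.false_of_five hM hgap (by omega) (hq.resolve_left (by omega)) hg hgT

end OTensor

end CfsgLib.Geometric.OrthTensor
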