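import Cfsg.Agent.Lib.Geometric.OrthTensorMax.Mapped
import Cfsg.Agent.Lib.Geometric.OrthTensorMax.EvenReflect
import Cfsg.Agent.Lib.Geometric.OrthTensorMax.Max
import Cfsg.Agent.Lib.Geometric.Dihedral

/-!
The stabiliser of a tensor product of orthogonal spaces of even first and odd second degree, the
second not dividing the first, is maximal in `omegaGL`: elements carrying fewer and fewer orthogonal
slices to slices lie in it, by the dihedral argument in the group fixing those slices up to sign.
-/

namespace CfsgLib.Geometric.OrthTensor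

open Matrix QuadraticMap Tensor

set_option linter.unusedSectionVars false
set_option linter.unusedVariables false

variable {ι : Type} [Fintype ι] [DecidableEq ι] {F : Type*} [Field F] [Finite F]
variable {Q : QuadraticForm F (ι → F)} {n₁ n₂ : ℕ} {e : ι ≃ Fin n₁ × Fin n₂} {P : GL ι F}
  {f₁ : (Fin n₁ → F) → (Fin n₁ → F) → F} {f₂ : (Fin n₂ → F) → (Fin n₂ → F) → F} {c : F}

variable (e P) in
/-- The elements of `M` acting as one sign on the slices of the given vectors. -/
def signFix (M : Subgroup (GL ι F)) {m : ℕ} (z : Fin m → Fin n₂ → F) : Subgroup (GL ι F) where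
  carrier := {k | k ∈ M ∧ ∃ σ : F, σ * σ = 1 ∧ ∀ i u, ap k (pt e P u (z i)) = σ • pt e P u (z i)}
  mul_mem' := by
    rintro k k' ⟨hk, σ, hσ, h⟩ ⟨hk', σ', hσ', h'⟩
    exact ⟨M.mul_mem hk hk', σ' * σ, by linear_combination hσ + σ * σ * hσ', fun i u => by
      rw [ap_mul, h', ap_smul, h, smul_smul]⟩
  one_mem' := ⟨M.one_mem, 1, one_mul 1, fun i u => by rw [ap_one, one_smul]⟩
  inv_mem' := by
    rintro k ⟨hk, σ, hσ, h⟩
    exact ⟨M.inv_mem hk, σ, hσ, fun i u => ap_injective k (by
      rw [ap_ap_inv, ap_smul, h, smul_smul, hσ, one_smul])⟩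

namespace OTensor

variable (hT : OTensor Q e P f₁ f₂ c) {M : Subgroup (GL ι F)}

/-- Elements of `M` carrying `m` pairwise orthogonal anisotropic slices to slices lie in the
stabiliser. -/
def Good (hT : OTensor Q e P f₁ f₂ c) (M : Subgroup (GL ι F)) (m : ℕ) : Prop :=
  ∀ g ∈ M, ∀ z v : Fin m → Fin n₂ → F, (∀ i, f₂ (z i) (z i) ≠ 0) →
    (Pairwise fun i j => f₂ (z i) (z j) = 0) →
    (∀ i u, ap g (pt e P u (z i)) ∈ slice e P (v i)) →
    g ∈ Cfsg.Geo.tensorProductSubgroup n₁ n₂ e P

variable (hM : hT.Small M) (h2o : Odd n₂) (hdvd : ¬ n₂ ∣ n₁)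
  (hxr : ∀ v, f₂ v v ≠ 0 → hT.xr v ∈ M)
include hT hM h2o hdvd hxr

/-- Three orthogonal slices. -/
theorem good_three : hT.Good M 3 := by
  intro g hg z v hz hp hmap
  by_contra hgT
  have hg₂ := hT.sym₂
  have hz0 : ∀ i, z i ≠ 0 := fun i h => hz i (by rw [h, hg₂.zero_left])
  obtain ⟨G, hG⟩ := hT.exists_mapped (hT.ne_zero_of_map (hz0 0) (hmap 0)) (hmap 0)
  have hin : ∀ i, z i ∈ mapped e P g G := by
    intro i
    rcases eq_or_ne i 0 with rfl | hi
    · exact ⟨v 0, hG⟩
    · exact hT.share_class hM h2o hdvd hxr hg hgT (hz 0) (hz i) (hp hi.symm) hG (hmap i)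
  have hli : LinearIndependent F fun i => (⟨z i, hin i⟩ : mapped e P g G) := by
    rw [Fintype.linearIndependent_iff]
    intro a ha i
    have h := congrArg (fun x : mapped e P g G => f₂ (x : Fin n₂ → F) (z i)) ha
    simp only [Submodule.coe_sum, Submodule.coe_smul, Submodule.coe_zero, hg₂.zero_left] at h
    rw [← SymForm.fl_apply hg₂, map_sum, Finset.sum_eq_single i (fun j _ hji => by
      rw [map_smul, SymForm.fl_apply, hp hji, smul_zero]) (fun h => absurd (Finset.mem_univ i) h),
      map_smul, SymForm.fl_apply, smul_eq_mul] at h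
    exact (mul_eq_zero.mp h).resolve_right (hz i)
  have h1 := hli.fintype_card_le_finrank
  have h2 := hT.finrank_mapped_le hM hg hgT G
  rw [Fintype.card_fin] at h1
  omega

/-- From one slice more to one fewer. -/
theorem good_step {m : ℕ} (hm : m ≤ 2) (hgood : hT.Good M (m + 1)) : hT.Good M m := by
  classical
  intro g hg z v hz hp hmap
  have hg₁ := hT.sym₁
  have hg₂ := hT.sym₂
  have h2 := hT.two_ne
  have hp₂ := hT.pos₂
  have hgI := hM.le_isom hg
  have hne : ∀ {x : Fin n₂ → F}, f₂ x x ≠ 0 → x ≠ 0 := fun hx h => hx (by rw [h, hg₂.zero_left])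
  have hz0 : ∀ i, z i ≠ 0 := fun i => hne (hz i)
  have hslice : ∀ {k : GL ι F}, k ∈ signFix e P M z → ∀ i u,
      ap k (pt e P u (z i)) ∈ slice e P (z i) := fun hk i u => by
    obtain ⟨-, σ, -, h⟩ := hk
    rw [h]
    exact Submodule.smul_mem _ σ (pt_mem_slice e P _ _)
  -- one slice more
  have hcons : ∀ {k : GL ι F} {s t : Fin n₂ → F} (zz vv : Fin m → Fin n₂ → F), k ∈ M →
      f₂ s s ≠ 0 → (∀ i, f₂ (zz i) (zz i) ≠ 0) → (Pairwise fun i j => f₂ (zz i) (zz j) = 0) →
      (∀ i, f₂ s (zz i) = 0) → (∀ i u, ap k (pt e P u (zz i)) ∈ slice e P (vv i)) →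
      (∀ u, ap k (pt e P u s) ∈ slice e P t) → k ∈ Cfsg.Geo.tensorProductSubgroup n₁ n₂ e P := by
    intro k s t zz vv hk hs hzz hpp hperp hzv hst
    refine hgood k hk (Fin.cons s zz) (Fin.cons t vv) (Fin.cases (by simpa using hs) (by simpa using hzz))
      ?_ (Fin.cases (by simpa using hst) (by simpa using hzv))
    intro i j hij
    induction i using Fin.cases with
    | zero =>
      induction j using Fin.cases with
      | zero => exact absurd rfl hij
      | succ j => simpa using hperp j
    | succ i =>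
      induction j using Fin.cases with
      | zero => simpa [hg₂.symm] using hperp i
      | succ j => simpa using hpp fun h => hij (congrArg Fin.succ h)
  have hfixed : ∀ {k : GL ι F} {s t : Fin n₂ → F}, k ∈ signFix e P M z → f₂ s s ≠ 0 →
      (∀ i, f₂ s (z i) = 0) → (∀ u, ap k (pt e P u s) ∈ slice e P t) →
      k ∈ Cfsg.Geo.tensorProductSubgroup n₁ n₂ e P := fun hk hs hperp hst =>
    hcons z z hk.1 hs hz hp hperp (hslice hk) hst
  -- two reflections of different classes
  obtain ⟨W, hW, hWd, hWm⟩ := hg₂.exists_perp_nondeg z hz hp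
  obtain ⟨ν, hν⟩ : ∃ ν : F, ¬ IsSquare ν := FiniteField.exists_nonsquare (fun h => h2 (by
    have : CharP F 2 := ringChar.of_eq h
    exact CharTwo.two_eq_zero))
  obtain ⟨v₀, hv₀W, hQv₀⟩ := Orth.exists_value_in h2 hW (by omega) ((2 : F)⁻¹ * 1)
  obtain ⟨v₁, hv₁W, hQv₁⟩ := Orth.exists_value_in h2 hW (by omega) ((2 : F)⁻¹ * ν)
  have hv₀ : f₂ v₀ v₀ = 1 := mul_left_cancel₀ (inv_ne_zero h2) hQv₀
  have hv₁ : f₂ v₁ v₁ = ν := mul_left_cancel₀ (inv_ne_zero h2) hQv₁
  have hv₀a : f₂ v₀ v₀ ≠ 0 := by rw [hv₀]; exact one_ne_zero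
  have hv₁a : f₂ v₁ v₁ ≠ 0 := by rw [hv₁]; exact fun h => hν (h ▸ IsSquare.zero)
  have hv₀z := (hWm v₀).mp hv₀W
  have hv₁z := (hWm v₁).mp hv₁W
  have hxK : ∀ {x : Fin n₂ → F}, f₂ x x ≠ 0 → (∀ i, f₂ x (z i) = 0) →
      hT.xr x ∈ signFix e P M z := fun hx hperp =>
    ⟨hxr _ hx, -1, by ring, fun i u => by
      rw [hT.xr_neg hx (by rw [hg₂.symm]; exact hperp i), neg_one_smul]⟩
  -- conjugates of reflections
  have hmove : ∀ {k : GL ι F} {x : Fin n₂ → F}, k ∈ signFix e P M z → f₂ x x ≠ 0 →
      (∀ i, f₂ x (z i) = 0) → k * hT.xr x * k⁻¹ ∈ Cfsg.Geo.tensorProductSubgroup n₁ n₂ e P →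
      ∃ t, f₂ t t ≠ 0 ∧ (∀ i, f₂ t (z i) = 0) ∧ (∀ u, ap k (pt e P u x) ∈ slice e P t) ∧
        k * hT.xr x * k⁻¹ = hT.xr t := by
    intro k x hk hx hperp hkT
    obtain ⟨t, ht, hmap⟩ := hT.exists_slice_of_conj_xr' hM h2o hdvd (inv_mem hk.1) hx
      (by rwa [inv_inv])
    have hback : ∀ u, ap k (pt e P u x) ∈ slice e P t := fun u => by
      simpa using hT.slice_back (hne ht) (hne hx) hmap u
    exact ⟨t, ht, fun i => hT.perp_of_map (hM.le_isom hk.1) (hne hx) (hz0 i) hback (hslice hk i)
      (hperp i), hback, (hT.conj_xr (hM.le_isom hk.1) hx hback).2⟩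
  -- the group fixing the slices lies in the stabiliser
  have hK : ∀ k ∈ signFix e P M z, k ∈ Cfsg.Geo.tensorProductSubgroup n₁ n₂ e P := by
    have hconj : ∀ k : signFix e P M z, (k : GL ι F) * hT.xr v₁ * (k : GL ι F)⁻¹ ∈
        Cfsg.Geo.tensorProductSubgroup n₁ n₂ e P := by
      intro k
      refine conj_mem_of_involutions (G := signFix e P M z)
        (H := (Cfsg.Geo.tensorProductSubgroup n₁ n₂ e P).subgroupOf (signFix e P M z))
        (p := ⟨hT.xr v₀, hxK hv₀a hv₀z⟩) (x := ⟨hT.xr v₁, hxK hv₁a hv₁z⟩)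
        (hT.xr_mem_tensor v₀) (hT.xr_mem_tensor v₁) (Subtype.ext (hT.xr_mul_self hv₀a))
        (Subtype.ext (hT.xr_mul_self hv₁a)) ?_ ?_ ?_ k
      · rintro ⟨k, hk⟩ hkp
        obtain ⟨t, -, -, hmap', -⟩ := hmove hk hv₀a hv₀z hkp
        exact hfixed hk hv₀a hv₀z hmap'
      · -- the classes differ
        rintro ⟨h, hh⟩ hhT heq
        have heq' : h * hT.xr v₀ * h⁻¹ = hT.xr v₁ := congrArg Subtype.val heq
        obtain ⟨a, b, hab⟩ := (mem_iff e P h).mp hhT
        have hhI := hM.le_isom hh.1
        obtain ⟨ua, hua0, hua⟩ := hT.exists_aniso_one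
        have hmap' : ∀ u, ap h (pt e P u v₀) ∈ slice e P (ap b v₀) := fun u => by
          rw [hab]; exact pt_mem_slice e P _ _
        obtain ⟨hbv, hconj⟩ := hT.conj_xr hhI hv₀a hmap'
        rw [heq'] at hconj
        have hline := congrArg (fun k => ap k (pt e P ua v₁)) hconj
        simp only [hT.ap_xr hv₁a, hT.ap_xr hbv, cc_pt, pt_smul_left, smul_smul,
          div_mul_cancel₀ _ hv₁a] at hline
        obtain ⟨r, hr⟩ : ∃ r : F, v₁ = r • ap b v₀ := by
          refine ⟨(2 : F)⁻¹ * (2 / f₂ (ap b v₀) (ap b v₀) * f₂ v₁ (ap b v₀)),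
            pt_inj_right e P hua0 ?_⟩
          have h3 := add_left_cancel hline
          rw [pt_smul_right, ← smul_smul, ← h3, smul_smul, inv_mul_cancel₀ h2, one_smul]
        set α := f₁ (ap a ua) (ap a ua)
        have hsim0 : ∀ y y', α * f₂ (ap b y) (ap b y') = f₁ ua ua * f₂ y y' := fun y y' => by
          have h3 := Orth.polar_ap hhI (pt e P ua y) (pt e P ua y')
          rw [hab, hab, hT.polar_pt, hT.polar_pt] at h3
          exact mul_left_cancel₀ hT.c_ne h3
        have hα : α ≠ 0 := fun h0 => by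
          have h3 := hsim0 v₀ v₀
          rw [h0, zero_mul, hv₀, mul_one] at h3
          exact hua h3.symm
        have hsim : ∀ y y', f₂ (ap b y) (ap b y') = f₁ ua ua / α * f₂ y y' := fun y y' => by
          rw [div_mul_eq_mul_div, eq_div_iff hα, mul_comm, hsim0]
        obtain ⟨d, hd⟩ := hg₂.isSquare_mult h2o b (div_ne_zero hua hα) hsim
        refine hν ⟨r * d, ?_⟩
        rw [← hv₁, hr, hg₂.smul_left, hg₂.smul_right, hsim, hd, hv₀]
        ring
      · -- the centralisers
        rintro ⟨g', hg'⟩ hg'T ⟨zz, hzzK⟩ hzz hzz1 hzz2 ⟨k, hk⟩ hkz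
        obtain ⟨t, ht, htz, -, hy⟩ := hmove hg' hv₁a hv₁z hg'T
        obtain ⟨i, hi⟩ := Subgroup.mem_zpowers_iff.mp hzz
        have hi' : (hT.xr v₀ * hT.xr t) ^ i = zz := by
          rw [← hy]
          simpa using congrArg Subtype.val hi
        have hkz' : k * zz * k⁻¹ = zz := congrArg Subtype.val hkz
        show k ∈ Cfsg.Geo.tensorProductSubgroup n₁ n₂ e P
        let φ₂ : GL (Fin n₂) F →* GL ι F :=
          MonoidHom.mk' (fun b => kron e P (1 : GL (Fin n₁) F) b) fun b b' => by
            rw [← kron_mul, one_mul]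
        set N₀ := negRefl hg₂ v₀ with hN₀
        set N₁ := negRefl hg₂ t with hN₁
        set d := (N₀ * N₁) ^ i with hd
        have hzd : ∀ x y, ap zz (pt e P x y) = pt e P x (ap d y) := fun x y => by
          have h3 : zz = φ₂ d := by rw [hd, map_zpow, map_mul, ← hi']; rfl
          rw [h3, show φ₂ d = kron e P (1 : GL (Fin n₁) F) d from rfl, ap_kron, ap_one]
        have hdd : ∀ y, ap d (ap d y) = y := fun y => by
          obtain ⟨ua, hua0, -⟩ := hT.exists_aniso_one
          refine pt_inj_right e P hua0 ?_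
          rw [← hzd, ← hzd, ← ap_mul, show zz * zz = 1 from congrArg Subtype.val hzz2, ap_one]
        have hN2 : ∀ {v : Fin n₂ → F}, f₂ v v ≠ 0 → negRefl hg₂ v * negRefl hg₂ v = 1 :=
          fun {v} hv => gl_ext fun y => by
            rw [ap_mul, ap_negRefl hg₂ hv, ap_negRefl hg₂ hv, ap_one]
            simp only [hg₂.add_left, hg₂.neg_left, hg₂.smul_left]
            match_scalars <;> field_simp <;> ring
        have hd2 : d * d = 1 := gl_ext fun y => by rw [ap_mul, hdd, ap_one]
        have hdinv : d⁻¹ = d := inv_eq_of_mul_eq_one_right hd2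
        -- it commutes with both reflections
        have hcomm : ∀ {N : GL (Fin n₂) F}, N * N = 1 → N * (N₀ * N₁) * N⁻¹ = (N₀ * N₁)⁻¹ →
            ∀ y, ap N (ap d y) = ap d (ap N y) := by
          intro N hN h y
          have h3 : N * d * N⁻¹ = d := by rw [hd, ← conj_zpow, h, _root_.inv_zpow, ← hd, hdinv]
          conv_rhs => rw [← h3, ap_mul, ap_mul, ap_inv_ap]
        have hinv₀ := inv_eq_of_mul_eq_one_right (hN2 hv₀a)
        have hinv₁ := inv_eq_of_mul_eq_one_right (hN2 ht)
        have hc₀ := hcomm (hN2 hv₀a) (by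
          rw [_root_.mul_inv_rev, hinv₀, hinv₁, ← mul_assoc, hN2 hv₀a, one_mul])
        have hc₁ := hcomm (hN2 ht) (by
          rw [_root_.mul_inv_rev, hinv₀, hinv₁]
          simp only [hN₀, hN₁, mul_assoc, hN2 ht, mul_one])
        have heig : ∀ {v : Fin n₂ → F}, f₂ v v ≠ 0 →
            (∀ y, ap (negRefl hg₂ v) (ap d y) = ap d (ap (negRefl hg₂ v) y)) →
            ap d v = v ∨ ap d v = -v := by
          intro v hv hc
          have hfix : ap (negRefl hg₂ v) v = v := by
            rw [ap_negRefl hg₂ hv]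
            match_scalars
            field_simp
            ring
          have h3 := hc v
          rw [hfix, ap_negRefl hg₂ hv] at h3
          have h5 : ap d v = (f₂ (ap d v) v / f₂ v v) • v := by
            have h4 : (2 : F) • ap d v = (2 : F) • ((f₂ (ap d v) v / f₂ v v) • v) := by
              rw [smul_smul, ← mul_div_assoc]
              linear_combination (norm := module) -h3
            exact smul_right_injective _ h2 h4
          set σ := f₂ (ap d v) v / f₂ v v
          have h6 := hdd v
          rw [h5, ap_smul, h5, smul_smul] at h6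
          have h7 : (σ * σ - 1) • v = 0 := by rw [sub_smul, one_smul, h6, sub_self]
          rcases mul_self_eq_one_iff.mp
            (sub_eq_zero.mp ((smul_eq_zero.mp h7).resolve_right (hne hv))) with h | h
          · left; rw [h5, h, one_smul]
          · right; rw [h5, h, neg_one_smul]
        -- it moves vectors inside the plane
        let S : Submodule F (Fin n₂ → F) := Submodule.span F {v₀, t}
        let Sub : Subgroup (GL (Fin n₂) F) :=
          { carrier := {b | ∀ y, ap b y - y ∈ S}
            mul_mem' := fun {b b'} hb hb' y => by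
              have h3 := S.add_mem (hb (ap b' y)) (hb' y)
              rwa [sub_add_sub_cancel, ← ap_mul] at h3
            one_mem' := fun y => by simp
            inv_mem' := fun {b} hb y => by
              have h3 := S.neg_mem (hb (ap b⁻¹ y))
              rwa [ap_ap_inv, neg_sub] at h3 }
        have hmemS : ∀ y, ap d y - y ∈ S := by
          have h3 : N₀ * N₁ ∈ Sub := fun y => by
            have ht' : t ∈ S := Submodule.subset_span (by simp)
            have hv₀' : v₀ ∈ S := Submodule.subset_span (by simp)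
            rw [ap_mul, hN₀, hN₁, ap_negRefl hg₂ ht, ap_negRefl hg₂ hv₀a,
              show -(-y + (2 * f₂ y t / f₂ t t) • t) +
                (2 * f₂ (-y + (2 * f₂ y t / f₂ t t) • t) v₀ / f₂ v₀ v₀) • v₀ - y =
                (-(2 * f₂ y t / f₂ t t)) • t +
                (2 * f₂ (-y + (2 * f₂ y t / f₂ t t) • t) v₀ / f₂ v₀ v₀) • v₀ by module]
            exact S.add_mem (S.smul_mem _ ht') (S.smul_mem _ hv₀')
          exact Sub.zpow_mem h3 i
        set S2 := slice e P v₀ ⊔ slice e P t with hS2
        have hneg : ∀ X, ap zz X = -X → X ∈ S2 := by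
          intro X hX
          have h3 : S2.mkQ ∘ₗ ((apEquiv zz).toLinearMap - LinearMap.id) = 0 :=
            ext_pt e P fun x y => by
              simp only [LinearMap.comp_apply, LinearMap.sub_apply, LinearEquiv.coe_coe,
                apEquiv_apply, LinearMap.id_apply, LinearMap.zero_apply, Submodule.mkQ_apply,
                Submodule.Quotient.mk_eq_zero, hzd, ← pt_sub_right]
              obtain ⟨p, q, hpq⟩ := Submodule.mem_span_pair.mp (hmemS y)
              rw [← hpq, pt_add_right, pt_smul_right, pt_smul_right]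
              exact S2.add_mem
                (S2.smul_mem _ (Submodule.mem_sup_left (pt_mem_slice e P _ _)))
                (S2.smul_mem _ (Submodule.mem_sup_right (pt_mem_slice e P _ _)))
          have h4 := LinearMap.congr_fun h3 X
          simp only [LinearMap.comp_apply, LinearMap.sub_apply, LinearEquiv.coe_coe, apEquiv_apply,
            LinearMap.id_apply, LinearMap.zero_apply, Submodule.mkQ_apply,
            Submodule.Quotient.mk_eq_zero, hX] at h4
          have h5 := S2.smul_mem (-(2 : F)⁻¹) h4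
          convert h5 using 1
          match_scalars
          field_simp
          ring
        have hkzz : ∀ X, ap zz (ap k X) = ap k (ap zz X) := fun X => by
          conv_lhs => rw [← hkz', ap_mul, ap_mul, ap_inv_ap]
        -- a negated member of the plane
        have hnegv : ∀ {x : Fin n₂ → F}, ap d x = -x → ∀ u, ap k (pt e P u x) ∈ S2 := by
          intro x hx u
          refine hneg _ ?_
          rw [hkzz, hzd, hx, pt_neg_right, ← neg_one_smul F, ap_smul, neg_one_smul]
        have honly : ∀ {x x' : Fin n₂ → F}, ap d x = -x → ap d x' = x' → S2 = slice e P x ⊔ slice e P x' →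
            ∀ u, ap k (pt e P u x) ∈ slice e P x := by
          intro x x' hx hx' hS u
          have hX := hnegv hx u
          rw [hS] at hX
          obtain ⟨_, ⟨a, rfl⟩, _, ⟨b, rfl⟩, hab'⟩ := Submodule.mem_sup.mp hX
          simp only [ptl_apply] at hab'
          have h3 : ap zz (ap k (pt e P u x)) = -ap k (pt e P u x) := by
            rw [hkzz, hzd, hx, pt_neg_right, ← neg_one_smul F, ap_smul, neg_one_smul]
          rw [← hab', ap_add, hzd, hzd, hx, hx', pt_neg_right] at h3
          have h4 : (2 : F) • pt e P b x' = 0 := by linear_combination (norm := module) h3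
          rw [← hab', (smul_eq_zero.mp h4).resolve_left h2, add_zero]
          exact pt_mem_slice e P _ _
        rcases heig hv₀a hc₀ with h₀ | h₀ <;> rcases heig ht hc₁ with h₁ | h₁
        · -- trivial on the plane, so everywhere
          have hd1 : ∀ y, ap d y = y := fun y => by
            have hfix : ∀ x ∈ S, ap d x = x := fun x hx => by
              obtain ⟨p, q, rfl⟩ := Submodule.mem_span_pair.mp hx
              rw [ap_add, ap_smul, ap_smul, h₀, h₁]
            have h3 := hfix _ (hmemS y)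
            rw [ap_sub, hdd] at h3
            have h4 : (2 : F) • (ap d y - y) = 0 := by linear_combination (norm := module) -h3
            exact sub_eq_zero.mp ((smul_eq_zero.mp h4).resolve_left h2)
          refine absurd (Subtype.ext ?_) hzz1
          exact gl_ext_pt e P fun x y => by rw [hzd, hd1]; exact (ap_one _).symm
        · exact hfixed hk ht htz (honly h₁ h₀ (by rw [hS2, sup_comm]))
        · exact hfixed hk hv₀a hv₀z (honly h₀ h₁ hS2)
        · -- minus the identity on the plane
          set w' := t - (f₂ t v₀ / f₂ v₀ v₀) • v₀ with hw'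
          have hw'v₀ : f₂ w' v₀ = 0 := by
            rw [hw', hg₂.sub_left, hg₂.smul_left, div_mul_cancel₀ _ hv₀a, sub_self]
          have hS2' : S2 ≤ slice e P v₀ ⊔ slice e P w' := by
            refine sup_le le_sup_left ?_
            rintro _ ⟨a, rfl⟩
            have ht' : t = w' + (f₂ t v₀ / f₂ v₀ v₀) • v₀ := by rw [hw', sub_add_cancel]
            rw [ptl_apply, ht', pt_add_right, pt_smul_right]
            exact Submodule.add_mem _ (Submodule.mem_sup_right (pt_mem_slice e P _ _))
              (Submodule.mem_sup_left (Submodule.smul_mem _ _ (pt_mem_slice e P _ _)))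
          have hdw : ap d w' = -w' := by
            rw [hw', ap_sub, ap_smul, h₀, h₁]
            module
          by_cases hw'0 : w' = 0
          · refine hfixed (t := v₀) hk hv₀a hv₀z fun u => ?_
            have h3 := hS2' (hnegv h₀ u)
            have hbot : slice e P (0 : Fin n₂ → F) = ⊥ := by
              refine eq_bot_iff.mpr ?_
              rintro _ ⟨a, rfl⟩
              simp [pt_zero_right]
            rwa [hw'0, hbot, sup_bot_eq] at h3
          have hw'a : f₂ w' w' ≠ 0 := by
            intro h0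
            obtain ⟨y, hy'⟩ := hg₂.exists_one hw'0
            obtain ⟨p, q, hpq⟩ := Submodule.mem_span_pair.mp (hmemS y)
            have hSw : f₂ (ap d y - y) w' = 0 := by
              rw [← hpq, hg₂.add_left, hg₂.smul_left, hg₂.smul_left,
                hg₂.eq_zero_comm.mp hw'v₀]
              have hv₀t : t = w' + (f₂ t v₀ / f₂ v₀ v₀) • v₀ := by rw [hw', sub_add_cancel]
              rw [show f₂ t w' = 0 by
                conv_lhs => rw [hv₀t]
                rw [hg₂.add_left, hg₂.smul_left, h0, hg₂.eq_zero_comm.mp hw'v₀]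
                ring]
              ring
            have hdI : d ∈ isom f₂ := by
              have hNI : ∀ {v : Fin n₂ → F}, f₂ v v ≠ 0 → negRefl hg₂ v ∈ isom f₂ := fun {v} hv =>
                mem_isom_iff.mpr fun a b => by
                  rw [ap_negRefl hg₂ hv, ap_negRefl hg₂ hv]
                  simp only [hg₂.add_left, hg₂.add_right, hg₂.neg_left, hg₂.neg_right,
                    hg₂.smul_left, hg₂.smul_right, hg₂.symm v b]
                  field_simp
                  ring
              exact (isom f₂).zpow_mem ((isom f₂).mul_mem (hNI hv₀a) (hNI ht)) i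
            have h3 := mem_isom_iff.mp hdI y w'
            rw [hdw, hg₂.neg_right, show f₂ (ap d y) w' = f₂ y w' from by
              rw [hg₂.sub_left, sub_eq_zero] at hSw; exact hSw, hy'] at h3
            exact h2 (by linear_combination -h3)
          obtain ⟨t', -, hmap'⟩ := hT.mapped_of_plane hM h2o hdvd hxr hk.1 (v₁ := v₀) (v₂ := w')
            (z₁ := v₀) (z₂ := w') (fun u => hS2' (hnegv h₀ u)) (fun u => hS2' (hnegv hdw u))
            (a := 1) (b := 0) (by rwa [one_smul, zero_smul, add_zero])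
          rw [one_smul, zero_smul, add_zero] at hmap'
          exact hfixed hk hv₀a hv₀z hmap'
    intro k hk
    obtain ⟨t, -, -, hmap', -⟩ := hmove hk hv₁a hv₁z (hconj ⟨k, hk⟩)
    exact hfixed hk hv₁a hv₁z hmap'
  -- back to the given element
  have hv : ∀ i, f₂ (v i) (v i) ≠ 0 := fun i => (hT.conj_xr hgI (hz i) (hmap i)).1
  have hvp : Pairwise fun i j => f₂ (v i) (v j) = 0 := fun i j hij =>
    hT.perp_of_map hgI (hz0 i) (hz0 j) (hmap i) (hmap j) (hp hij)
  obtain ⟨W', hW', hW'd, hW'm⟩ := hg₂.exists_perp_nondeg v hv hvp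
  obtain ⟨x, hxW, hQx⟩ := Orth.exists_value_in h2 hW' (by omega) ((2 : F)⁻¹ * 1)
  have hx : f₂ x x ≠ 0 := by
    rw [show f₂ x x = 1 from mul_left_cancel₀ (inv_ne_zero h2) hQx]; exact one_ne_zero
  have hxv := (hW'm x).mp hxW
  have hkK : g⁻¹ * hT.xr x * g ∈ signFix e P M z :=
    ⟨M.mul_mem (M.mul_mem (inv_mem hg) (hxr x hx)) hg, -1, by ring, fun i u => by
      obtain ⟨u', hu'⟩ := hmap i u
      rw [ptl_apply] at hu'
      rw [ap_mul, ap_mul, ← hu', hT.xr_neg hx (by rw [hg₂.symm]; exact hxv i), neg_one_smul,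
        ← neg_one_smul F, ap_smul, hu', ap_inv_ap, neg_one_smul]⟩
  obtain ⟨t, ht, hmap'⟩ := hT.exists_slice_of_conj_xr' hM h2o hdvd hg hx (hK _ hkK)
  have hback := fun u => hT.slice_back (hne ht) (hne hx) hmap' u
  refine hcons z v hg ht hz hp (fun i => ?_) hmap hmap'
  exact hT.perp_of_map (inv_mem hgI) (hne hx) (hne (hv i)) hback
    (hT.slice_back (hz0 i) (hne (hv i)) (hmap i)) (hxv i)

omit hM hxr in
/-- The stabiliser is maximal when the first degree is even and the second, odd, does not divide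
it. -/
theorem isMaximalIn_even_odd (hQ : CfsgLib.ClassicalForms.Nondeg Q) (h1e : Even n₁)
    (hline : 5 ≤ n₁ ∨ ∀ u p, u ≠ 0 → f₁ u u = 0 → f₁ u p = 0 → f₁ p p = 0 →
      p ∈ Submodule.span F {u}) :
    Cfsg.Geo.IsMaximalIn (Cfsg.Geo.omegaGL (⇑Q))
      (Cfsg.Geo.tensorProductSubgroup n₁ n₂ e P ⊓ Cfsg.Geo.omegaGL (⇑Q)) := by
  refine ⟨hT.lt_omega hQ, fun M hHM hMS => ?_⟩
  by_cases hfull : Cfsg.Geo.omegaGL (⇑Q) ≤ M
  · exact Or.inr (le_antisymm hMS hfull)
  have hp₁ := hT.pos₁
  have hM : hT.Small M := ⟨hQ, hMS.trans Orth.omegaGL_le, hHM, hfull, Or.inl (by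
    obtain ⟨k, hk⟩ := h1e
    omega), hline⟩
  have hxr : ∀ v, f₂ v v ≠ 0 → hT.xr v ∈ M := fun v hv => hT.xr_mem hM h1e h2o hv
  refine Or.inl (le_antisymm (le_inf (fun g hg => ?_) hMS) hHM)
  exact hT.good_step hM h2o hdvd hxr (by omega) (hT.good_step hM h2o hdvd hxr (by omega)
    (hT.good_step hM h2o hdvd hxr le_rfl (hT.good_three hM h2o hdvd hxr)))
    g hg ![] ![] (fun i => i.elim0) (fun i => i.elim0) fun i => i.elim0

end OTensor

end CfsgLib.Geometric.OrthTensor
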