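import Cfsg.Agent.Lib.Geometric.OrthTensorMax.Max

/-!
The stabiliser of a tensor product of orthogonal spaces of degrees differing by three or more is
maximal in `omegaGL`.
-/

namespace CfsgLib.Geometric.OrthTensor

open Matrix QuadraticMap Tensor

set_option linter.unusedSectionVars false
set_option linter.unusedVariables false

variable {ι : Type} [Fintype ι] [DecidableEq ι] {F : Type*} [Field F] [Finite F]
variable {Q : QuadraticForm F (ι → F)} {n₁ n₂ : ℕ} {e : ι ≃ Fin n₁ × Fin n₂} {P : GL ι F}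
  {f₁ : (Fin n₁ → F) → (Fin n₁ → F) → F} {f₂ : (Fin n₂ → F) → (Fin n₂ → F) → F} {c : F}

namespace OTensor

variable (hT : OTensor Q e P f₁ f₂ c)
include hT

/-- For a gap of three or more nothing lies outside the stabiliser. -/
theorem false_of_gap {M : Subgroup (GL ι F)} (hM : hT.Small M) (hgap : n₁ + 3 ≤ n₂) {g : GL ι F}
    (hg : g ∈ M) (hgT : g ∉ Cfsg.Geo.tensorProductSubgroup n₁ n₂ e P) : False := by
  have hg₁ := hT.sym₁
  have hg₂ := hT.sym₂
  obtain ⟨a, ha0, ha⟩ := hg₁.exists_isotropic (by rw [Fintype.card_fin]; exact hT.pos₁)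
  obtain ⟨w, hw0, hw⟩ := hg₂.exists_isotropic (by rw [Fintype.card_fin]; have := hT.pos₂; omega)
  set X := ap g (pt e P a w) with hX
  set K := LinearMap.ker (hT.ccl X) with hK
  have hKd : 3 ≤ Module.finrank F K := by
    have h3 := (hT.ccl X).finrank_range_add_finrank_ker
    have h4 := Submodule.finrank_le (LinearMap.range (hT.ccl X))
    rw [Module.finrank_fin_fun] at h3 h4
    rw [hK]
    omega
  have hKmem : ∀ v, v ∈ K → hT.cc v X = 0 := fun v hv => by simpa [hK] using hv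
  obtain ⟨r, hr, hr0, hrr⟩ := Orth.exists_singular (Q := hg₂.sq) hT.two_ne (W := K) hKd
  have hrr' := hg₂.sq_eq_zero.mp hrr
  have hnle : ¬ K ⊓ LinearMap.ker (hg₂.fl r) ≤ Submodule.span F {r} := fun h => by
    have h' := Submodule.finrank_mono h
    have h'' := Orth.finrank_le_inf_ker K (hg₂.fl r)
    rw [finrank_span_singleton hr0] at h'
    omega
  obtain ⟨y, ⟨hyK, hy⟩, hyn⟩ := SetLike.not_le_iff_exists.mp hnle
  have hry : f₂ r y = 0 := hg₂.eq_zero_comm.mp hy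
  refine hT.false_of_keep hM (by omega) (k := g⁻¹ * hT.xs r y hrr' hry * g)
    (mul_mem (mul_mem (inv_mem hg) (hM.stab_le (hT.xs_mem hrr' hry))) hg) (fun h => hgT ?_)
    hw hw0 ha0 (Or.inr ha) (t := 1) ?_
  · have h' := hT.mem_of_conj_xs hM (by omega) (inv_mem hg) hrr' hr0 hry hyn (by rwa [inv_inv])
    simpa using inv_mem h'
  · rw [ap_mul, ap_mul, ← hX, hT.ap_xs_of_cc hrr' hry (hKmem r hr), hKmem y hyK,
      pt_zero_left, sub_zero, hX, ap_inv_ap, one_smul]

/-- The stabiliser is maximal when the degrees differ by three or more. -/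
theorem isMaximalIn_gap (hQ : CfsgLib.ClassicalForms.Nondeg Q) (hgap : n₁ + 3 ≤ n₂)
    (hq : 4 ≤ n₁ ∨ ∃ t : F, t ≠ 0 ∧ t * t ≠ 1)
    (hline : 5 ≤ n₁ ∨ ∀ u p, u ≠ 0 → f₁ u u = 0 → f₁ u p = 0 → f₁ p p = 0 →
      p ∈ Submodule.span F {u}) :
    Cfsg.Geo.IsMaximalIn (Cfsg.Geo.omegaGL (⇑Q))
      (Cfsg.Geo.tensorProductSubgroup n₁ n₂ e P ⊓ Cfsg.Geo.omegaGL (⇑Q)) := by
  refine ⟨hT.lt_omega hQ, fun M hHM hMS => ?_⟩
  by_cases hfull : Cfsg.Geo.omegaGL (⇑Q) ≤ M
  · exact Or.inr (le_antisymm hMS hfull)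
  have hM : hT.Small M := ⟨hQ, hMS.trans Orth.omegaGL_le, hHM, hfull, hq, hline⟩
  refine Or.inl (le_antisymm (le_inf (fun g hg => ?_) hMS) hHM)
  by_contra hgT
  exact hT.false_of_gap hM hgap hg hgT

end OTensor

end CfsgLib.Geometric.OrthTensor
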