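import Cfsg.Agent.Lib.Geometric.OrthTensorMax.Start

/-!
In a proper overgroup of the stabiliser of an orthogonal tensor product with second degree odd and
not dividing the first, elements conjugating a factorwise reflection to a factorwise element carry
slices to slices.
-/

namespace CfsgLib.Geometric.OrthTensor

open Matrix QuadraticMap Tensor

set_option linter.unusedSectionVars false
set_option linter.unusedVariables false

variable {ι : Type} [Fintype ι] [DecidableEq ι] {F : Type*} [Field F] [Finite F]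
variable {Q : QuadraticForm F (ι → F)} {n₁ n₂ : ℕ} {e : ι ≃ Fin n₁ × Fin n₂} {P : GL ι F}
  {f₁ : (Fin n₁ → F) → (Fin n₁ → F) → F} {f₂ : (Fin n₂ → F) → (Fin n₂ → F) → F} {c : F}

namespace OTensor

variable (hT : OTensor Q e P f₁ f₂ c) {M : Subgroup (GL ι F)}
include hT

lemma xr_mul_self {v : Fin n₂ → F} (hv : f₂ v v ≠ 0) : hT.xr v * hT.xr v = 1 := by
  refine gl_ext fun X => ?_
  have hcc : hT.cc v (ap (hT.xr v) X) = hT.cc v X := by
    rw [hT.ap_xr hv, map_add, map_neg, map_smul, cc_pt, smul_smul, div_mul_cancel₀ _ hv]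
    module
  rw [ap_mul, hT.ap_xr hv (ap (hT.xr v) X), hcc, hT.ap_xr hv, ap_one]
  module

lemma xr_inv {v : Fin n₂ → F} (hv : f₂ v v ≠ 0) : (hT.xr v)⁻¹ = hT.xr v :=
  inv_eq_of_mul_eq_one_right (hT.xr_mul_self hv)

lemma xr_mem_tensor (v : Fin n₂ → F) : hT.xr v ∈ Cfsg.Geo.tensorProductSubgroup n₁ n₂ e P :=
  kron_mem e P _ _

lemma xr_neg {v z : Fin n₂ → F} (hv : f₂ v v ≠ 0) (hz : f₂ z v = 0) (u : Fin n₁ → F) :
    ap (hT.xr v) (pt e P u z) = -pt e P u z := by
  rw [hT.ap_xr hv, cc_pt, hz, zero_smul, pt_zero_left, smul_zero, add_zero]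

lemma exists_aniso_one : ∃ ua, ua ≠ 0 ∧ f₁ ua ua ≠ 0 := by
  have hg₁ := hT.sym₁
  have hp₁ := hT.pos₁
  obtain ⟨x, hx0, hx⟩ := hg₁.exists_isotropic (by rw [Fintype.card_fin]; exact hp₁)
  obtain ⟨v, -, hv⟩ := hg₁.exists_aniso_perp (by rw [Fintype.card_fin]; exact hp₁) hx hx0
  exact ⟨v, fun h => hv (by rw [h, hg₁.zero_left]), hv⟩

/-- The target of a mapped slice is not zero. -/
lemma ne_zero_of_map {g : GL ι F} {z v : Fin n₂ → F} (hz : z ≠ 0)
    (h : ∀ u, ap g (pt e P u z) ∈ slice e P v) : v ≠ 0 := by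
  intro hv
  have hu : (Pi.single ⟨0, by have := hT.pos₁; omega⟩ 1 : Fin n₁ → F) ≠ 0 := fun h' => by
    simpa using congrFun h' ⟨0, by have := hT.pos₁; omega⟩
  obtain ⟨a, ha⟩ := h (Pi.single ⟨0, by have := hT.pos₁; omega⟩ 1)
  rw [ptl_apply, hv, pt_zero_right] at ha
  exact ap_ne_zero g (pt_ne_zero e P hu hz) ha.symm

/-- Slices mapped by an isometry keep orthogonality. -/
lemma perp_of_map {g : GL ι F} (hg : g ∈ Cfsg.isometryGroup F (⇑Q)) {z z' v v' : Fin n₂ → F}
    (hz0 : z ≠ 0) (hz'0 : z' ≠ 0) (h : ∀ u, ap g (pt e P u z) ∈ slice e P v)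
    (h' : ∀ u, ap g (pt e P u z') ∈ slice e P v') (hzz : f₂ z z' = 0) : f₂ v v' = 0 := by
  have hg₁ := hT.sym₁
  obtain ⟨G, hG⟩ := hT.exists_mapped (hT.ne_zero_of_map hz0 h) h
  obtain ⟨G', hG'⟩ := hT.exists_mapped (hT.ne_zero_of_map hz'0 h') h'
  obtain ⟨ua, hua0, hua⟩ := hT.exists_aniso_one
  obtain ⟨u, hu⟩ := hT.mapped_surjective hz0 hG ua
  obtain ⟨u', hu'⟩ := hT.mapped_surjective hz'0 hG' ua
  have e1 := Orth.polar_ap hg (pt e P u z) (pt e P u' z')
  rw [hG, hG', hu, hu', hT.polar_pt, hT.polar_pt, hzz, mul_zero, mul_zero, mul_eq_zero,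
    mul_eq_zero] at e1
  exact (e1.resolve_left hT.c_ne).resolve_left hua

/-- Conjugating a factorwise reflection along a mapped slice. -/
lemma conj_xr {g : GL ι F} (hg : g ∈ Cfsg.isometryGroup F (⇑Q)) {z v : Fin n₂ → F}
    (hz : f₂ z z ≠ 0) (h : ∀ u, ap g (pt e P u z) ∈ slice e P v) :
    f₂ v v ≠ 0 ∧ g * hT.xr z * g⁻¹ = hT.xr v := by
  have hg₁ := hT.sym₁
  have hz0 : z ≠ 0 := fun h0 => hz (by rw [h0, hT.sym₂.zero_left])
  obtain ⟨G, hG⟩ := hT.exists_mapped (hT.ne_zero_of_map hz0 h) h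
  have hpair : ∀ a b, f₁ (G a) (G b) * f₂ v v = f₁ a b * f₂ z z := fun a b => by
    have e1 := Orth.polar_ap hg (pt e P a z) (pt e P b z)
    rw [hG, hG, hT.polar_pt, hT.polar_pt] at e1
    exact mul_left_cancel₀ hT.c_ne e1
  have hv : f₂ v v ≠ 0 := fun h0 => by
    obtain ⟨ua, -, hua⟩ := hT.exists_aniso_one
    have e1 := hpair ua ua
    rw [h0, mul_zero] at e1
    exact mul_ne_zero hua hz e1.symm
  refine ⟨hv, gl_ext fun Y => ?_⟩
  obtain ⟨X, rfl⟩ : ∃ X, ap g X = Y := ⟨_, ap_ap_inv g Y⟩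
  have hcc : hT.cc v (ap g X) = (f₂ v v / f₂ z z) • G (hT.cc z X) := hg₁.eq_of_forall fun b => by
    obtain ⟨a, rfl⟩ := hT.mapped_surjective hz0 hG b
    rw [hT.cc_ap hg (hG a), hg₁.smul_left, div_mul_eq_mul_div, mul_comm, hpair,
      mul_div_cancel_right₀ _ hz]
  rw [ap_mul, ap_mul, ap_inv_ap, hT.ap_xr hz, hT.ap_xr hv, hcc, ap_add, ap_smul,
    ← neg_one_smul F X, ap_smul, neg_one_smul, hG, pt_smul_left, smul_smul]
  congr 2
  field_simp

variable (hM : hT.Small M)
include hM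

/-- A conjugate of a factorwise reflection is factorwise only if a slice goes to its slice. -/
theorem exists_slice_of_conj_xr' (h2o : Odd n₂) (hdvd : ¬ n₂ ∣ n₁) {g : GL ι F} (hg : g ∈ M)
    {v : Fin n₂ → F} (hv : f₂ v v ≠ 0)
    (hk : g⁻¹ * hT.xr v * g ∈ Cfsg.Geo.tensorProductSubgroup n₁ n₂ e P) :
    ∃ z, f₂ z z ≠ 0 ∧ ∀ u, ap g (pt e P u z) ∈ slice e P v := by
  classical
  have h2 := hT.two_ne
  obtain ⟨a, b, hab⟩ := (mem_iff e P _).mp hk
  have hkk : ∀ X, ap (g⁻¹ * hT.xr v * g) (ap (g⁻¹ * hT.xr v * g) X) = X := fun X => by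
    rw [← ap_mul, show g⁻¹ * hT.xr v * g * (g⁻¹ * hT.xr v * g) =
      g⁻¹ * (hT.xr v * hT.xr v) * g by group, hT.xr_mul_self hv, mul_one, inv_mul_cancel, ap_one]
  -- the square of the first factor is a square scalar
  obtain ⟨u₁, hu₁⟩ : ∃ u : Fin n₁ → F, u ≠ 0 :=
    ⟨Pi.single ⟨0, by have := hT.pos₁; omega⟩ 1, fun h' => by
      simpa using congrFun h' ⟨0, by have := hT.pos₁; omega⟩⟩
  obtain ⟨r₁, hr₁⟩ : ∃ r : Fin n₂ → F, r ≠ 0 :=
    ⟨Pi.single ⟨0, by have := hT.pos₂; omega⟩ 1, fun h' => by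
      simpa using congrFun h' ⟨0, by have := hT.pos₂; omega⟩⟩
  have hsq : ∀ u r, pt e P (ap a (ap a u)) (ap b (ap b r)) = pt e P u r := fun u r => by
    rw [← hab, ← hab, hkk]
  have heig : ∀ u, ∃ s : F, (apEquiv (a * a)).toLinearMap u = s • u := by
    intro u
    obtain ⟨j, hj⟩ := Function.ne_iff.mp (ap_ne_zero b (ap_ne_zero b hr₁))
    refine ⟨r₁ j / ap b (ap b r₁) j, funext fun i => ?_⟩
    have h3 := congrFun ((coords e P).injective (hsq u r₁)) (i, j)
    simp only [Pi.zero_apply] at hj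
    simp only [LinearEquiv.coe_coe, apEquiv_apply, ap_mul, Pi.smul_apply, smul_eq_mul] at h3 ⊢
    field_simp
    linear_combination h3
  obtain ⟨μ, hμ⟩ := exists_scalar heig
  simp only [LinearEquiv.coe_coe, apEquiv_apply, ap_mul] at hμ
  have hμ0 : μ ≠ 0 := fun h => by
    exact ap_ne_zero a (ap_ne_zero a hu₁) (by rw [hμ, h, zero_smul])
  have hbb : ∀ r, ap b (ap b r) = μ⁻¹ • r := fun r => by
    have h3 := hsq u₁ r
    rw [hμ, pt_smul_left, ← pt_smul_right] at h3
    conv_rhs => rw [← pt_inj_right e P hu₁ h3, smul_smul, inv_mul_cancel₀ hμ0, one_smul]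
  obtain ⟨ρ, hρ⟩ : IsSquare μ := by
    have hm : (b : Matrix (Fin n₂) (Fin n₂) F) * b = μ⁻¹ • 1 := by
      refine Matrix.ext_of_mulVec_single fun i => ?_
      rw [← Matrix.mulVec_mulVec, Matrix.smul_mulVec, Matrix.one_mulVec]
      exact hbb _
    have hd := congrArg Matrix.det hm
    rw [Matrix.det_mul, Matrix.det_smul, Matrix.det_one, mul_one, Fintype.card_fin] at hd
    obtain ⟨k, hk'⟩ := h2o
    set d := Matrix.det (b : Matrix (Fin n₂) (Fin n₂) F)
    have hd0 : d ≠ 0 := fun h => pow_ne_zero n₂ (inv_ne_zero hμ0) (by rw [← hd, h, mul_zero])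
    refine ⟨(d * μ ^ k)⁻¹, ?_⟩
    rw [hk', inv_pow, pow_succ, two_mul, pow_add] at hd
    field_simp at hd ⊢
    linear_combination hd
  have hρ0 : ρ ≠ 0 := fun h => hμ0 (by rw [hρ, h, mul_zero])
  set A : (Fin n₁ → F) →ₗ[F] (Fin n₁ → F) := ρ⁻¹ • (apEquiv a).toLinearMap with hA
  set B : (Fin n₂ → F) →ₗ[F] (Fin n₂ → F) := ρ • (apEquiv b).toLinearMap with hB
  have hAA : ∀ u, A (A u) = u := fun u => by
    simp only [hA, LinearMap.smul_apply, LinearEquiv.coe_coe, apEquiv_apply, ap_smul, smul_smul, hμ,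
      hρ]
    match_scalars
    field_simp
  have hBB : ∀ r, B (B r) = r := fun r => by
    simp only [hB, LinearMap.smul_apply, LinearEquiv.coe_coe, apEquiv_apply, ap_smul, smul_smul, hbb,
      hρ]
    match_scalars
    field_simp
  have hAB : ∀ x y, ap (g⁻¹ * hT.xr v * g) (pt e P x y) = pt e P (A x) (B y) := fun x y => by
    simp only [hA, hB, LinearMap.smul_apply, LinearEquiv.coe_coe, apEquiv_apply, pt_smul_left,
      pt_smul_right, smul_smul, hab]
    rw [mul_inv_cancel₀ hρ0, one_smul]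
  suffices hscal : ∃ s : F, ∀ u, A u = s • u by
    obtain ⟨s, hs⟩ := hscal
    refine hT.exists_slice_of_scalar hM hg hv hab (μ := ρ * s) fun u => ?_
    have h3 := hs u
    simp only [hA, LinearMap.smul_apply, LinearEquiv.coe_coe, apEquiv_apply] at h3
    rw [← smul_smul, ← h3, smul_inv_smul₀ hρ0]
  -- the range of one plus the conjugate
  set L : (ι → F) →ₗ[F] (ι → F) :=
    (apEquiv (g⁻¹ * hT.xr v * g)).toLinearMap + LinearMap.id with hL
  have hv0 : v ≠ 0 := fun h => hv (by rw [h, hT.sym₂.zero_left])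
  set Y := (slice e P v).map (apEquiv g⁻¹).toLinearMap with hY
  have hYd : Module.finrank F Y = n₁ := by
    rw [hY, LinearEquiv.finrank_map_eq, slice,
      LinearMap.finrank_range_of_inj (hT.ptl_injective hv0), Module.finrank_fin_fun]
  have hLX : ∀ X, L X = (2 / f₂ v v) • ap g⁻¹ (pt e P (hT.cc v (ap g X)) v) := fun X => by
    simp only [hL, LinearMap.add_apply, LinearEquiv.coe_coe, apEquiv_apply, LinearMap.id_apply,
      ap_mul, hT.ap_xr hv, ap_add, ap_smul, ← neg_one_smul F (ap g X), ap_inv_ap]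
    module
  have hLY : ∀ X, L X ∈ Y := fun X => by
    rw [hLX]
    exact Y.smul_mem _ ⟨_, pt_mem_slice e P _ _, rfl⟩
  have hLpt : ∀ x y, L (pt e P x y) = pt e P (A x) (B y) + pt e P x y := fun x y => by
    simp [hL, hAB]
  by_cases hBs : ∃ σ : F, ∀ y, B y = σ • y
  · exfalso
    obtain ⟨σ, hσ⟩ := hBs
    set T : (Fin n₁ → F) →ₗ[F] (Fin n₁ → F) := σ • A + LinearMap.id with hTdef
    set R := LinearMap.range T with hR
    let Φ : (Fin n₂ → R) →ₗ[F] (ι → F) :=
      ∑ j, (ptl e P (Pi.single j 1)).comp (R.subtype.comp (LinearMap.proj j))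
    have hΦ : Function.Injective Φ := by
      refine (injective_iff_map_eq_zero _).mpr fun f hf => funext fun j => Subtype.ext ?_
      have h3 := congrArg (con e P (LinearMap.proj j)) hf
      simpa [Φ, Pi.single_apply] using h3
    have hLσ : ∀ x y, L (pt e P x y) = pt e P (T x) y := fun x y => by
      rw [hLpt, hσ, pt_smul_right, ← pt_smul_left, ← pt_add_left]
      rfl
    let Ψ : (ι → F) →ₗ[F] (Fin n₂ → R) := LinearMap.pi fun j =>
      T.rangeRestrict.comp (con e P (LinearMap.proj j))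
    have hLΦ : L = Φ.comp Ψ := ext_pt e P fun x y => by
      rw [hLσ]
      simp only [Φ, Ψ, LinearMap.comp_apply, LinearMap.sum_apply, LinearMap.proj_apply,
        LinearMap.pi_apply, Submodule.coe_subtype, LinearMap.codRestrict_apply,
        LinearMap.rangeRestrict, con_pt, ptl_apply, map_smul]
      simp only [pt_smul_left, ← pt_smul_right, ← ptr_apply e P _ (_ • _), ← map_sum]
      congr 1
      exact pi_eq_sum_univ' y
    have hrange : LinearMap.range L = LinearMap.range Φ := by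
      refine le_antisymm (by rw [hLΦ]; exact LinearMap.range_comp_le_range _ _) ?_
      rintro _ ⟨f, rfl⟩
      simp only [Φ, LinearMap.sum_apply]
      refine Submodule.sum_mem _ fun j _ => ?_
      obtain ⟨x, hx⟩ := (f j).2
      simp only [LinearMap.comp_apply, LinearMap.proj_apply, Submodule.coe_subtype, ptl_apply,
        ← hx]
      exact ⟨_, hLσ _ _⟩
    have hYL : Y ≤ LinearMap.range L := by
      rintro _ ⟨_, ⟨u, rfl⟩, rfl⟩
      refine ⟨(2 : F)⁻¹ • ap g⁻¹ (pt e P u v), ?_⟩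
      rw [map_smul, hLX, ap_ap_inv, cc_pt, pt_smul_left, ap_smul, smul_smul, smul_smul,
        LinearEquiv.coe_coe, apEquiv_apply, ptl_apply]
      match_scalars
      field_simp
    have hYeq : Y = LinearMap.range L :=
      le_antisymm hYL (by rintro _ ⟨X, rfl⟩; exact hLY X)
    apply hdvd
    rw [← hYd, hYeq, hrange, LinearMap.finrank_range_of_inj hΦ, Module.finrank_pi_fintype,
      Finset.sum_const, Finset.card_univ, Fintype.card_fin, smul_eq_mul]
    exact Dvd.intro _ rfl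
  -- both signs occur
  push Not at hBs
  have key : ∀ σ : F, σ * σ = 1 → 2 ≤ Module.finrank F (LinearMap.ker (B - σ • LinearMap.id)) →
      ∀ u, A u = (-σ) • u := by
    intro σ hσ hd
    have hmemB : ∀ {τ : F} {y}, y ∈ LinearMap.ker (B - τ • LinearMap.id) ↔ B y = τ • y := by
      intro τ y; simp [sub_eq_zero]
    obtain ⟨y₀, hy₀⟩ := hBs σ
    set w₃ := y₀ - σ • B y₀ with hw₃
    have hBw₃ : B w₃ = (-σ) • w₃ := by
      rw [hw₃, map_sub, map_smul, hBB]
      match_scalars <;> first | (linear_combination -hσ) | (linear_combination hσ) | ring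
    have hw₃0 : w₃ ≠ 0 := fun h => hy₀ (by
      rw [hw₃, sub_eq_zero] at h
      conv_rhs => rw [h, smul_smul, hσ, one_smul])
    have hne : σ ≠ -σ := fun h => by
      have h3 : (2 : F) * σ = 0 := by linear_combination h
      exact h2 ((mul_eq_zero.mp h3).resolve_right fun h4 => by rw [h4, mul_zero] at hσ; exact zero_ne_one hσ)
    obtain ⟨w₁, hw₁, hw₁0⟩ := Submodule.exists_mem_ne_zero_of_ne_bot
      (show LinearMap.ker (B - σ • LinearMap.id) ≠ ⊥ from fun h => by
        rw [h, finrank_bot] at hd; omega)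
    obtain ⟨w₂, hw₂, hw₂n⟩ := SetLike.not_le_iff_exists.mp
      (show ¬ LinearMap.ker (B - σ • LinearMap.id) ≤ Submodule.span F {w₁} from fun h => by
        have h3 := Submodule.finrank_mono h
        rw [finrank_span_singleton hw₁0] at h3
        omega)
    have hBw₁ := hmemB.mp hw₁
    have hBw₂ := hmemB.mp hw₂
    set Up := LinearMap.ker (A - σ • LinearMap.id) with hUp
    set Um := LinearMap.ker (A + σ • LinearMap.id) with hUm
    have hsum : Up ⊔ Um = ⊤ := by
      refine eq_top_iff.mpr fun u _ => ?_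
      refine Submodule.mem_sup.mpr ⟨(2 : F)⁻¹ • (u + σ • A u), ?_, (2 : F)⁻¹ • (u - σ • A u), ?_, ?_⟩
      · simp only [hUp, LinearMap.mem_ker, LinearMap.sub_apply, LinearMap.smul_apply,
          LinearMap.id_apply, map_smul, map_add, hAA]
        match_scalars <;> first | (linear_combination (-(2 : F)⁻¹) * hσ) | ring
      · simp only [hUm, LinearMap.mem_ker, LinearMap.add_apply, LinearMap.smul_apply,
          LinearMap.id_apply, map_smul, map_sub, hAA]
        match_scalars <;> first | (linear_combination (-(2 : F)⁻¹) * hσ) | ring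
      · match_scalars <;> field_simp <;> ring
    have hle : n₁ ≤ Module.finrank F Up + Module.finrank F Um := by
      have h3 := Submodule.finrank_sup_add_finrank_inf_eq Up Um
      rw [hsum, finrank_top, Module.finrank_fin_fun] at h3
      omega
    let Φ : Up × Up × Um →ₗ[F] (ι → F) :=
      ((ptl e P w₁).comp Up.subtype).coprod
        (((ptl e P w₂).comp Up.subtype).coprod ((ptl e P w₃).comp Um.subtype))
    have hΦapp : ∀ x₁ x₂ x₃, Φ (x₁, x₂, x₃) =
        pt e P (x₁ : Fin n₁ → F) w₁ + (pt e P (x₂ : Fin n₁ → F) w₂ + pt e P (x₃ : Fin n₁ → F) w₃) :=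
      fun _ _ _ => rfl
    have hout : ∀ {w w' : Fin n₂ → F}, B w = σ • w → B w' = σ • w' → ∀ {p r : F},
        w = p • w' + r • w₃ → r = 0 := by
      intro w w' hw hw' p r h
      have h3 := congrArg B h
      rw [map_add, map_smul, map_smul, hw, hw', hBw₃] at h3
      have h4 : (2 * σ * r) • w₃ = 0 := by
        have h5 := congrArg (fun x => σ • x) h
        linear_combination (norm := module) h3 - h5
      refine (mul_eq_zero.mp ((smul_eq_zero.mp h4).resolve_right hw₃0)).resolve_left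
        (mul_ne_zero h2 fun h5 => ?_)
      rw [h5, mul_zero] at hσ
      exact zero_ne_one hσ
    have hΦ : Function.Injective Φ := by
      refine (injective_iff_map_eq_zero _).mpr fun ⟨x₁, x₂, x₃⟩ h0 => ?_
      rw [hΦapp] at h0
      obtain ⟨φ₁, hφ₁, hφ₁'⟩ := exists_functional_eq_one (U := Submodule.span F {w₂, w₃}) (x := w₁)
        (by
          intro h
          obtain ⟨p, r, hpr⟩ := Submodule.mem_span_pair.mp h
          have hr := hout hBw₁ hBw₂ hpr.symm
          rw [hr, zero_smul, add_zero] at hpr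
          have hp : p ≠ 0 := fun hp => hw₁0 (by rw [← hpr, hp, zero_smul])
          exact hw₂n (Submodule.mem_span_singleton.mpr ⟨p⁻¹, by
            rw [← hpr, inv_smul_smul₀ hp]⟩))
      obtain ⟨φ₂, hφ₂, hφ₂'⟩ := exists_functional_eq_one (U := Submodule.span F {w₁, w₃}) (x := w₂)
        (by
          intro h
          obtain ⟨p, r, hpr⟩ := Submodule.mem_span_pair.mp h
          have hr := hout hBw₂ hBw₁ hpr.symm
          rw [hr, zero_smul, add_zero] at hpr
          exact hw₂n (Submodule.mem_span_singleton.mpr ⟨p, hpr⟩))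
      have e1 := congrArg (con e P φ₁) h0
      have e2 := congrArg (con e P φ₂) h0
      simp only [map_add, con_pt, map_zero, hφ₁', one_smul,
        hφ₁ w₂ (Submodule.subset_span (by simp)), hφ₁ w₃ (Submodule.subset_span (by simp)),
        zero_smul, add_zero] at e1
      simp only [map_add, con_pt, map_zero, hφ₂', one_smul,
        hφ₂ w₁ (Submodule.subset_span (by simp)), hφ₂ w₃ (Submodule.subset_span (by simp)),
        zero_smul, add_zero, zero_add] at e2
      rw [e1, e2, pt_zero_left, pt_zero_left, zero_add, zero_add] at h0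
      have e3 : (x₃ : Fin n₁ → F) = 0 := pt_inj_left e P hw₃0 (h0.trans (pt_zero_left e P w₃).symm)
      simp only [Submodule.coe_eq_zero] at e1 e2 e3
      simp [e1, e2, e3]
    have hinY : ∀ {x : Fin n₁ → F} {w : Fin n₂ → F} {τ : F}, τ * τ = 1 → A x = τ • x →
        B w = τ • w → pt e P x w ∈ Y := by
      intro x w τ hτ hx hw
      have h3 := hLY ((2 : F)⁻¹ • pt e P x w)
      rw [map_smul, hLpt, hx, hw, pt_smul_left, pt_smul_right, smul_smul, hτ, one_smul, ← two_smul F,
        smul_smul, inv_mul_cancel₀ h2, one_smul] at h3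
      exact h3
    have hrange : LinearMap.range Φ ≤ Y := by
      rintro _ ⟨⟨x₁, x₂, x₃⟩, rfl⟩
      rw [hΦapp]
      have hx : ∀ x : Up, A x = σ • (x : Fin n₁ → F) := fun x =>
        sub_eq_zero.mp (show A x - σ • (x : Fin n₁ → F) = 0 from x.2)
      have hx₃ : A x₃ = (-σ) • (x₃ : Fin n₁ → F) := by
        rw [neg_smul]
        exact eq_neg_of_add_eq_zero_left (show A x₃ + σ • (x₃ : Fin n₁ → F) = 0 from x₃.2)
      exact Y.add_mem (hinY hσ (hx x₁) hBw₁) (Y.add_mem (hinY hσ (hx x₂) hBw₂)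
        (hinY (by linear_combination hσ) hx₃ hBw₃))
    have h3 := Submodule.finrank_mono hrange
    rw [LinearMap.finrank_range_of_inj hΦ, Module.finrank_prod, Module.finrank_prod, hYd] at h3
    have hUp0 : Up = ⊥ := Submodule.finrank_eq_zero.mp (by omega)
    intro u
    have h4 : A u + σ • u ∈ Up := by
      simp only [hUp, LinearMap.mem_ker, LinearMap.sub_apply, LinearMap.smul_apply,
        LinearMap.id_apply, map_add, map_smul, hAA]
      match_scalars <;> first | (linear_combination hσ) | (linear_combination -hσ) | ring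
    rw [hUp0, Submodule.mem_bot] at h4
    rw [neg_smul]
    exact eq_neg_of_add_eq_zero_left h4
  have hd : n₂ ≤ Module.finrank F (LinearMap.ker (B - (1 : F) • LinearMap.id)) +
      Module.finrank F (LinearMap.ker (B - (-1 : F) • LinearMap.id)) := by
    have hsum : LinearMap.ker (B - (1 : F) • LinearMap.id) ⊔
        LinearMap.ker (B - (-1 : F) • LinearMap.id) = ⊤ := by
      refine eq_top_iff.mpr fun y _ => ?_
      refine Submodule.mem_sup.mpr ⟨(2 : F)⁻¹ • (y + B y), ?_, (2 : F)⁻¹ • (y - B y), ?_, ?_⟩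
      · simp [hBB, add_comm]
      · simp [hBB]
      · match_scalars <;> field_simp <;> ring
    have h3 := Submodule.finrank_sup_add_finrank_inf_eq
      (LinearMap.ker (B - (1 : F) • LinearMap.id)) (LinearMap.ker (B - (-1 : F) • LinearMap.id))
    rw [hsum, finrank_top, Module.finrank_fin_fun] at h3
    omega
  have := hT.pos₂
  by_cases h3 : 2 ≤ Module.finrank F (LinearMap.ker (B - (1 : F) • LinearMap.id))
  · exact ⟨_, key 1 (one_mul 1) h3⟩
  · exact ⟨_, key (-1) (by ring) (by omega)⟩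

/-- An element sending an isotropic slice to where a vector has no component maps its slice. -/
theorem mapped_of_perp (h2o : Odd n₂) (hdvd : ¬ n₂ ∣ n₁) {g : GL ι F} (hg : g ∈ M)
    {s w : Fin n₂ → F} (hs : f₂ s s ≠ 0) (hsM : hT.xr s ∈ M) (hw : f₂ w w = 0) (hw0 : w ≠ 0)
    (h : ∀ u, hT.cc s (ap g⁻¹ (pt e P u w)) = 0) :
    ∃ t, f₂ t t ≠ 0 ∧ ∀ u, ap g (pt e P u s) ∈ slice e P t := by
  have hkT : g * hT.xr s * g⁻¹ ∈ Cfsg.Geo.tensorProductSubgroup n₁ n₂ e P := by
    refine hT.mem_of_slice_map hM (mul_mem (mul_mem hg hsM) (inv_mem hg)) hw hw0 hw hw0 fun u => ?_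
    rw [ap_mul, ap_mul, hT.ap_xr hs, h u, pt_zero_left, smul_zero, add_zero, ← neg_one_smul F,
      ap_smul, ap_ap_inv, neg_one_smul, ← pt_neg_right]
    rw [pt_neg_right]
    exact ⟨-u, by rw [map_neg, ptl_apply]⟩
  obtain ⟨t, ht, hmap⟩ := hT.exists_slice_of_conj_xr' hM h2o hdvd (inv_mem hg) hs
    (by rwa [inv_inv])
  have ht0 : t ≠ 0 := fun h0 => ht (by rw [h0, hT.sym₂.zero_left])
  have hs0 : s ≠ 0 := fun h0 => hs (by rw [h0, hT.sym₂.zero_left])
  exact ⟨t, ht, fun u => by simpa using hT.slice_back ht0 hs0 hmap u⟩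

end OTensor

end CfsgLib.Geometric.OrthTensor
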