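import Cfsg.Agent.Lib.Geometric.OrthTensorMax.Involution

/-!
In a proper overgroup of the stabiliser of an orthogonal tensor product an element carrying three
pairwise orthogonal anisotropic slices to slices lies in the stabiliser.
-/

namespace CfsgLib.Geometric.OrthTensor

open Matrix QuadraticMap Tensor

set_option linter.unusedSectionVars false
set_option linter.unusedVariables false

variable {F : Type*} [Field F]

namespace SymForm

variable {m : ℕ} {g : (Fin m → F) → (Fin m → F) → F} (hg : SymForm g)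
include hg

/-- A similitude of an odd dimensional space has a square multiplier. -/
lemma isSquare_mult (hm : Odd m) (b : GL (Fin m) F) {l : F} (hl0 : l ≠ 0)
    (hl : ∀ y y', g (ap b y) (ap b y') = l * g y y') : IsSquare l := by
  let B : (Fin m → F) →ₗ[F] (Fin m → F) →ₗ[F] F :=
    LinearMap.mk₂ F g hg.add_left hg.smul_left hg.add_right hg.smul_right
  have hJ : (LinearMap.toMatrix₂' F B).det ≠ 0 := by
    intro h
    obtain ⟨x, hx0, hx⟩ := Matrix.exists_mulVec_eq_zero_iff.mpr h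
    obtain ⟨y, hy⟩ := hg.exists_ne hx0
    refine hy ?_
    rw [hg.symm]
    show B y x = 0
    rw [← Matrix.toLinearMap₂'_toMatrix' (R := F) B, Matrix.toLinearMap₂'_apply', hx,
      dotProduct_zero]
  have h : LinearMap.toMatrix₂' F (B.compl₁₂ (apEquiv b).toLinearMap (apEquiv b).toLinearMap) =
      LinearMap.toMatrix₂' F (l • B) := by
    congr 1
    exact LinearMap.ext fun y => LinearMap.ext fun y' => hl y y'
  rw [LinearMap.toMatrix₂'_compl₁₂, map_smul] at h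
  have hd := congrArg Matrix.det h
  rw [Matrix.det_mul, Matrix.det_mul, Matrix.det_transpose, Matrix.det_smul, Fintype.card_fin] at hd
  set d := (LinearMap.toMatrix' (apEquiv b).toLinearMap).det
  obtain ⟨k, hk⟩ := hm
  have h2 : l ^ m = d * d := mul_right_cancel₀ hJ (by linear_combination -hd)
  refine ⟨d / l ^ k, ?_⟩
  rw [hk, pow_succ, two_mul, pow_add] at h2
  field_simp
  linear_combination h2

/-- The common orthogonal space of pairwise orthogonal anisotropic vectors is non-degenerate. -/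
lemma exists_perp_nondeg : ∀ {k : ℕ} (z : Fin k → Fin m → F), (∀ i, g (z i) (z i) ≠ 0) →
    (Pairwise fun i j => g (z i) (z j) = 0) →
    ∃ W : Submodule F (Fin m → F), Cfsg.Geo.IsNondegenerateOn (polar (⇑hg.sq)) W ∧
      m ≤ Module.finrank F W + k ∧ ∀ x, x ∈ W ↔ ∀ i, g x (z i) = 0 := by
  intro k
  induction k with
  | zero =>
    intro z _ _
    refine ⟨⊤, fun x _ hx => ?_, by rw [finrank_top, Module.finrank_fin_fun]; omega,
      fun x => iff_of_true trivial fun i => i.elim0⟩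
    obtain ⟨y, hy⟩ := hg.exists_ne hx
    exact ⟨⟨y, trivial, by rw [hg.polar_sq, hg.symm]; exact hy⟩,
      ⟨y, trivial, by rw [hg.polar_sq]; exact hy⟩⟩
  | succ k ih =>
    intro z hz hp
    obtain ⟨W, hW, hd, hmem⟩ := ih (fun i => z i.succ) (fun i => hz i.succ)
      (fun i j hij => hp fun h => hij (Fin.succ_injective _ h))
    have h0 : z 0 ∈ W := (hmem _).mpr fun i => hp (Fin.succ_ne_zero i).symm
    refine ⟨W ⊓ LinearMap.ker (Orth.pf hg.sq (z 0)),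
      Orth.nondeg_inf_pf hg.two_ne hW h0 (fun h => hz 0 (hg.sq_eq_zero.mp h)), ?_, fun x => ?_⟩
    · have := Orth.finrank_le_inf_ker W (Orth.pf hg.sq (z 0))
      omega
    · rw [Submodule.mem_inf, hmem, LinearMap.mem_ker, Orth.pf_apply, hg.polar_sq]
      exact ⟨fun h => Fin.cases h.2 h.1, fun h => ⟨fun i => h i.succ, h 0⟩⟩

end SymForm

variable {ι : Type} [Fintype ι] [DecidableEq ι] [Finite F]
variable {Q : QuadraticForm F (ι → F)} {n₁ n₂ : ℕ} {e : ι ≃ Fin n₁ × Fin n₂} {P : GL ι F}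
  {f₁ : (Fin n₁ → F) → (Fin n₁ → F) → F} {f₂ : (Fin n₂ → F) → (Fin n₂ → F) → F} {c : F}

namespace OTensor

variable (hT : OTensor Q e P f₁ f₂ c) {M : Subgroup (GL ι F)}
include hT

/-- The contraction at `s` of the preimage of an isotropic slice orthogonal to the targets. -/
lemma cc_preimage {g : GL ι F} (hg : g ∈ Cfsg.isometryGroup F (⇑Q)) {s v₁ v₂ w : Fin n₂ → F}
    (h : ∀ u, ap g (pt e P u s) ∈ slice e P v₁ ⊔ slice e P v₂) (hw₁ : f₂ w v₁ = 0)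
    (hw₂ : f₂ w v₂ = 0) (u : Fin n₁ → F) : hT.cc s (ap g⁻¹ (pt e P u w)) = 0 := by
  refine hT.sym₁.eq_of_forall fun b => mul_left_cancel₀ hT.c_ne ?_
  rw [← hT.polar_right, hT.sym₁.zero_left, mul_zero, ← Orth.polar_ap hg, ap_ap_inv]
  obtain ⟨_, ⟨a₁, rfl⟩, _, ⟨a₂, rfl⟩, he⟩ := Submodule.mem_sup.mp (h b)
  rw [← he, polar_add_right, ptl_apply, ptl_apply, hT.polar_pt, hT.polar_pt, hw₁, hw₂]
  ring

variable (hM : hT.Small M) (h2o : Odd n₂) (hdvd : ¬ n₂ ∣ n₁)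
  (hxr : ∀ v, f₂ v v ≠ 0 → hT.xr v ∈ M)
include hM h2o hdvd hxr

/-- An element carrying the sum of two slices into the sum of two others maps its anisotropic
slices. -/
theorem mapped_of_plane {g : GL ι F} (hg : g ∈ M) {z₁ z₂ v₁ v₂ : Fin n₂ → F}
    (h₁ : ∀ u, ap g (pt e P u z₁) ∈ slice e P v₁ ⊔ slice e P v₂)
    (h₂ : ∀ u, ap g (pt e P u z₂) ∈ slice e P v₁ ⊔ slice e P v₂) {a b : F}
    (hs : f₂ (a • z₁ + b • z₂) (a • z₁ + b • z₂) ≠ 0) :
    ∃ t, f₂ t t ≠ 0 ∧ ∀ u, ap g (pt e P u (a • z₁ + b • z₂)) ∈ slice e P t := by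
  obtain ⟨w, y, hw, -, hw0, -, hw₁, hw₂, -⟩ := hT.exists_xs_perp v₁ v₂
  refine hT.mapped_of_perp hM h2o hdvd hg hs (hxr _ hs) hw hw0 fun u => ?_
  rw [hT.cc_add, hT.cc_smul, hT.cc_smul, hT.cc_preimage (hM.le_isom hg) h₁ hw₁ hw₂,
    hT.cc_preimage (hM.le_isom hg) h₂ hw₁ hw₂, smul_zero, smul_zero, add_zero]

/-- An element carrying two orthogonal slices spanning an isotropic vector to slices lies in the
stabiliser. -/
theorem mem_of_hyperbolic {g : GL ι F} (hg : g ∈ M) {z₁ z₂ v₁ v₂ : Fin n₂ → F}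
    (hz₁ : f₂ z₁ z₁ ≠ 0) (hz₂ : f₂ z₂ z₂ ≠ 0) (hz : f₂ z₁ z₂ = 0)
    (hiso : f₂ (z₁ + z₂) (z₁ + z₂) = 0)
    (h₁ : ∀ u, ap g (pt e P u z₁) ∈ slice e P v₁) (h₂ : ∀ u, ap g (pt e P u z₂) ∈ slice e P v₂) :
    g ∈ Cfsg.Geo.tensorProductSubgroup n₁ n₂ e P := by
  have hg₂ := hT.sym₂
  by_contra hgT
  have hz₁0 : z₁ ≠ 0 := fun h => hz₁ (by rw [h, hg₂.zero_left])
  have hz₂0 : z₂ ≠ 0 := fun h => hz₂ (by rw [h, hg₂.zero_left])
  have hgI := hM.le_isom hg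
  have hv₁ := (hT.conj_xr hgI hz₁ h₁).1
  have hv₂ := (hT.conj_xr hgI hz₂ h₂).1
  have hv := hT.perp_of_map hgI hz₁0 hz₂0 h₁ h₂ hz
  have h0 : z₁ + z₂ ≠ 0 := fun h => hz₁ (by
    have h3 := congrArg (fun x => f₂ x z₁) h
    simp only [hg₂.add_left, hg₂.zero_left, hg₂.symm z₂ z₁, hz, add_zero] at h3
    exact h3)
  -- every anisotropic vector orthogonal to the images is mapped back
  have hmapped : ∀ x, f₂ x x ≠ 0 → f₂ x v₁ = 0 → f₂ x v₂ = 0 →
      ∃ t, t ≠ 0 ∧ ∀ u, ap g⁻¹ (pt e P u x) ∈ slice e P t := by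
    intro x hx hx₁ hx₂
    have hneg : ∀ {z v}, (∀ u, ap g (pt e P u z) ∈ slice e P v) → f₂ x v = 0 →
        ∀ u, ap (g⁻¹ * hT.xr x * g) (pt e P u z) = -pt e P u z := by
      intro z v h hxv u
      obtain ⟨u', hu'⟩ := h u
      rw [ptl_apply] at hu'
      rw [ap_mul, ap_mul, ← hu', hT.xr_neg hx (by rw [hg₂.symm]; exact hxv), ← neg_one_smul F,
        ap_smul, hu', ap_inv_ap, neg_one_smul]
    have hk := hT.mem_of_slice_map hM (mul_mem (mul_mem (inv_mem hg) (hxr x hx)) hg) hiso h0 hiso h0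
      fun u => by
        rw [pt_add_right, ap_add, hneg h₁ hx₁, hneg h₂ hx₂, ← neg_add, ← pt_add_right]
        exact ⟨-u, by rw [map_neg, ptl_apply]⟩
    obtain ⟨t, ht, hmap⟩ := hT.exists_slice_of_conj_xr' hM h2o hdvd hg hx hk
    have ht0 : t ≠ 0 := fun h => ht (by rw [h, hg₂.zero_left])
    exact ⟨t, ht0, fun u => hT.slice_back ht0 (fun h => hx (by rw [h, hg₂.zero_left])) hmap u⟩
  -- an isotropic one and an anisotropic one orthogonal to it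
  obtain ⟨W, hW, hWd, hWm⟩ := hg₂.exists_perp_nondeg ![v₁, v₂]
    (fun i => by fin_cases i <;> [exact hv₁; exact hv₂])
    (fun i j hij => by
      fin_cases i <;> fin_cases j <;>
        first | exact absurd rfl hij | exact hv | exact hg₂.eq_zero_comm.mp hv)
  have hWm' : ∀ x ∈ W, f₂ x v₁ = 0 ∧ f₂ x v₂ = 0 := fun x hx =>
    ⟨(hWm x).mp hx 0, (hWm x).mp hx 1⟩
  have := hT.pos₂
  obtain ⟨w, hw, hw0, hww⟩ := Orth.exists_singular (Q := hg₂.sq) hT.two_ne (W := W) (by omega)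
  have hww' := hg₂.sq_eq_zero.mp hww
  obtain ⟨y, hy, hwy⟩ := (hW w hw hw0).2
  rw [hg₂.polar_sq] at hwy
  obtain ⟨y₁, hy₁, hwy₁⟩ : ∃ y₁ ∈ W, f₂ w y₁ = 1 :=
    ⟨(f₂ w y)⁻¹ • y, W.smul_mem _ hy, by rw [hg₂.smul_right, inv_mul_cancel₀ hwy]⟩
  set w' := y₁ - ((2 : F)⁻¹ * f₂ y₁ y₁) • w with hw'
  have hw'W : w' ∈ W := W.sub_mem hy₁ (W.smul_mem _ hw)
  have hww'1 : f₂ w w' = 1 := by rw [hw', hg₂.sub_right, hg₂.smul_right, hwy₁, hww']; ring
  have hw'w' : f₂ w' w' = 0 := by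
    rw [hw', hg₂.sub_left, hg₂.sub_right, hg₂.sub_right, hg₂.smul_left, hg₂.smul_left,
      hg₂.smul_right, hg₂.smul_right, hww', hwy₁, hg₂.symm y₁ w, hwy₁]
    have := hT.two_ne
    field_simp
    ring
  set K := W ⊓ LinearMap.ker (hg₂.fl w) ⊓ LinearMap.ker (hg₂.fl w')
  obtain ⟨x, hx, hx0⟩ := Submodule.exists_mem_ne_zero_of_ne_bot (show K ≠ ⊥ from fun h => by
    have h1 := Orth.finrank_le_inf_ker W (hg₂.fl w)
    have h2 := Orth.finrank_le_inf_ker (W ⊓ LinearMap.ker (hg₂.fl w)) (hg₂.fl w')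
    rw [show W ⊓ LinearMap.ker (hg₂.fl w) ⊓ LinearMap.ker (hg₂.fl w') = ⊥ from h, finrank_bot] at h2
    omega)
  obtain ⟨⟨hxW, hxw⟩, hxw'⟩ := hx
  simp only [SetLike.mem_coe, LinearMap.mem_ker, SymForm.fl_apply] at hxW hxw hxw'
  obtain ⟨q, hq, hxq⟩ := (hW x hxW hx0).2
  rw [hg₂.polar_sq] at hxq
  have hqK : SymForm.pr f₂ w w' q ∈ K :=
    ⟨⟨W.sub_mem (W.sub_mem hq (W.smul_mem _ hw)) (W.smul_mem _ hw'W),
      (hg₂.pr_perp hww' hw'w' hww'1 q).1⟩, (hg₂.pr_perp hww' hw'w' hww'1 q).2⟩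
  obtain ⟨p, ⟨⟨hpW, hpw⟩, -⟩, hpp⟩ := hg₂.exists_aniso_in (K := K)
    (show x ∈ K from ⟨⟨hxW, hxw⟩, hxw'⟩) hqK
    (by simpa [SymForm.pr, hg₂.sub_right, hg₂.smul_right, hxw, hxw'] using hxq)
  simp only [SetLike.mem_coe, LinearMap.mem_ker, SymForm.fl_apply] at hpW hpw
  have hwp : f₂ w p = 0 := hg₂.eq_zero_comm.mp hpw
  have hsum : f₂ (w + p) (w + p) = f₂ p p := by
    rw [hg₂.add_left, hg₂.add_right, hg₂.add_right, hww', hwp, hpw]; ring
  obtain ⟨t, ht, hmap⟩ := hmapped p hpp (hWm' p hpW).1 (hWm' p hpW).2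
  obtain ⟨t', ht', hmap'⟩ := hmapped (w + p) (hsum ▸ hpp) (hWm' _ (W.add_mem hw hpW)).1
    (hWm' _ (W.add_mem hw hpW)).2
  obtain ⟨G, hG⟩ := hT.exists_mapped ht hmap
  obtain ⟨G', hG'⟩ := hT.exists_mapped ht' hmap'
  have hpG : p ∈ mapped e P g⁻¹ G := ⟨t, hG⟩
  have hsG := hT.mem_mapped hM (inv_mem hg) hpG ⟨t', hG'⟩ hpp
    (by rw [hg₂.add_right, hpw, zero_add]; exact hpp)
  have hwG : w ∈ mapped e P g⁻¹ G := by simpa using Submodule.sub_mem _ hsG hpG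
  exact hT.mapped_aniso hM (inv_mem hg) (fun h => hgT (inv_mem_iff.mp h)) hwG hw0 hww'

/-- Two orthogonal mapped vectors lie in one class. -/
lemma share_class {g : GL ι F} (hg : g ∈ M) (hgT : g ∉ Cfsg.Geo.tensorProductSubgroup n₁ n₂ e P)
    {G : (Fin n₁ → F) →ₗ[F] (Fin n₁ → F)} {z₁ z₂ v₁ v₂ : Fin n₂ → F} (hz₁ : f₂ z₁ z₁ ≠ 0)
    (hz₂ : f₂ z₂ z₂ ≠ 0) (hz : f₂ z₁ z₂ = 0) (h₁ : ∀ u, ap g (pt e P u z₁) = pt e P (G u) v₁)
    (h₂ : ∀ u, ap g (pt e P u z₂) ∈ slice e P v₂) : z₂ ∈ mapped e P g G := by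
  have hg₂ := hT.sym₂
  have h₁' : ∀ u, ap g (pt e P u z₁) ∈ slice e P v₁ := fun u => by
    rw [h₁]; exact pt_mem_slice e P _ _
  by_cases hiso : f₂ (z₁ + z₂) (z₁ + z₂) = 0
  · exact absurd (hT.mem_of_hyperbolic hM h2o hdvd hxr hg hz₁ hz₂ hz hiso h₁' h₂) hgT
  obtain ⟨t, ht, hmap⟩ := hT.mapped_of_plane hM h2o hdvd hxr hg (v₁ := v₁) (v₂ := v₂)
    (fun u => Submodule.mem_sup_left (h₁' u)) (fun u => Submodule.mem_sup_right (h₂ u))
    (a := 1) (b := 1) (by rwa [one_smul, one_smul])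
  rw [one_smul, one_smul] at hmap
  obtain ⟨G', hG'⟩ := hT.exists_mapped (fun h => ht (by rw [h, hg₂.zero_left])) hmap
  have h := hT.mem_mapped hM hg (⟨v₁, h₁⟩ : z₁ ∈ mapped e P g G) ⟨t, hG'⟩ hz₁
    (by rw [hg₂.add_right, hz, add_zero]; exact hz₁)
  simpa using Submodule.sub_mem _ h (⟨v₁, h₁⟩ : z₁ ∈ mapped e P g G)

end OTensor

end CfsgLib.Geometric.OrthTensor
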