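import Cfsg.Agent.Lib.Geometric.OrthTensorMax.Conj

/-!
In odd dimension minus a reflection of a suitable value is a product of commutators of isometries,
so the factorwise one lies in the stabiliser.
-/

namespace CfsgLib.Geometric.OrthTensor

open Matrix QuadraticMap Tensor
open scoped commutatorElement

set_option linter.unusedSectionVars false
set_option linter.unusedVariables false

variable {F : Type*} [Field F] {m : ℕ} {g : (Fin m → F) → (Fin m → F) → F}

lemma ap_negRefl (hg : SymForm g) {v : Fin m → F} (hv : g v v ≠ 0) (x : Fin m → F) :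
    ap (negRefl hg v) x = -x + (2 * g x v / g v v) • v := by
  have h2 := hg.two_ne
  rw [negRefl, ap_mul, ap_ofEquiv, Orth.ap_rf, hg.sq_apply, hg.polar_sq, LinearEquiv.neg_apply]
  match_scalars <;> field_simp

namespace SymForm

variable (hg : SymForm g) [Finite F]
include hg

omit [Finite F] in
lemma exists_isom_map {a b : Fin m → F} (ha : g a a ≠ 0) (hab : g a a = g b b) :
    ∃ h ∈ isom g, ap h a = b ∨ ap h a = -b := by
  have hQ : hg.sq a = hg.sq b := by rw [hg.sq_apply, hg.sq_apply, hab]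
  by_cases h1 : hg.sq (a - b) = 0
  · refine ⟨Orth.rf hg.sq (a - -b), by rw [← hg.isometryGroup_sq]; exact Orth.rf_mem_isom _,
      Or.inr (Orth.ap_rf_sub (by rw [QuadraticMap.map_neg, hQ]) ?_)⟩
    intro h3
    rw [sub_neg_eq_add] at h3
    rw [hg.sq_apply, mul_eq_zero, or_iff_right (inv_ne_zero hg.two_ne)] at h1 h3
    simp only [hg.add_left, hg.add_right, hg.sub_left, hg.sub_right, hg.symm b a, ← hab] at h1 h3
    exact mul_ne_zero (mul_ne_zero hg.two_ne hg.two_ne) ha (by linear_combination h1 + h3)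
  · exact ⟨Orth.rf hg.sq (a - b), by rw [← hg.isometryGroup_sq]; exact Orth.rf_mem_isom _,
      Or.inl (Orth.ap_rf_sub hQ h1)⟩

omit [Finite F] in
/-- Two reflections of equal value multiply to a commutator. -/
lemma rf_mul_rf_mem {a b : Fin m → F} (ha : g a a ≠ 0) (hab : g a a = g b b) :
    Orth.rf hg.sq a * Orth.rf hg.sq b ∈ ⁅isom g, isom g⁆ := by
  obtain ⟨h, hh, hab'⟩ := hg.exists_isom_map ha hab
  have hra : Orth.rf hg.sq a ∈ isom g := by rw [← hg.isometryGroup_sq]; exact Orth.rf_mem_isom _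
  have hb : Orth.rf hg.sq b = h * Orth.rf hg.sq a * h⁻¹ := by
    refine gl_ext fun x => ?_
    obtain ⟨y, rfl⟩ : ∃ y, ap h y = x := ⟨_, ap_ap_inv h x⟩
    rw [ap_mul, ap_mul, ap_inv_ap, Orth.ap_rf, Orth.ap_rf, hg.polar_sq, hg.polar_sq, hg.sq_apply,
      hg.sq_apply, hab, ap_sub, ap_smul]
    rcases hab' with e | e
    · rw [← e]; simp only [mem_isom_iff.mp hh]
    · have e' : b = -ap h a := by rw [e, neg_neg]
      rw [show g (ap h y) b = -g y a by rw [e', hg.neg_right, mem_isom_iff.mp hh], e', hg.neg_left,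
        hg.neg_right, neg_neg]
      simp only [mem_isom_iff.mp hh]
      module
  have hinv : (Orth.rf hg.sq a)⁻¹ = Orth.rf hg.sq a := by
    refine inv_eq_of_mul_eq_one_right (gl_ext fun x => ?_)
    have h2 := hg.two_ne
    rw [ap_mul, Orth.ap_rf, Orth.ap_rf, ap_one]
    simp only [hg.sq_apply, hg.polar_sq, hg.sub_left, hg.smul_left]
    match_scalars <;> field_simp <;> ring
  have key : Orth.rf hg.sq a * Orth.rf hg.sq b = ⁅Orth.rf hg.sq a, h⁆ := by
    rw [commutatorElement_def, hinv, hb]; group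
  rw [key]
  exact Subgroup.commutator_mem_commutator hra hh

/-- In odd dimension some minus reflection is a product of commutators. -/
theorem exists_negRefl_mem (hm : Odd m) :
    ∃ v, g v v ≠ 0 ∧ negRefl hg v ∈ ⁅isom g, isom g⁆ := by
  classical
  set Q := hg.sq with hQ
  have h2 := hg.two_ne
  have key : ∀ j, 2 * j < m → ∃ (W : Submodule F (Fin m → F)) (b : GL (Fin m) F),
      Cfsg.Geo.IsNondegenerateOn (polar (⇑Q)) W ∧ Module.finrank F W + 2 * j = m ∧
      b ∈ ⁅isom g, isom g⁆ ∧ (∀ x ∈ W, ap b x = x) ∧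
      ∀ x, (∀ y ∈ W, g x y = 0) → ap b x = -x := by
    intro j
    induction j with
    | zero =>
      refine fun _ => ⟨⊤, 1, fun x _ hx => ?_, by rw [finrank_top, Module.finrank_fin_fun]; ring,
        one_mem _, fun x _ => ap_one x, fun x hx => ?_⟩
      · obtain ⟨y, hy⟩ := hg.exists_ne hx
        exact ⟨⟨y, trivial, by rw [hQ, hg.polar_sq, hg.symm]; exact hy⟩,
          ⟨y, trivial, by rw [hQ, hg.polar_sq]; exact hy⟩⟩
      · have h0 : x = 0 := hg.eq_of_forall fun y => by rw [hx y trivial, hg.zero_left]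
        rw [h0, ap_one, neg_zero]
    | succ j ih =>
      intro hj
      obtain ⟨W, b, hW, hd, hb, hfix, hneg⟩ := ih (by omega)
      obtain ⟨a, ha, hQa⟩ := Orth.exists_value_in h2 hW (by omega) (1 : F)
      have hQa0 : Q a ≠ 0 := by rw [hQa]; exact one_ne_zero
      have hW1 := Orth.nondeg_inf_pf h2 hW ha hQa0
      have hd1 := Orth.finrank_le_inf_ker W (Orth.pf Q a)
      obtain ⟨a', ha', hQa'⟩ := Orth.exists_value_in h2 hW1 (by omega) (1 : F)
      have hQa'0 : Q a' ≠ 0 := by rw [hQa']; exact one_ne_zero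
      have hW2 := Orth.nondeg_inf_pf h2 hW1 ha' hQa'0
      have hd2 := Orth.finrank_le_inf_ker (W ⊓ LinearMap.ker (Orth.pf Q a)) (Orth.pf Q a')
      have hlt1 : Module.finrank F ↥(W ⊓ LinearMap.ker (Orth.pf Q a)) < Module.finrank F W := by
        refine Submodule.finrank_lt_finrank_of_lt (lt_of_le_of_ne inf_le_left fun he => ?_)
        have h : a ∈ W ⊓ LinearMap.ker (Orth.pf Q a) := by rw [he]; exact ha
        exact mul_ne_zero h2 hQa0 (by rw [← Orth.polar_self']; exact h.2)
      have hlt2 : Module.finrank F ↥(W ⊓ LinearMap.ker (Orth.pf Q a) ⊓ LinearMap.ker (Orth.pf Q a'))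
          < Module.finrank F ↥(W ⊓ LinearMap.ker (Orth.pf Q a)) := by
        refine Submodule.finrank_lt_finrank_of_lt (lt_of_le_of_ne inf_le_left fun he => ?_)
        have h : a' ∈ W ⊓ LinearMap.ker (Orth.pf Q a) ⊓ LinearMap.ker (Orth.pf Q a') := by
          rw [he]; exact ha'
        exact mul_ne_zero h2 hQa'0 (by rw [← Orth.polar_self']; exact h.2)
      have hga : g a a ≠ 0 := fun h => hQa0 (hg.sq_eq_zero.mpr h)
      have haa : g a' a = 0 := by rw [← hg.polar_sq]; exact ha'.2
      have hval : g a a = g a' a' := by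
        have h : Q a = Q a' := by rw [hQa, hQa']
        rw [hQ, hg.sq_apply, hg.sq_apply] at h
        exact mul_left_cancel₀ (inv_ne_zero h2) h
      refine ⟨_, b * (Orth.rf Q a * Orth.rf Q a'), hW2, by omega,
        mul_mem hb (hg.rf_mul_rf_mem hga hval), fun x hx => ?_, fun x hx => ?_⟩
      · rw [ap_mul, ap_mul, Orth.ap_rf_fix (x := x), Orth.ap_rf_fix (x := x), hfix x hx.1.1]
        · exact hx.1.2
        · exact hx.2
      · set α := g x a / g a a with hα
        set β := g x a' / g a' a' with hβ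
        set x' := x - α • a - β • a' with hx'
        have hga' : g a' a' ≠ 0 := hval ▸ hga
        have hxa : g x' a = 0 := by
          rw [hx', hg.sub_left, hg.sub_left, hg.smul_left, hg.smul_left, haa, hα,
            div_mul_cancel₀ _ hga]
          ring
        have hxa' : g x' a' = 0 := by
          rw [hx', hg.sub_left, hg.sub_left, hg.smul_left, hg.smul_left, hg.symm a a', haa, hβ,
            div_mul_cancel₀ _ hga']
          ring
        have hxW : ∀ y ∈ W, g x' y = 0 := by
          intro y hy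
          set y' := y - (g y a / g a a) • a - (g y a' / g a' a') • a' with hy'
          have hy'a : g y' a = 0 := by
            rw [hy', hg.sub_left, hg.sub_left, hg.smul_left, hg.smul_left, haa,
              div_mul_cancel₀ _ hga]
            ring
          have hy'a' : g y' a' = 0 := by
            rw [hy', hg.sub_left, hg.sub_left, hg.smul_left, hg.smul_left, hg.symm a a', haa,
              div_mul_cancel₀ _ hga']
            ring
          have hmem : y' ∈ W ⊓ LinearMap.ker (Orth.pf Q a) ⊓ LinearMap.ker (Orth.pf Q a') :=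
            ⟨⟨W.sub_mem (W.sub_mem hy (W.smul_mem _ ha)) (W.smul_mem _ ha'.1),
              by show polar Q y' a = 0; rw [hQ, hg.polar_sq, hy'a]⟩,
              by show polar Q y' a' = 0; rw [hQ, hg.polar_sq, hy'a']⟩
          have h0 : g x' y' = 0 := by
            rw [hx', hg.sub_left, hg.sub_left, hg.smul_left, hg.smul_left, hx y' hmem,
              hg.symm a y', hy'a, hg.symm a' y', hy'a']
            ring
          rw [hy', hg.sub_right, hg.sub_right, hg.smul_right, hg.smul_right, hxa, hxa'] at h0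
          linear_combination h0
        have hrr : ap (Orth.rf Q a * Orth.rf Q a') x = x' - α • a - β • a' := by
          rw [hx', ap_mul, Orth.ap_rf, Orth.ap_rf, hQ, hg.sq_apply, hg.sq_apply, hg.polar_sq,
            hg.polar_sq, hg.sub_left, hg.smul_left, haa, hα, hβ]
          match_scalars <;> field_simp <;> ring
        rw [ap_mul, hrr, ap_sub, ap_sub, ap_smul, ap_smul, hneg x' hxW, hfix a ha, hfix a' ha'.1,
          hx']
        module
  obtain ⟨k, hk⟩ := hm
  obtain ⟨W, b, hW, hd, hb, hfix, hneg⟩ := key k (by omega)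
  have hd1 : Module.finrank F W = 1 := by omega
  obtain ⟨⟨v, hv⟩, hv0, hspan⟩ := finrank_eq_one_iff'.mp hd1
  have hvv : g v v ≠ 0 := by
    intro h
    obtain ⟨y, hy, hxy⟩ := (hW v hv fun h0 => hv0 (Subtype.ext h0)).2
    obtain ⟨t, ht⟩ := hspan ⟨y, hy⟩
    apply hxy
    have ht' : t • v = y := congrArg Subtype.val ht
    rw [hQ, hg.polar_sq, ← ht', hg.smul_right, h, mul_zero]
  refine ⟨v, hvv, ?_⟩
  convert hb using 1
  refine gl_ext fun x => ?_
  set α := g x v / g v v with hα
  have hx : ap b (x - α • v) = -(x - α • v) := hneg _ fun y hy => by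
    obtain ⟨t, ht⟩ := hspan ⟨y, hy⟩
    have ht' : t • v = y := congrArg Subtype.val ht
    rw [← ht', hg.smul_right, hg.sub_left, hg.smul_left, hα,
      div_mul_cancel₀ _ hvv, sub_self, mul_zero]
  rw [ap_sub, ap_smul, hfix v hv] at hx
  rw [ap_negRefl hg hvv, hα] at *
  linear_combination (norm := (match_scalars <;> field_simp <;> ring)) -hx

end SymForm

namespace OTensor

variable {ι : Type} [Fintype ι] [DecidableEq ι]
variable {Q : QuadraticForm F (ι → F)} {n₁ n₂ : ℕ} {e : ι ≃ Fin n₁ × Fin n₂} {P : GL ι F}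
  {f₁ : (Fin n₁ → F) → (Fin n₁ → F) → F} {f₂ : (Fin n₂ → F) → (Fin n₂ → F) → F} {c : F}
variable (hT : OTensor Q e P f₁ f₂ c) {M : Subgroup (GL ι F)} [Finite F]
include hT

/-- Minus the factorwise reflections of one class of values lie in an overgroup. -/
theorem exists_good (hM : hT.Small M) (h2o : Odd n₂) : ∃ ε : F, ε ≠ 0 ∧
    ∀ (v : Fin n₂ → F) (t : F), t ≠ 0 → f₂ v v = ε * (t * t) → hT.xr v ∈ M := by
  have hg := hT.sym₂
  obtain ⟨v₀, hv₀, hmem⟩ := hg.exists_negRefl_mem h2o
  refine ⟨f₂ v₀ v₀, hv₀, fun v t ht hv => ?_⟩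
  set v' := t • v₀ with hv'
  have hval : f₂ v' v' = f₂ v v := by rw [hv', hg.smul_left, hg.smul_right, hv]; ring
  have hv'0 : f₂ v' v' ≠ 0 := by
    rw [hval, hv]; exact mul_ne_zero hv₀ (mul_ne_zero ht ht)
  have hvv : f₂ v v ≠ 0 := hval ▸ hv'0
  obtain ⟨h, hh, hhv⟩ := hg.exists_isom_map hv'0 hval
  refine hM.stab_le (hT.kron_mem_inf (one_mem _) ?_)
  have hnr : negRefl hg v = h * negRefl hg v₀ * h⁻¹ := by
    refine gl_ext fun x => ?_
    obtain ⟨y, rfl⟩ : ∃ y, ap h y = x := ⟨_, ap_ap_inv h x⟩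
    rw [ap_mul, ap_mul, ap_inv_ap, ap_negRefl hg hvv, ap_negRefl hg hv₀, ap_add, ap_smul, hv,
      ← neg_one_smul F y, ap_smul, neg_one_smul]
    rw [hv', ap_smul] at hhv
    obtain ⟨σ, hσ, hvσ⟩ : ∃ σ : F, σ * σ = 1 ∧ v = (σ * t) • ap h v₀ := by
      rcases hhv with e | e
      · exact ⟨1, one_mul 1, by rw [one_mul, e]⟩
      · exact ⟨-1, by ring, by rw [neg_one_mul, neg_smul, e, neg_neg]⟩
    rw [hvσ, hg.smul_right, mem_isom_iff.mp hh]
    have h2 := hg.two_ne
    match_scalars <;> field_simp <;>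
      linear_combination (f₂ y v₀) * hσ
  rw [hnr]
  have hsub : ⁅isom f₂, isom f₂⁆ ≤ (⁅isom f₂, isom f₂⁆).comap (MulAut.conj h).toMonoidHom := by
    rw [Subgroup.commutator_le]
    intro x hx y hy
    show h * ⁅x, y⁆ * h⁻¹ ∈ ⁅isom f₂, isom f₂⁆
    rw [show h * ⁅x, y⁆ * h⁻¹ = ⁅h * x * h⁻¹, h * y * h⁻¹⁆ by
      simp only [commutatorElement_def]; group]
    exact Subgroup.commutator_mem_commutator (mul_mem (mul_mem hh hx) (inv_mem hh))
      (mul_mem (mul_mem hh hy) (inv_mem hh))
  exact hsub hmem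

end OTensor

end CfsgLib.Geometric.OrthTensor
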