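import Cfsg.Agent.Lib.Geometric.OrthTensorMax.Gen

/-!
In a proper overgroup of the stabiliser of an orthogonal tensor product an element fixing a slice
pointwise shifts the slices orthogonal to it by scalars.
-/

namespace CfsgLib.Geometric.OrthTensor

open Matrix QuadraticMap Tensor

set_option linter.unusedSectionVars false
set_option linter.unusedVariables false

variable {ι : Type} [Fintype ι] [DecidableEq ι] {F : Type*} [Field F]
variable {Q : QuadraticForm F (ι → F)} {n₁ n₂ : ℕ} {e : ι ≃ Fin n₁ × Fin n₂} {P : GL ι F}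
  {f₁ : (Fin n₁ → F) → (Fin n₁ → F) → F} {f₂ : (Fin n₂ → F) → (Fin n₂ → F) → F} {c : F}

lemma SymForm.exists_aniso_two [Finite F] {m : ℕ} {g : (Fin m → F) → (Fin m → F) → F}
    (hg : SymForm g) (hm : 5 ≤ m) (a b : Fin m → F) :
    ∃ z, g z a = 0 ∧ g z b = 0 ∧ g z z ≠ 0 := by
  obtain ⟨v, hv, hvv⟩ := Orth.exists_anisotropic (Q := hg.sq) hg.nondeg_sq
    (W := LinearMap.ker ((hg.fl a).prod (hg.fl b))) (by
      have h3 := ((hg.fl a).prod (hg.fl b)).finrank_range_add_finrank_ker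
      have h4 := Submodule.finrank_le (LinearMap.range ((hg.fl a).prod (hg.fl b)))
      rw [Module.finrank_prod, Module.finrank_self] at h4
      rw [Module.finrank_fin_fun] at h3
      rw [Fintype.card_fin]
      omega)
  obtain ⟨ha, hb⟩ : g v a = 0 ∧ g v b = 0 := by simpa using hv
  exact ⟨v, ha, hb, fun h0 => hvv (hg.sq_eq_zero.mpr h0)⟩

namespace OTensor

/-- A proper overgroup of the stabiliser, with the numerical conditions used by the descent. -/
structure Small (hT : OTensor Q e P f₁ f₂ c) (M : Subgroup (GL ι F)) : Prop where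
  nondeg : CfsgLib.ClassicalForms.Nondeg Q
  le_isom : M ≤ Cfsg.isometryGroup F (⇑Q)
  stab_le : Cfsg.Geo.tensorProductSubgroup n₁ n₂ e P ⊓ Cfsg.Geo.omegaGL (⇑Q) ≤ M
  notFull : ¬ Cfsg.Geo.omegaGL (⇑Q) ≤ M
  fieldOrRank : 4 ≤ n₁ ∨ ∃ t : F, t ≠ 0 ∧ t * t ≠ 1
  noLine : 5 ≤ n₁ ∨ ∀ u p, u ≠ 0 → f₁ u u = 0 → f₁ u p = 0 → f₁ p p = 0 →
    p ∈ Submodule.span F {u}

variable (hT : OTensor Q e P f₁ f₂ c) {M : Subgroup (GL ι F)}

/-- An element of `M` fixing the slice of `w` and moving its orthogonal by `B` into the slice. -/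
def Shift (hT : OTensor Q e P f₁ f₂ c) (M : Subgroup (GL ι F)) (w : Fin n₂ → F) (r : GL ι F)
    (B : (ι → F) →ₗ[F] (Fin n₁ → F)) : Prop :=
  r ∈ M ∧ (∀ u, ap r (pt e P u w) = pt e P u w) ∧
    ∀ X, hT.cc w X = 0 → ap r X = X + pt e P (B X) w

variable [Finite F] (hM : hT.Small M)
include hT hM

lemma cen_eq_zero {w : Fin n₂ → F} (hw : f₂ w w = 0) (hw0 : w ≠ 0)
    {A : (Fin n₁ → F) →ₗ[F] (Fin n₁ → F)} (h : hT.Cen M w A) : A = 0 := by
  by_contra hA
  obtain ⟨u, p, hu0, hu, hup, hp, hr⟩ := hT.exists_root hw hM.stab_le hM.le_isom hw0 h hA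
  exact hM.notFull (hT.omega_le_of_root hM.le_isom hM.stab_le hM.nondeg hM.noLine hu hu0 hup hp hw
    hw0 hr)

variable {w : Fin n₂ → F} (hw : f₂ w w = 0)
variable {r r' : GL ι F} {B B' : (ι → F) →ₗ[F] (Fin n₁ → F)}
include hw

lemma cc_fix (hr : hT.Shift M w r B) (X : ι → F) : hT.cc w (ap r X) = hT.cc w X :=
  hT.sym₁.eq_of_forall fun a => hT.cc_ap (hM.le_isom hr.1) (hr.2.1 a) X

lemma shift_slice (hw0 : w ≠ 0) (hr : hT.Shift M w r B) (u : Fin n₁ → F) :
    B (pt e P u w) = 0 := by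
  have h := hr.2.2 (pt e P u w) (by rw [cc_pt, hw, zero_smul])
  rw [hr.2.1, left_eq_add] at h
  exact pt_inj_left e P hw0 (h.trans (pt_zero_left e P w).symm)

lemma shift_mul (hw0 : w ≠ 0) (hr : hT.Shift M w r B) (hr' : hT.Shift M w r' B') :
    hT.Shift M w (r * r') (B + B') := by
  refine ⟨mul_mem hr.1 hr'.1, fun u => by rw [ap_mul, hr'.2.1, hr.2.1], fun X hX => ?_⟩
  rw [ap_mul, hr'.2.2 X hX, ap_add, hr.2.1, hr.2.2 X hX, LinearMap.add_apply, pt_add_left]
  abel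

lemma shift_inv (hw0 : w ≠ 0) (hr : hT.Shift M w r B) : hT.Shift M w r⁻¹ (-B) := by
  refine ⟨inv_mem hr.1, fun u => ap_injective r (by rw [ap_ap_inv, hr.2.1]), fun X hX => ?_⟩
  apply ap_injective r
  rw [ap_ap_inv, ap_add, hr.2.1, hr.2.2 X hX, LinearMap.neg_apply, ← ptl_apply e P w (-_),
    map_neg, ptl_apply]
  abel

lemma shift_conj (hr : hT.Shift M w r B) {a : GL (Fin n₁) F} (ha : a ∈ ⁅isom f₁, isom f₁⁆)
    {b : GL (Fin n₂) F} (hb : b ∈ ⁅isom f₂, isom f₂⁆) (hbw : ap b w = w) :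
    hT.Shift M w (kron e P a b * r * (kron e P a b)⁻¹)
      ((apEquiv a).toLinearMap ∘ₗ B ∘ₗ (apEquiv (kron e P a b)⁻¹).toLinearMap) := by
  have hk := hM.stab_le (hT.kron_mem_inf ha hb)
  have hbI : b⁻¹ ∈ isom f₂ := inv_mem (Subgroup.commutator_le_self _ hb)
  have hbw' : ap b⁻¹ w = w := ap_injective b (by rw [ap_ap_inv, hbw])
  refine ⟨mul_mem (mul_mem hk hr.1) (inv_mem hk), fun u => ?_, fun X hX => ?_⟩
  · rw [ap_mul, ap_mul, kron_inv, ap_kron, hbw', hr.2.1, ap_kron, ap_ap_inv, hbw]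
  · have h0 : hT.cc w (ap (kron e P a b)⁻¹ X) = 0 := by
      rw [kron_inv, hT.cc_kron hbI, inv_inv, hbw, hX, ap_zero]
    rw [ap_mul, ap_mul, hr.2.2 _ h0, ap_add, ap_ap_inv, ap_kron, hbw]
    rfl

lemma cc_shift (hr : hT.Shift M w r B) {y : Fin n₂ → F} (hy : f₂ y w = 0) (X : ι → F)
    (a : Fin n₁ → F) :
    f₁ (hT.cc y (ap r X)) a + f₁ (hT.cc w X) (B (pt e P a y)) = f₁ (hT.cc y X) a := by
  have h := Orth.polar_ap (hM.le_isom hr.1) X (pt e P a y)
  rw [hr.2.2 (pt e P a y) (by rw [cc_pt, hy, zero_smul]), polar_add_right, hT.polar_right,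
    hT.polar_right, hT.polar_right, hT.cc_fix hM hw hr, ← mul_add] at h
  exact mul_left_cancel₀ hT.c_ne h

/-- The components are self-adjoint. -/
lemma shift_selfAdjoint (hw0 : w ≠ 0) (hr : hT.Shift M w r B) {y : Fin n₂ → F}
    (hy : f₂ y w = 0) (u u' : Fin n₁ → F) :
    f₁ (B (pt e P u y)) u' = f₁ u (B (pt e P u' y)) := by
  obtain ⟨z, hz⟩ := hT.sym₂.exists_one hw0
  have hwy : f₂ w y = 0 := hT.sym₂.eq_zero_comm.mp hy
  set γ : (Fin n₁ → F) →ₗ[F] (Fin n₁ → F) :=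
    (hT.cc y).comp (((apEquiv r⁻¹).toLinearMap - LinearMap.id).comp (ptl e P z)) with hγ
  have hri := hT.shift_inv hM hw hw0 hr
  have hD : ∀ X, hT.cc y (ap r⁻¹ X) = hT.cc y X + γ (hT.cc w X) := by
    have hD0 : ∀ X a, f₁ (hT.cc y (ap r⁻¹ X)) a =
        f₁ (hT.cc y X) a + f₁ (hT.cc w X) (B (pt e P a y)) := by
      intro X a
      have h := hT.cc_shift hM hw hri hy X a
      rw [LinearMap.neg_apply, hT.sym₁.neg_right] at h
      linear_combination h
    have hγ1 : ∀ u a, f₁ (γ u) a = f₁ u (B (pt e P a y)) := fun u a => by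
      simp [hγ, hT.sym₁.sub_left, hD0, hz, hT.sym₁.smul_left]
    intro X
    refine hT.sym₁.eq_of_forall fun a => ?_
    rw [hD0, hT.sym₁.add_left, hγ1]
  set β := B.comp (ptl e P y) with hβ
  have hcen : hT.Cen M w (β - γ) := by
    set h := hT.xs w y hw hwy with hh
    have hhM : h ∈ M := hM.stab_le (hT.xs_mem hw hwy)
    refine ⟨r * h * r⁻¹ * h⁻¹, mul_mem (mul_mem (mul_mem hr.1 hhM) (inv_mem hr.1)) (inv_mem hhM),
      fun X => ?_⟩
    obtain ⟨X, rfl⟩ : ∃ X', ap h X' = X := ⟨_, ap_ap_inv h X⟩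
    have hcw : hT.cc w (ap h X) = hT.cc w X := by
      rw [hh, hT.ap_xs, map_sub, map_add, cc_pt, cc_pt, hy, hw, zero_smul, zero_smul, add_zero,
        sub_zero]
    rw [ap_mul, ap_mul, ap_mul, ap_inv_ap, hcw, hh, hT.ap_xs hw hwy (ap r⁻¹ X), hT.ap_xs,
      hT.cc_fix hM hw hri, hD, ap_sub, ap_add, ap_ap_inv, hr.2.1,
      hr.2.2 (pt e P (hT.cc w X) y) (by rw [cc_pt, hy, zero_smul])]
    simp only [LinearMap.sub_apply, hβ, LinearMap.comp_apply, ptl_apply, pt_sub_left, pt_add_left]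
    module
  have h0 := LinearMap.congr_fun (hT.cen_eq_zero hM hw hw0 hcen) u
  have h1 : B (pt e P u y) = γ u := sub_eq_zero.mp (by simpa [hβ] using h0)
  rw [h1]
  have h2 := hT.cc_shift hM hw hri hy (pt e P u z) u'
  simp [hz, hT.sym₁.neg_right, hT.sym₁.smul_left] at h2
  simp [hγ, hT.sym₁.sub_left, hT.sym₁.smul_left]
  linear_combination h2

/-- Two shifts through isotropic vectors that are not orthogonal have commuting components. -/
lemma shift_commute (hw0 : w ≠ 0) {β β' : (Fin n₁ → F) →ₗ[F] (Fin n₁ → F)} {s s' : Fin n₂ → F}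
    (hsw : f₂ s w = 0) (hsw' : f₂ s' w = 0) (hss : f₂ s s' ≠ 0)
    (hr : hT.Shift M w r (β ∘ₗ hT.cc s)) (hr' : hT.Shift M w r' (β' ∘ₗ hT.cc s'))
    (hβ : ∀ x y, f₁ (β x) y = f₁ x (β y)) (hβ' : ∀ x y, f₁ (β' x) y = f₁ x (β' y))
    (x : Fin n₁ → F) : β (β' x) = β' (β x) := by
  have hcc : ∀ {r r' : GL ι F} {β β' : (Fin n₁ → F) →ₗ[F] (Fin n₁ → F)} {s s' : Fin n₂ → F},
      f₂ s w = 0 → (∀ x y, f₁ (β' x) y = f₁ x (β' y)) → hT.Shift M w r (β ∘ₗ hT.cc s) →
      hT.Shift M w r' (β' ∘ₗ hT.cc s') → ∀ X, ap r (ap r' X) =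
        ap r X + (ap r' X - X) - f₂ s s' • pt e P (β (β' (hT.cc w X))) w := by
    intro r r' β β' s s' hs hβ' hr hr' X
    have h1 : hT.cc w (ap r' X - X) = 0 := by rw [map_sub, hT.cc_fix hM hw hr', sub_self]
    have h2 : hT.cc s (ap r' X - X) = -(f₂ s s' • β' (hT.cc w X)) :=
      hT.sym₁.eq_of_forall fun a => by
        have h := hT.cc_shift hM hw hr' hs X a
        rw [LinearMap.comp_apply, cc_pt, map_smul, hT.sym₁.smul_right, ← hβ'] at h
        rw [map_sub, hT.sym₁.sub_left, hT.sym₁.neg_left, hT.sym₁.smul_left]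
        linear_combination h
    have h3 := hr.2.2 _ h1
    rw [LinearMap.comp_apply, h2, map_neg, map_smul, ← ptl_apply e P w (-_), map_neg, map_smul,
      ptl_apply, ap_sub] at h3
    linear_combination (norm := module) h3
  have hcen : hT.Cen M w (f₂ s s' • (β' ∘ₗ β - β ∘ₗ β')) := by
    refine ⟨r * r' * (r' * r)⁻¹, mul_mem (mul_mem hr.1 hr'.1) (inv_mem (mul_mem hr'.1 hr.1)),
      fun X => ?_⟩
    obtain ⟨X, rfl⟩ : ∃ X', ap (r' * r) X' = X := ⟨_, ap_ap_inv (r' * r) X⟩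
    rw [ap_mul (r * r'), ap_inv_ap, ap_mul, ap_mul, hT.cc_fix hM hw hr', hT.cc_fix hM hw hr,
      hcc hsw hβ' hr hr', hcc hsw' hβ hr' hr, hT.sym₂.symm s' s]
    simp only [LinearMap.smul_apply, LinearMap.sub_apply, LinearMap.comp_apply, pt_smul_left,
      pt_sub_left]
    module
  have h0 := LinearMap.congr_fun (hT.cen_eq_zero hM hw hw0 hcen) x
  simp only [LinearMap.smul_apply, LinearMap.sub_apply, LinearMap.comp_apply,
    LinearMap.zero_apply, smul_eq_zero, hss, false_or, sub_eq_zero] at h0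
  exact h0.symm

/-- An element fixing a slice pointwise shifts the orthogonal slices by scalars. -/
theorem scalar_of_shift (hw0 : w ≠ 0) (hr : hT.Shift M w r B) {y : Fin n₂ → F}
    (hy : f₂ y w = 0) : ∃ θ : F, ∀ u, B (pt e P u y) = θ • u := by
  have hg := hT.sym₁
  have hg₂ := hT.sym₂
  have h2 := hT.two_ne
  let S : Submodule F (Fin n₂ → F) :=
    { carrier := {y | ∃ θ : F, ∀ u, B (pt e P u y) = θ • u}
      add_mem' := by
        rintro a b ⟨θ, hθ⟩ ⟨θ', hθ'⟩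
        exact ⟨θ + θ', fun u => by rw [pt_add_right, map_add, hθ, hθ', add_smul]⟩
      zero_mem' := ⟨0, fun u => by rw [pt_zero_right, map_zero, zero_smul]⟩
      smul_mem' := by
        rintro t a ⟨θ, hθ⟩
        exact ⟨t * θ, fun u => by rw [pt_smul_right, map_smul, hθ, smul_smul]⟩ }
  suffices h : S.mkQ y = 0 by
    rw [Submodule.mkQ_apply, Submodule.Quotient.mk_eq_zero] at h
    exact h
  refine hg₂.eq_zero_of_iso_perp (by rw [Fintype.card_fin]; exact hT.pos₂) hw hw0 ?_ hy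
  intro s hsw hss
  rw [Submodule.mkQ_apply, Submodule.Quotient.mk_eq_zero]
  by_cases hdep : s ∈ Submodule.span F {w}
  · obtain ⟨t, rfl⟩ := Submodule.mem_span_singleton.mp hdep
    exact ⟨0, fun u => by rw [pt_smul_right, map_smul, hT.shift_slice hM hw hw0 hr, smul_zero,
      zero_smul]⟩
  have hs0 : s ≠ 0 := fun h => hdep (by rw [h]; exact Submodule.zero_mem _)
  obtain ⟨t, htw, hts, htt⟩ := hg₂.exists_aniso_two hT.pos₂ w s
  have hst : f₂ s t = 0 := by rw [hg₂.symm, hts]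
  have hbw : ap (hg₂.rho s t hss hst) w = w :=
    hg₂.ap_rho_fix hss hst (by rw [hg₂.symm, hsw]) (by rw [hg₂.symm, htw])
  have hbm := hg₂.rho_mem_commutator hss hst
  have hbw' : ap (hg₂.rho s t hss hst)⁻¹ w = w := by
    conv_lhs => rw [← hbw, ap_inv_ap]
  have h₁ := hT.shift_conj hM hw hr (one_mem ⁅isom f₁, isom f₁⁆) hbm hbw
  have h₂ := hT.shift_conj hM hw hr (one_mem ⁅isom f₁, isom f₁⁆) (inv_mem hbm) hbw'
  have hi := hT.shift_inv hM hw hw0 hr
  set β := (-(f₂ t t)) • (B.comp (ptl e P s)) with hβdef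
  obtain ⟨r1, hr1⟩ : ∃ r1, hT.Shift M w r1 (β ∘ₗ hT.cc s) := by
    have h12 := hT.shift_mul hM hw hw0 (hT.shift_mul hM hw hw0 h₁ h₂)
      (hT.shift_mul hM hw hw0 hi hi)
    refine ⟨_, (congrArg (hT.Shift M w _) (?_ : _ = β ∘ₗ hT.cc s)).mp h12⟩
    refine LinearMap.ext fun X => ?_
    have hsum : ap (kron e P (1 : GL (Fin n₁) F) (hg₂.rho s t hss hst))⁻¹ X +
        ap (kron e P (1 : GL (Fin n₁) F) (hg₂.rho s t hss hst)⁻¹)⁻¹ X - X - X =
        (-(f₂ t t)) • pt e P (hT.cc s X) s := by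
      have hx : kron e P (1 : GL (Fin n₁) F) (hg₂.rho s t hss hst) = hT.xs s t hss hst := rfl
      have hx' : kron e P (1 : GL (Fin n₁) F) (hg₂.rho s t hss hst)⁻¹ =
          hT.xs s (-t) hss (by rw [hg₂.neg_right, hst, neg_zero]) := by
        rw [hg₂.rho_inv]; rfl
      rw [kron_inv, kron_inv, inv_one, inv_inv, hx, hx', hT.ap_xs, hT.ap_xs, hT.cc_neg,
        pt_neg_right, hg₂.neg_left, hg₂.neg_right, neg_neg, pt_add_left, pt_add_left,
        pt_smul_left, ← ptl_apply e P s (-_), map_neg, ptl_apply]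
      match_scalars <;> field_simp <;> ring
    have h := congrArg B hsum
    simp only [map_sub, map_add, map_smul] at h
    simp only [hβdef, LinearMap.comp_apply, LinearMap.smul_apply, ptl_apply, LinearMap.add_apply,
      LinearMap.neg_apply, LinearEquiv.coe_coe, apEquiv_apply, ap_one]
    rw [← h]
    abel
  have hβs : ∀ x y, f₁ (β x) y = f₁ x (β y) := fun x y => by
    simp only [hβdef, LinearMap.smul_apply, LinearMap.comp_apply, ptl_apply, hg.smul_left,
      hg.smul_right, hT.shift_selfAdjoint hM hw hw0 hr hsw]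
  obtain ⟨k, hk⟩ : ∃ k : F, ∀ x, β x = k • x := by
    refine hg.scalar_of_commute (by rw [Fintype.card_fin]; exact hT.pos₁)
      (by rw [Fintype.card_fin]; exact hM.fieldOrRank) hβs fun u v hu hv x => ?_
    set a := hg.rho u v hu hv
    obtain ⟨x', hx's, hx'w⟩ := Orth.exists_pairings (Q := hg₂.sq) hg₂.nondeg_sq
      (u := s) (v := w) (LinearIndependent.pair_iff.mpr fun p q hpq => by
        by_cases hp : p = 0
        · refine ⟨hp, ?_⟩
          rw [hp, zero_smul, zero_add] at hpq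
          exact (smul_eq_zero.mp hpq).resolve_right hw0
        · refine absurd (Submodule.mem_span_singleton.mpr ⟨-(p⁻¹ * q), ?_⟩) hdep
          rw [neg_smul, ← smul_smul, ← smul_neg, ← eq_neg_of_add_eq_zero_left hpq,
            inv_smul_smul₀ hp]) 1 0
    rw [hg₂.polar_sq] at hx's hx'w
    set s' := x' - ((2 : F)⁻¹ * f₂ x' x') • s with hs'def
    have hs's : f₂ s' s = 1 := by rw [hs'def, hg₂.sub_left, hg₂.smul_left, hx's, hss]; ring
    have hs'w : f₂ s' w = 0 := by rw [hs'def, hg₂.sub_left, hg₂.smul_left, hx'w, hsw]; ring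
    have hs's' : f₂ s' s' = 0 := by
      rw [hs'def, hg₂.sub_left, hg₂.sub_right, hg₂.sub_right, hg₂.smul_left, hg₂.smul_left,
        hg₂.smul_right, hg₂.smul_right, hss, hx's, hg₂.symm s x', hx's]
      field_simp; ring
    obtain ⟨t', ht'w, ht's', ht't'⟩ := hg₂.exists_aniso_two hT.pos₂ w s'
    have hs't' : f₂ s' t' = 0 := by rw [hg₂.symm, ht's']
    set b := hg₂.rho s' t' hs's' hs't'
    have hbw2 : ap b w = w :=
      hg₂.ap_rho_fix hs's' hs't' (by rw [hg₂.symm, hs'w]) (by rw [hg₂.symm, ht'w])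
    have hbm2 := hg₂.rho_mem_commutator hs's' hs't'
    have hb2I := hg₂.rho_mem_isom hs's' hs't'
    have ham := hg.rho_mem_commutator hu hv
    set β' := (apEquiv a).toLinearMap ∘ₗ β ∘ₗ (apEquiv a⁻¹).toLinearMap with hβ'
    have hr2 : hT.Shift M w (kron e P a b * r1 * (kron e P a b)⁻¹) (β' ∘ₗ hT.cc (ap b s)) := by
      convert hT.shift_conj hM hw hr1 ham hbm2 hbw2 using 1
      refine LinearMap.ext fun X => ?_
      simp only [hβ', LinearMap.comp_apply, LinearEquiv.coe_coe, apEquiv_apply]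
      rw [kron_inv, hT.cc_kron (inv_mem hb2I), inv_inv]
    refine hT.shift_commute hM hw hw0 hsw ?_ ?_ hr1 hr2 hβs (fun x y => ?_) x
    · rw [← hbw2, mem_isom_iff.mp hb2I, hsw]
    · rw [hg₂.ap_rho, hg₂.sub_right, hg₂.add_right, hg₂.smul_right, hg₂.smul_right, hg₂.symm s s',
        hs's, hss]
      intro h0
      exact mul_ne_zero (inv_ne_zero h2) ht't' (by linear_combination -h0)
    · have haI := hg.rho_mem_isom hu hv
      simp only [hβ', LinearMap.comp_apply, LinearEquiv.coe_coe, apEquiv_apply]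
      have e1 := mem_isom_iff.mp haI (β (ap a⁻¹ x)) (ap a⁻¹ y)
      have e2 := mem_isom_iff.mp haI (ap a⁻¹ x) (β (ap a⁻¹ y))
      rw [ap_ap_inv] at e1 e2
      rw [e1, e2, hβs]
  refine ⟨(-(f₂ t t))⁻¹ * k, fun u => ?_⟩
  have h := hk u
  simp only [hβdef, LinearMap.smul_apply, LinearMap.comp_apply, ptl_apply] at h
  rw [← smul_smul, ← h, inv_smul_smul₀ (neg_ne_zero.mpr htt)]

end OTensor

end CfsgLib.Geometric.OrthTensor
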