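import Cfsg.Agent.Lib.Geometric.OrthTensorMax.Shift

/-!
In a proper overgroup of the stabiliser of an orthogonal tensor product an element mapping the
slice of an isotropic vector onto such a slice lies in the stabiliser.
-/

namespace CfsgLib.Geometric.OrthTensor

open Matrix QuadraticMap Tensor

set_option linter.unusedSectionVars false
set_option linter.unusedVariables false

variable {ι : Type} [Fintype ι] [DecidableEq ι] {F : Type*} [Field F]
variable {Q : QuadraticForm F (ι → F)} {n₁ n₂ : ℕ} {e : ι ≃ Fin n₁ × Fin n₂} {P : GL ι F}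
  {f₁ : (Fin n₁ → F) → (Fin n₁ → F) → F} {f₂ : (Fin n₂ → F) → (Fin n₂ → F) → F} {c : F}

namespace OTensor

variable (hT : OTensor Q e P f₁ f₂ c) {M : Subgroup (GL ι F)} [Finite F] (hM : hT.Small M)
include hT

omit [Finite F] in
/-- A map into the slice on the pure vectors orthogonal to `w` is so on all of them. -/
lemma mem_slice_of_perp {w w' : Fin n₂ → F} (hw0 : w ≠ 0) {L : (ι → F) →ₗ[F] (ι → F)}
    (h : ∀ x z, f₂ z w = 0 → L (pt e P x z) ∈ slice e P w') {X : ι → F} (hX : hT.cc w X = 0) :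
    L X ∈ slice e P w' := by
  obtain ⟨z₀, hz₀⟩ := hT.sym₂.exists_one hw0
  have h0 : ((slice e P w').mkQ.comp L).comp (LinearMap.id - (ptl e P z₀).comp (hT.cc w)) = 0 :=
    ext_pt e P fun x z => by
      simp only [LinearMap.comp_apply, LinearMap.sub_apply, LinearMap.id_apply, cc_pt, ptl_apply,
        pt_smul_left, ← pt_smul_right, ← pt_sub_right, LinearMap.zero_apply, Submodule.mkQ_apply,
        Submodule.Quotient.mk_eq_zero]
      exact h x _ (by rw [hT.sym₂.sub_left, hT.sym₂.smul_left, hz₀, mul_one, sub_self])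
  have h1 := LinearMap.congr_fun h0 X
  simp only [LinearMap.comp_apply, LinearMap.sub_apply, LinearMap.id_apply, hX, ptl_apply,
    pt_zero_left, sub_zero, LinearMap.zero_apply, Submodule.mkQ_apply,
    Submodule.Quotient.mk_eq_zero] at h1
  exact h1

include hM

/-- An element mapping a slice onto a slice acts factorwise on the orthogonal slices. -/
lemma map_perp {g : GL ι F} (hg : g ∈ M) {w w' : Fin n₂ → F} (hw : f₂ w w = 0) (hw0 : w ≠ 0)
    (hw' : f₂ w' w' = 0) (hw'0 : w' ≠ 0) {G : GL (Fin n₁) F}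
    (hG : ∀ u, ap g (pt e P u w) = pt e P (ap G u) w') {u₀ : Fin n₁ → F}
    {α : (Fin n₁ → F) →ₗ[F] F} (hα : α (ap G u₀) = 1) :
    ∀ y, f₂ y w = 0 → ∀ u,
      ap g (pt e P u y) = pt e P (ap G u) (conr e P α (ap g (pt e P u₀ y))) := by
  have hg₁ := hT.sym₁
  have hg₂ := hT.sym₂
  have hgI := hM.le_isom hg
  have hginv : ∀ u, ap g⁻¹ (pt e P u w') = pt e P (ap G⁻¹ u) w := fun u => ap_injective g (by
    rw [ap_ap_inv, hG, ap_ap_inv])
  have hgiI : g⁻¹ ∈ Cfsg.isometryGroup F (⇑Q) := inv_mem hgI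
  set ψ := (conr e P α).comp ((apEquiv g).toLinearMap.comp (ptr e P u₀)) with hψ
  have hψy : ∀ y, conr e P α (ap g (pt e P u₀ y)) = ψ y := fun y => rfl
  have hcw : ∀ X, hT.cc w X = 0 → hT.cc w' (ap g X) = 0 := fun X hX =>
    hg₁.eq_of_forall fun b => by
      have h := hT.cc_ap hgI (hG (ap G⁻¹ b)) X
      rw [ap_ap_inv, hX, hg₁.zero_left] at h
      rw [h, hg₁.zero_left]
  have hperp : ∀ u y, f₂ y w = 0 → hT.cc w' (ap g (pt e P u y)) = 0 := fun u y hy =>
    hcw _ (by rw [cc_pt, hy, zero_smul])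
  -- the contractions orthogonal to the slice are scalar
  have hscal : ∀ y, f₂ y w = 0 → ∀ y', f₂ y' w' = 0 → ∀ u,
      hT.cc y' (ap g (pt e P u y)) = f₂ (ψ y) y' • ap G u := by
    intro y hy y' hy'
    have hy'' : f₂ w' y' = 0 := hg₂.eq_zero_comm.mp hy'
    set h := hT.xs w' y' hw' hy''
    have hh : h ∈ M := hM.stab_le (hT.xs_mem hw' hy'')
    have hshift : hT.Shift M w (g⁻¹ * h * g)
        (-((apEquiv G⁻¹).toLinearMap ∘ₗ (hT.cc y') ∘ₗ (apEquiv g).toLinearMap)) := by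
      refine ⟨mul_mem (mul_mem (inv_mem hg) hh) hg, fun u => ?_, fun X hX => ?_⟩
      · rw [ap_mul, ap_mul, hG, hT.ap_xs_of_cc hw' hy'' (by rw [cc_pt, hw', zero_smul]), cc_pt,
          hy'', zero_smul, pt_zero_left, sub_zero, hginv, ap_inv_ap]
      · rw [ap_mul, ap_mul, hT.ap_xs_of_cc hw' hy'' (hcw X hX), ap_sub, ap_inv_ap, hginv,
          LinearMap.neg_apply, ← ptl_apply e P w (-_), map_neg, ← sub_eq_add_neg]
        rfl
    obtain ⟨θ, hθ⟩ := hT.scalar_of_shift hM hw hw0 hshift hy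
    have h1 : ∀ u, hT.cc y' (ap g (pt e P u y)) = (-θ) • ap G u := fun u => by
      have h2 := hθ u
      simp only [LinearMap.neg_apply, LinearMap.comp_apply, LinearEquiv.coe_coe,
        apEquiv_apply, neg_eq_iff_eq_neg] at h2
      have h3 := congrArg (ap G) h2
      rw [ap_ap_inv, ← neg_smul, ap_smul] at h3
      exact h3
    have h2 : f₂ (ψ y) y' = -θ := by
      rw [← SymForm.fl_apply hg₂, ← hψy, apply_conr]
      simpa [cc, hα] using congrArg α (h1 u₀)
    intro u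
    rw [h2, h1]
  have hψperp : ∀ y, f₂ y w = 0 → f₂ (ψ y) w' = 0 := fun y hy => by
    rw [← SymForm.fl_apply hg₂, ← hψy, apply_conr]
    simpa [cc] using congrArg α (hperp u₀ y hy)
  obtain ⟨ω, -, hω⟩ := exists_functional_eq_one
    (U := (⊥ : Submodule F (Fin n₂ → F))) (x := w') (by simpa using hw'0)
  let R : (Fin n₂ → F) → (Fin n₁ → F) →ₗ[F] (Fin n₁ → F) := fun y =>
    (con e P ω).comp ((apEquiv g).toLinearMap.comp (ptl e P y) -
      (ptl e P (ψ y)).comp (apEquiv G).toLinearMap)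
  have hform : ∀ y, f₂ y w = 0 → ∀ u,
      ap g (pt e P u y) = pt e P (ap G u) (ψ y) + pt e P (R y u) w' := by
    intro y hy u
    rw [← sub_eq_iff_eq_add']
    refine mem_slice_of_con e P hω fun φ hφ => ?_
    obtain ⟨y', hy'⟩ := Orth.exists_eq_polar hg₂.nondeg_sq φ
    have hy'w : f₂ y' w' = 0 := by rw [hg₂.symm, ← hg₂.polar_sq, hy', hφ]
    rw [show φ = hg₂.fl y' from LinearMap.ext fun x => by
      rw [SymForm.fl_apply, ← hg₂.polar_sq, hy']]
    rw [map_sub, con_pt, SymForm.fl_apply]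
    exact sub_eq_zero.mpr (hscal y hy y' hy'w u)
  -- pairings
  have hpair : ∀ a b y y', f₂ y w = 0 → f₂ y' w = 0 →
      f₁ (ap G a) (ap G b) * f₂ (ψ y) (ψ y') = f₁ a b * f₂ y y' := by
    intro a b y y' hy hy'
    have h := Orth.polar_ap hgI (pt e P a y) (pt e P b y')
    rw [hform y hy, hform y' hy'] at h
    simp only [polar_add_left, polar_add_right, hT.polar_pt, hψperp y hy, hw',
      hg₂.eq_zero_comm.mp (hψperp y' hy'), mul_zero, add_zero] at h
    exact mul_left_cancel₀ hT.c_ne h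
  obtain ⟨yA, hyAw, -, hyA⟩ := hg₂.exists_aniso_two hT.pos₂ w w
  obtain ⟨ua, hua0, hua⟩ : ∃ ua, ua ≠ 0 ∧ f₁ ua ua ≠ 0 := by
    obtain ⟨x, hx0, hx⟩ := hg₁.exists_isotropic (by rw [Fintype.card_fin]; exact hT.pos₁)
    obtain ⟨v, -, hv⟩ := hg₁.exists_aniso_perp (by rw [Fintype.card_fin]; exact hT.pos₁) hx hx0
    exact ⟨v, fun h => hv (by rw [h, hg₁.zero_left]), hv⟩
  set d := f₂ (ψ yA) (ψ yA) with hd
  have hd0 : d ≠ 0 := fun h => by
    have h1 := hpair ua ua yA yA hyAw hyAw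
    rw [← hd, h, mul_zero] at h1
    exact mul_ne_zero hua hyA h1.symm
  set ν := f₂ yA yA / d with hν
  have hν0 : ν ≠ 0 := div_ne_zero hyA hd0
  have hsim : ∀ a b, f₁ (ap G a) (ap G b) = ν * f₁ a b := fun a b => by
    rw [hν, div_mul_eq_mul_div, eq_div_iff hd0, hd, hpair a b yA yA hyAw hyAw, mul_comm]
  have hψform : ∀ y y', f₂ y w = 0 → f₂ y' w = 0 → ν * f₂ (ψ y) (ψ y') = f₂ y y' := by
    intro y y' hy hy'
    have h := hpair ua ua y y' hy hy'
    rw [hsim] at h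
    exact mul_left_cancel₀ hua (by linear_combination h)
  -- isotropic vectors
  have hiso : ∀ y, f₂ y w = 0 → f₂ y y = 0 → ∀ u, ap g (pt e P u y) = pt e P (ap G u) (ψ y) := by
    intro y hy hyy
    by_cases hψ' : ψ y ∈ Submodule.span F {w'}
    · obtain ⟨s, hs⟩ := Submodule.mem_span_singleton.mp hψ'
      have h0 := hform y hy u₀
      rw [← hs, pt_smul_right, ← pt_smul_left, ← pt_add_left] at h0
      obtain ⟨u', hu'⟩ : ∃ u', pt e P u₀ y = pt e P u' w :=
        ⟨ap G⁻¹ (s • ap G u₀ + R y u₀), ap_injective g (by rw [h0, hG, ap_ap_inv])⟩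
      have hu₀ : u₀ ≠ 0 := fun h => by simp [h, ap_zero] at hα
      obtain ⟨δ, -, hδ⟩ := exists_functional_eq_one
        (U := (⊥ : Submodule F (Fin n₁ → F))) (x := u₀) (by simpa using hu₀)
      have hyw : y = δ u' • w := by
        simpa [hδ] using congrArg (conr e P δ) hu'
      intro u
      rw [hyw, pt_smul_right, ap_smul, hG, map_smul, ← pt_smul_right]
      congr 2
      simp [hψ, hG, hα]
    obtain ⟨y₃, hy₃w, hy₃y, hy₃⟩ := hg₂.exists_aniso_two hT.pos₂ w y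
    have hyy₃ : f₂ y y₃ = 0 := hg₂.eq_zero_comm.mp hy₃y
    have hwy : f₂ w y = 0 := hg₂.eq_zero_comm.mp hy
    have hwy₃ : f₂ w y₃ = 0 := hg₂.eq_zero_comm.mp hy₃w
    have hψψ : f₂ (ψ y) (ψ y) = 0 :=
      (mul_eq_zero.mp (by rw [hψform y y hy hy, hyy] : ν * f₂ (ψ y) (ψ y) = 0)).resolve_left hν0
    have hψψ₃ : f₂ (ψ y) (ν • ψ y₃) = 0 := by
      rw [hg₂.smul_right, hψform y y₃ hy hy₃w, hyy₃]
    set τ := g * hT.xs y y₃ hyy hyy₃ * g⁻¹ with hτdef
    set h := hT.xs (ψ y) (ν • ψ y₃) hψψ hψψ₃ with hh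
    have hτ : τ ∈ M := mul_mem (mul_mem hg (hM.stab_le (hT.xs_mem hyy hyy₃))) (inv_mem hg)
    have hhM : h ∈ M := hM.stab_le (hT.xs_mem hψψ hψψ₃)
    have hfixw : ∀ u, ap h (pt e P u w') = pt e P u w' := fun u => by
      rw [hh, hT.ap_xs, cc_pt, cc_pt, hg₂.smul_right, hg₂.eq_zero_comm.mp (hψperp y hy),
        hg₂.eq_zero_comm.mp (hψperp y₃ hy₃w)]
      simp [pt_zero_left]
    have hfix : ∀ u, ap (h⁻¹ * τ) (pt e P u w') = pt e P u w' := fun u => ap_injective h (by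
      rw [ap_mul, ap_ap_inv, hfixw, hτdef, ap_mul, ap_mul, hginv, hT.ap_xs, cc_pt, cc_pt, hwy,
        hwy₃]
      simp only [zero_smul, smul_zero, add_zero, pt_zero_left, sub_zero]
      rw [hG, ap_ap_inv])
    -- the moves of the orthogonal slices
    set l : (Fin n₁ → F) → (Fin n₂ → F) → (Fin n₁ → F) := fun x y₄ =>
      f₂ y₄ y • R y₃ x - (f₂ y₄ y₃ + (2 : F)⁻¹ * f₂ y₃ y₃ * f₂ y₄ y) • R y x with hl
    have hmove : ∀ x y₄, f₂ y₄ w = 0 → ap (h⁻¹ * τ) (ap g (pt e P x y₄)) =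
        ap g (pt e P x y₄) + pt e P (l x y₄) w' := by
      intro x y₄ hy₄
      have hψy₄ : f₂ (ψ y₄) (ψ y) = ν⁻¹ * f₂ y₄ y := by
        rw [← hψform y₄ y hy₄ hy, inv_mul_cancel_left₀ hν0]
      have hψy₃ : f₂ (ψ y₄) (ψ y₃) = ν⁻¹ * f₂ y₄ y₃ := by
        rw [← hψform y₄ y₃ hy₄ hy₃w, inv_mul_cancel_left₀ hν0]
      have hψ₃ : f₂ (ψ y₃) (ψ y₃) = ν⁻¹ * f₂ y₃ y₃ := by
        rw [← hψform y₃ y₃ hy₃w hy₃w, inv_mul_cancel_left₀ hν0]
      apply ap_injective h
      rw [ap_mul, ap_ap_inv, hτdef, ap_mul, ap_mul, ap_inv_ap, hT.ap_xs, ap_sub, ap_add,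
        ap_add h, hfixw, hform y₄ hy₄, ap_add h, hfixw, hh, hT.ap_xs]
      simp only [cc_pt, hg₂.smul_right, hg₂.smul_left, hψy₄, hψy₃, hψ₃, ← add_smul, smul_smul,
        pt_smul_left, ap_smul, hform y₃ hy₃w, hform y hy, pt_smul_right, hl, pt_sub_left]
      match_scalars <;> field_simp
    set B := (con e P ω).comp ((apEquiv (h⁻¹ * τ)).toLinearMap - LinearMap.id) with hB
    have hshift : hT.Shift M w' (h⁻¹ * τ) B := by
      refine ⟨mul_mem (inv_mem hhM) hτ, hfix, fun X hX => ?_⟩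
      obtain ⟨X, rfl⟩ : ∃ X', ap g X' = X := ⟨_, ap_ap_inv g X⟩
      have hX0 : hT.cc w X = 0 := hg₁.eq_of_forall fun a => by
        rw [← hT.cc_ap hgI (hG a) X, hX, hg₁.zero_left, hg₁.zero_left]
      have hmem := hT.mem_slice_of_perp (w' := w') hw0
        (L := ((apEquiv (h⁻¹ * τ)).toLinearMap - LinearMap.id).comp (apEquiv g).toLinearMap)
        (fun x z hz => by
          simp only [LinearMap.comp_apply, LinearMap.sub_apply, LinearEquiv.coe_coe, apEquiv_apply,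
            LinearMap.id_apply, hmove x z hz, add_sub_cancel_left]
          exact pt_mem_slice e P _ _) hX0
      simp only [LinearMap.comp_apply, LinearMap.sub_apply, LinearEquiv.coe_coe, apEquiv_apply,
        LinearMap.id_apply] at hmem
      obtain ⟨x', hx'⟩ := hmem
      rw [ptl_apply] at hx'
      simp only [hB, LinearMap.comp_apply, LinearMap.sub_apply, LinearEquiv.coe_coe, apEquiv_apply,
        LinearMap.id_apply, ← hx', con_pt, hω, one_smul]
      rw [hx', add_sub_cancel]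
    obtain ⟨θ, hθ⟩ := hT.scalar_of_shift hM hw' hw'0 hshift (hψperp y₃ hy₃w)
    have hR : ∀ x, R y x = (-(θ / f₂ y₃ y₃)) • ap G x := by
      intro x
      have h0 := hθ (ap G x)
      have h1 : ap (h⁻¹ * τ) (pt e P (ap G x) (ψ y₃)) =
          pt e P (ap G x) (ψ y₃) + pt e P (l x y₃) w' := by
        rw [show pt e P (ap G x) (ψ y₃) = ap g (pt e P x y₃) - pt e P (R y₃ x) w' by
          rw [hform y₃ hy₃w, add_sub_cancel_right], ap_sub, hfix, hmove x y₃ hy₃w]
        abel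
      simp only [hB, LinearMap.comp_apply, LinearMap.sub_apply, LinearEquiv.coe_coe, apEquiv_apply,
        LinearMap.id_apply, h1, add_sub_cancel_left, con_pt, hω, one_smul] at h0
      simp only [hl, hy₃y, zero_smul, mul_zero, add_zero, zero_sub] at h0
      rw [neg_smul, div_eq_inv_mul, ← smul_smul, ← h0, smul_neg, neg_neg, inv_smul_smul₀ hy₃]
    set κ := -(θ / f₂ y₃ y₃)
    have key : ∀ u, ap g (pt e P u y) = pt e P (ap G u) (ψ y + κ • w') := fun u => by
      rw [hform y hy, hR, pt_smul_left, ← pt_smul_right, ← pt_add_right]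
    have h0 : ψ y = ψ y + κ • w' := by
      conv_lhs => rw [← hψy, key, conr_pt, hα, one_smul]
    intro u
    rw [key, ← h0]
  intro y hy u
  rw [hψy]
  have h := hg₂.eq_zero_of_iso_perp (by rw [Fintype.card_fin]; exact hT.pos₂) hw hw0
    (L := (apEquiv g).toLinearMap.comp (ptr e P u) - (ptr e P (ap G u)).comp ψ)
    (fun x hx hxx => by
      simp [hiso x hx hxx u]) hy
  simpa [sub_eq_zero] using h

/-- An element mapping a slice into a slice lies in the stabiliser. -/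
theorem mem_of_slice_map {g : GL ι F} (hg : g ∈ M) {w w' : Fin n₂ → F} (hw : f₂ w w = 0)
    (hw0 : w ≠ 0) (hw' : f₂ w' w' = 0) (hw'0 : w' ≠ 0)
    (hmap : ∀ u, ap g (pt e P u w) ∈ slice e P w') :
    g ∈ Cfsg.Geo.tensorProductSubgroup n₁ n₂ e P := by
  have hp := hT.pos₁
  have hg₁ := hT.sym₁
  have hg₂ := hT.sym₂
  obtain ⟨ω, -, hω⟩ := exists_functional_eq_one
    (U := (⊥ : Submodule F (Fin n₂ → F))) (x := w') (by simpa using hw'0)
  set G₀ := (con e P ω).comp ((apEquiv g).toLinearMap.comp (ptl e P w)) with hG₀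
  have hG₁ : ∀ u, ap g (pt e P u w) = pt e P (G₀ u) w' := by
    intro u
    obtain ⟨u', hu'⟩ := hmap u
    simp only [ptl_apply] at hu'
    simp [hG₀, ← hu', hω]
  have hGinj : Function.Injective G₀ := by
    intro u u' h
    exact pt_inj_left e P hw0 (ap_injective g (by rw [hG₁, hG₁, h]))
  let G : GL (Fin n₁) F :=
    ofEquiv (LinearEquiv.ofBijective G₀ ⟨hGinj, LinearMap.injective_iff_surjective.mp hGinj⟩)
  have hG : ∀ u, ap g (pt e P u w) = pt e P (ap G u) w' := fun u => by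
    rw [hG₁, ap_ofEquiv]; rfl
  set u₀ : Fin n₁ → F := Pi.single ⟨0, by omega⟩ 1 with hu₀
  have hu₀0 : ap G u₀ ≠ 0 := ap_ne_zero G fun h => by
    simpa [hu₀] using congrFun h ⟨0, by omega⟩
  obtain ⟨α, -, hα⟩ := exists_functional_eq_one
    (U := (⊥ : Submodule F (Fin n₁ → F))) (x := ap G u₀) (by simpa using hu₀0)
  set ψ := (conr e P α).comp ((apEquiv g).toLinearMap.comp (ptr e P u₀)) with hψ
  have h1 : ∀ y, f₂ y w = 0 → ∀ u, ap g (pt e P u y) = pt e P (ap G u) (ψ y) :=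
    hT.map_perp hM hg hw hw0 hw' hw'0 hG hα
  -- an isotropic vector orthogonal to `w` outside its line
  obtain ⟨y, hy, hy0, hyy, w₁, hw₁⟩ : ∃ y, f₂ y w = 0 ∧ y ≠ 0 ∧ f₂ y y = 0 ∧
      ∃ w₁, f₂ w₁ y = 0 ∧ f₂ w₁ w ≠ 0 := by
    obtain ⟨w₁, hw₁, hww₁⟩ := hg₂.exists_hyp hw hw0
    obtain ⟨v, hv, hv0, hvv⟩ := Orth.exists_singular (Q := hg₂.sq) hT.two_ne
      (W := LinearMap.ker ((hg₂.fl w).prod (hg₂.fl w₁))) (by
        have h3 := ((hg₂.fl w).prod (hg₂.fl w₁)).finrank_range_add_finrank_ker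
        have h4 := Submodule.finrank_le (LinearMap.range ((hg₂.fl w).prod (hg₂.fl w₁)))
        have h5 := hT.pos₂
        rw [Module.finrank_prod, Module.finrank_self] at h4
        rw [Module.finrank_fin_fun] at h3
        omega)
    obtain ⟨hvw, hvw₁⟩ : f₂ v w = 0 ∧ f₂ v w₁ = 0 := by simpa using hv
    exact ⟨v, hvw, hv0, hg₂.sq_eq_zero.mp hvv, w₁, by rw [hg₂.symm, hvw₁],
      by rw [hg₂.symm, hww₁]; exact one_ne_zero⟩
  obtain ⟨hzy, hzw⟩ := hw₁
  set z := w₁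
  obtain ⟨ua, hua0, hua⟩ : ∃ ua, ua ≠ 0 ∧ f₁ ua ua ≠ 0 := by
    obtain ⟨x, hx0, hx⟩ := hg₁.exists_isotropic (by rw [Fintype.card_fin]; exact hT.pos₁)
    obtain ⟨v, -, hv⟩ := hg₁.exists_aniso_perp (by rw [Fintype.card_fin]; exact hT.pos₁) hx hx0
    exact ⟨v, fun h => hv (by rw [h, hg₁.zero_left]), hv⟩
  have hψy0 : ψ y ≠ 0 := fun h => by
    have := h1 y hy u₀
    rw [h, pt_zero_right, ← ap_zero g] at this
    exact pt_ne_zero e P (fun hu => hu₀0 (by rw [hu, ap_zero])) hy0 (ap_injective g this)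
  have hψy : f₂ (ψ y) (ψ y) = 0 := by
    have h := Orth.polar_ap (hM.le_isom hg) (pt e P (ap G⁻¹ ua) y) (pt e P (ap G⁻¹ ua) y)
    rw [h1 y hy, ap_ap_inv, hT.polar_pt, hT.polar_pt, hyy, mul_zero, mul_zero] at h
    simpa [hT.c_ne, hua] using h
  have h2 : ∀ u, ap g (pt e P u z) = pt e P (ap G u) (ψ z) :=
    hT.map_perp hM hg hyy hy0 hψy hψy0 (h1 y hy) hα z hzy
  have hall : ∀ u v, ap g (pt e P u v) = pt e P (ap G u) (ψ v) := by
    intro u v
    set s := f₂ v w / f₂ z w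
    have hv : f₂ (v - s • z) w = 0 := by
      rw [hg₂.sub_left, hg₂.smul_left, div_mul_cancel₀ _ hzw, sub_self]
    conv_lhs => rw [show v = (v - s • z) + s • z by abel, pt_add_right, pt_smul_right, ap_add,
      ap_smul, h1 _ hv, h2, ← pt_smul_right, ← pt_add_right, ← map_smul, ← map_add,
      sub_add_cancel]
  have hψinj : Function.Injective ψ := by
    intro v v' h
    exact pt_inj_right e P (fun hu => hu₀0 (by rw [hu, ap_zero]))
      (ap_injective g (by rw [hall, hall, h]) : pt e P u₀ v = pt e P u₀ v')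
  let Ψ : GL (Fin n₂) F :=
    ofEquiv (LinearEquiv.ofBijective ψ ⟨hψinj, LinearMap.injective_iff_surjective.mp hψinj⟩)
  have hΨ : ∀ y, ap Ψ y = ψ y := fun y => by rw [ap_ofEquiv]; rfl
  exact (mem_iff e P g).mpr ⟨G, Ψ, fun x y => by rw [hΨ]; exact hall x y⟩

end OTensor

end CfsgLib.Geometric.OrthTensor
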