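import Cfsg.Agent.Lib.Geometric.OrthTensorMax.Descent

/-!
For odd degrees differing by two or more a proper overgroup of the stabiliser of an orthogonal tensor
product lies in the stabiliser.
-/

namespace CfsgLib.Geometric.OrthTensor

open Matrix QuadraticMap Tensor

set_option linter.unusedSectionVars false
set_option linter.unusedVariables false

variable {ι : Type} [Fintype ι] [DecidableEq ι] {F : Type*} [Field F]
variable {Q : QuadraticForm F (ι → F)} {n₁ n₂ : ℕ} {e : ι ≃ Fin n₁ × Fin n₂} {P : GL ι F}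
  {f₁ : (Fin n₁ → F) → (Fin n₁ → F) → F} {f₂ : (Fin n₂ → F) → (Fin n₂ → F) → F} {c : F}

variable (e P) in
/-- The vectors whose slice `g` carries factorwise by `G` into a slice. -/
def mapped (g : GL ι F) (G : (Fin n₁ → F) →ₗ[F] (Fin n₁ → F)) : Submodule F (Fin n₂ → F) where
  carrier := {z | ∃ v, ∀ u, ap g (pt e P u z) = pt e P (G u) v}
  add_mem' := fun ⟨v, hv⟩ ⟨v', hv'⟩ =>
    ⟨v + v', fun u => by rw [pt_add_right, ap_add, hv, hv', ← pt_add_right]⟩
  zero_mem' := ⟨0, fun u => by rw [pt_zero_right, ap_zero, pt_zero_right]⟩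
  smul_mem' t _ := fun ⟨v, hv⟩ =>
    ⟨t • v, fun u => by rw [pt_smul_right, ap_smul, hv, ← pt_smul_right]⟩

namespace OTensor

variable (hT : OTensor Q e P f₁ f₂ c) {M : Subgroup (GL ι F)} [Finite F] (hM : hT.Small M)
include hT

omit [Finite F] in
/-- An invertible map carrying a slice into a slice carries it onto it. -/
lemma slice_back {g : GL ι F} {z v : Fin n₂ → F} (hz : z ≠ 0) (hv : v ≠ 0)
    (h : ∀ u, ap g (pt e P u z) ∈ slice e P v) (u : Fin n₁ → F) :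
    ap g⁻¹ (pt e P u v) ∈ slice e P z := by
  have hle : (slice e P z).map (apEquiv g).toLinearMap ≤ slice e P v := by
    rintro _ ⟨_, ⟨a, rfl⟩, rfl⟩
    exact h a
  have heq := Submodule.eq_of_le_of_finrank_eq hle (by
    rw [LinearEquiv.finrank_map_eq]
    exact (LinearMap.finrank_range_of_inj (hT.ptl_injective hz)).trans
      (LinearMap.finrank_range_of_inj (hT.ptl_injective hv)).symm)
  obtain ⟨x, hx, hxe⟩ := heq.symm ▸ pt_mem_slice e P u v
  have hxe' : ap g x = pt e P u v := hxe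
  rwa [← hxe', ap_inv_ap]

/-- A Siegel pair orthogonal to two vectors. -/
lemma exists_xs_perp (a b : Fin n₂ → F) : ∃ w y : Fin n₂ → F, f₂ w w = 0 ∧ f₂ w y = 0 ∧ w ≠ 0 ∧
    y ∉ Submodule.span F {w} ∧ f₂ w a = 0 ∧ f₂ w b = 0 ∧ f₂ y a = 0 ∧ f₂ y b = 0 := by
  have hg := hT.sym₂
  set K := LinearMap.ker ((hg.fl a).prod (hg.fl b)) with hK
  have hKd : 3 ≤ Module.finrank F K := by
    have h3 := ((hg.fl a).prod (hg.fl b)).finrank_range_add_finrank_ker
    have h4 := Submodule.finrank_le (LinearMap.range ((hg.fl a).prod (hg.fl b)))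
    have := hT.pos₂
    rw [Module.finrank_prod, Module.finrank_self] at h4
    rw [Module.finrank_fin_fun] at h3
    rw [hK]
    omega
  obtain ⟨w, hw, hw0, hww⟩ := Orth.exists_singular (Q := hg.sq) hT.two_ne hKd
  have h1 := Orth.finrank_le_inf_ker K (hg.fl w)
  have hnle : ¬ K ⊓ LinearMap.ker (hg.fl w) ≤ Submodule.span F {w} := fun h => by
    have h2 := Submodule.finrank_mono h
    rw [finrank_span_singleton hw0] at h2
    omega
  obtain ⟨y, hy, hyn⟩ := SetLike.not_le_iff_exists.mp hnle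
  obtain ⟨hwa, hwb⟩ : f₂ w a = 0 ∧ f₂ w b = 0 := by simpa [hK] using hw
  obtain ⟨hy', hyw⟩ := hy
  obtain ⟨hya, hyb⟩ : f₂ y a = 0 ∧ f₂ y b = 0 := by simpa [hK] using hy'
  exact ⟨w, y, hg.sq_eq_zero.mp hww, hg.eq_zero_comm.mp hyw, hw0, hyn, hwa, hwb, hya, hyb⟩

include hM

/-- An element fixing the slices of two vectors exists outside the stabiliser. -/
lemma exists_fixing (h12 : n₁ < n₂) {g : GL ι F} (hg : g ∈ M)
    (hgT : g ∉ Cfsg.Geo.tensorProductSubgroup n₁ n₂ e P) {z₁ z₂ v₁ v₂ : Fin n₂ → F}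
    (h₁ : ∀ u, ap g (pt e P u z₁) ∈ slice e P v₁) (h₂ : ∀ u, ap g (pt e P u z₂) ∈ slice e P v₂) :
    ∃ τ ∈ M, τ ∉ Cfsg.Geo.tensorProductSubgroup n₁ n₂ e P ∧
      (∀ u, ap τ (pt e P u z₁) = pt e P u z₁) ∧ ∀ u, ap τ (pt e P u z₂) = pt e P u z₂ := by
  have hg₂ := hT.sym₂
  obtain ⟨w, y, hw, hy, hw0, hyn, hw1, hw2, hy1, hy2⟩ := hT.exists_xs_perp v₁ v₂
  have hfix : ∀ {z v : Fin n₂ → F}, (∀ u, ap g (pt e P u z) ∈ slice e P v) → f₂ w v = 0 →
      f₂ y v = 0 → ∀ u, ap (g⁻¹ * hT.xs w y hw hy * g) (pt e P u z) = pt e P u z := by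
    intro z v h hwv hyv u
    obtain ⟨u', hu'⟩ := h u
    rw [ptl_apply] at hu'
    rw [ap_mul, ap_mul, ← hu', hT.ap_xs_of_cc hw hy
      (by rw [cc_pt, hg₂.symm v w, hwv, zero_smul]), cc_pt, hg₂.symm v y, hyv, zero_smul,
      pt_zero_left, sub_zero, hu', ap_inv_ap]
  refine ⟨g⁻¹ * hT.xs w y hw hy * g,
    mul_mem (mul_mem (inv_mem hg) (hM.stab_le (hT.xs_mem hw hy))) hg, fun h => hgT ?_,
    hfix h₁ hw1 hy1, hfix h₂ hw2 hy2⟩
  have h' := hT.mem_of_conj_xs hM h12 (inv_mem hg) hw hw0 hy hyn (by rwa [inv_inv])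
  simpa using inv_mem h'

/-- The mapped vectors of two slices span no isotropic vector. -/
lemma aniso_pair (h12 : n₁ < n₂) {g : GL ι F} (hg : g ∈ M)
    (hgT : g ∉ Cfsg.Geo.tensorProductSubgroup n₁ n₂ e P) {z₁ z₂ v₁ v₂ : Fin n₂ → F}
    (h₁ : ∀ u, ap g (pt e P u z₁) ∈ slice e P v₁) (h₂ : ∀ u, ap g (pt e P u z₂) ∈ slice e P v₂)
    {a b : F} (h0 : a • z₁ + b • z₂ ≠ 0) : f₂ (a • z₁ + b • z₂) (a • z₁ + b • z₂) ≠ 0 := by
  intro hiso
  obtain ⟨τ, hτ, hτT, e₁, e₂⟩ := hT.exists_fixing hM h12 hg hgT h₁ h₂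
  refine hτT (hT.mem_of_slice_map hM hτ hiso h0 hiso h0 fun u => ?_)
  rw [pt_add_right, pt_smul_right, pt_smul_right, ap_add, ap_smul, ap_smul, e₁, e₂,
    ← pt_smul_right, ← pt_smul_right, ← pt_add_right]
  exact pt_mem_slice e P u _

omit hM in
/-- An element mapping a vector of an isotropic slice to a multiple keeps its line. -/
lemma keep_of_smul {k : GL ι F} {w : Fin n₂ → F} {a : Fin n₁ → F} {t : F}
    (h : ap k (pt e P a w) = t • pt e P a w) (u : Fin n₁ → F) (hu : u ∈ Submodule.span F {a}) :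
    ∃ u' ∈ Submodule.span F {a}, ap k (pt e P u w) = pt e P u' w := by
  obtain ⟨s, rfl⟩ := Submodule.mem_span_singleton.mp hu
  refine ⟨t • s • a, Submodule.smul_mem _ _ hu, ?_⟩
  rw [pt_smul_left, ap_smul, h, pt_smul_left, pt_smul_left, smul_comm]

/-- Nothing outside the stabiliser negates or fixes a totally isotropic pure tensor. -/
lemma false_of_keep (hgap : n₁ + 2 ≤ n₂) {k : GL ι F} (hk : k ∈ M)
    (hkT : k ∉ Cfsg.Geo.tensorProductSubgroup n₁ n₂ e P) {w : Fin n₂ → F} (hw : f₂ w w = 0)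
    (hw0 : w ≠ 0) {a : Fin n₁ → F} (ha0 : a ≠ 0) (ha : 6 ≤ n₂ ∨ f₁ a a = 0) {t : F}
    (h : ap k (pt e P a w) = t • pt e P a w) : False := by
  refine hT.false_of_st hM hgap hw hw0 (U := Submodule.span F {a}) ?_ ?_
    ⟨hk, hkT, hT.keep_of_smul h⟩
  · rw [finrank_span_singleton ha0]; omega
  · exact ha.imp id fun h' => Or.inr ⟨a, ha0, h', rfl⟩

/-- For every pair of isotropic vectors the contractions of the image have a non-degenerate plane
as kernel, and reflections at its good vectors come from mapped slices. -/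
lemma plane_of_not (hgap : n₁ + 2 ≤ n₂) {g : GL ι F} (hg : g ∈ M)
    (hgT : g ∉ Cfsg.Geo.tensorProductSubgroup n₁ n₂ e P) {a : Fin n₁ → F} (ha0 : a ≠ 0)
    (ha : f₁ a a = 0) {w : Fin n₂ → F} (hw : f₂ w w = 0) (hw0 : w ≠ 0) :
    ∃ K : Submodule F (Fin n₂ → F), Module.finrank F K = 2 ∧
      Cfsg.Geo.IsNondegenerateOn (polar (⇑hT.sym₂.sq)) K ∧
      ∀ v ∈ K, f₂ v v ≠ 0 → hT.xr v ∈ M →
        ∃ z, z ≠ 0 ∧ f₂ z w = 0 ∧ ∀ u, ap g (pt e P u z) ∈ slice e P v := by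
  have hg₁ := hT.sym₁
  have hg₂ := hT.sym₂
  have hgI := hM.le_isom hg
  set X := ap g (pt e P a w) with hX
  set K := LinearMap.ker (hT.ccl X) with hK
  have hKmem : ∀ v, v ∈ K ↔ hT.cc v X = 0 := fun v => by simp [hK]
  have hKd : 2 ≤ Module.finrank F K := by
    have h3 := (hT.ccl X).finrank_range_add_finrank_ker
    have h4 := Submodule.finrank_le (LinearMap.range (hT.ccl X))
    rw [Module.finrank_fin_fun] at h4
    rw [Module.finrank_fin_fun] at h3
    rw [hK]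
    omega
  -- an isotropic kernel vector with orthogonal complement in the kernel
  have hxs : ∀ r ∈ K, f₂ r r = 0 → r ≠ 0 → ∀ y ∈ K, f₂ r y = 0 →
      y ∉ Submodule.span F {r} → False := by
    intro r hr hrr hr0 y hy hry hyn
    refine hT.false_of_keep hM hgap (k := g⁻¹ * hT.xs r y hrr hry * g)
      (mul_mem (mul_mem (inv_mem hg) (hM.stab_le (hT.xs_mem hrr hry))) hg) (fun h => hgT ?_)
      hw hw0 ha0 (Or.inr ha) (t := 1) ?_
    · have h' := hT.mem_of_conj_xs hM (by omega) (inv_mem hg) hrr hr0 hry hyn (by rwa [inv_inv])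
      simpa using inv_mem h'
    · rw [ap_mul, ap_mul, ← hX, hT.ap_xs_of_cc hrr hry ((hKmem r).mp hr), (hKmem y).mp hy,
        pt_zero_left, sub_zero, hX, ap_inv_ap, one_smul]
  have hrad : ∀ r ∈ K, f₂ r r = 0 → r ≠ 0 →
      ¬ 2 ≤ Module.finrank F ↥(K ⊓ LinearMap.ker (hg₂.fl r)) := by
    intro r hr hrr hr0 h2
    have hnle : ¬ K ⊓ LinearMap.ker (hg₂.fl r) ≤ Submodule.span F {r} := fun h => by
      have h' := Submodule.finrank_mono h
      rw [finrank_span_singleton hr0] at h'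
      omega
    obtain ⟨y, hy, hyn⟩ := SetLike.not_le_iff_exists.mp hnle
    exact hxs r hr hrr hr0 y hy.1 (hg₂.eq_zero_comm.mp hy.2) hyn
  have hK2 : Module.finrank F K = 2 := by
    by_contra hne
    obtain ⟨r, hr, hr0, hrr⟩ := Orth.exists_singular (Q := hg₂.sq) hT.two_ne (W := K) (by omega)
    have h1 := Orth.finrank_le_inf_ker K (hg₂.fl r)
    exact hrad r hr (hg₂.sq_eq_zero.mp hrr) hr0 (by omega)
  have hKn : Cfsg.Geo.IsNondegenerateOn (polar (⇑hg₂.sq)) K := by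
    intro x hx hx0
    obtain ⟨y, hy, hxy⟩ : ∃ y ∈ K, f₂ x y ≠ 0 := by
      by_contra hc
      push Not at hc
      refine hrad x hx (hc x hx) hx0 ?_
      rw [inf_eq_left.mpr fun y hy => hg₂.eq_zero_comm.mp (hc y hy)]
      omega
    exact ⟨⟨y, hy, by rw [hg₂.polar_sq, hg₂.symm]; exact hxy⟩,
      ⟨y, hy, by rw [hg₂.polar_sq]; exact hxy⟩⟩
  refine ⟨K, hK2, hKn, fun v hv hvv hxr => ?_⟩
  by_cases hkT : g⁻¹ * hT.xr v * g ∈ Cfsg.Geo.tensorProductSubgroup n₁ n₂ e P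
  · obtain ⟨z, hzz, hmap⟩ := hT.exists_slice_of_conj_xr hM (by omega) hg hvv hkT
    refine ⟨z, fun h => hzz (by rw [h, hg₂.zero_left]), ?_, hmap⟩
    obtain ⟨a', ha'⟩ := hg₁.exists_one ha0
    obtain ⟨u', hu'⟩ := hmap a'
    rw [ptl_apply] at hu'
    have h := Orth.polar_ap hgI (pt e P a' z) (pt e P a w)
    rw [← hu', hT.polar_left, ← hX, (hKmem v).mp hv, hg₁.zero_left, mul_zero, hT.polar_pt, ha',
      one_mul] at h
    exact (mul_eq_zero.mp h.symm).resolve_left hT.c_ne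
  · refine (hT.false_of_keep hM hgap (mul_mem (mul_mem (inv_mem hg) hxr) hg) hkT hw hw0 ha0
      (Or.inr ha) (t := -1) ?_).elim
    rw [ap_mul, ap_mul, ← hX, hT.ap_xr hvv, (hKmem v).mp hv, pt_zero_left, smul_zero, add_zero,
      ← neg_one_smul F X, ap_smul, hX, ap_inv_ap]

/-- For second degree six or more. -/
theorem false_of_six (hgap : n₁ + 2 ≤ n₂) (h1o : Odd n₁) (h6 : 6 ≤ n₂) (h2o : Odd n₂)
    {g : GL ι F} (hg : g ∈ M) (hgT : g ∉ Cfsg.Geo.tensorProductSubgroup n₁ n₂ e P) : False := by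
  classical
  have hg₁ := hT.sym₁
  have hg₂ := hT.sym₂
  obtain ⟨ε, hε, hgood⟩ := hT.exists_good hM h2o
  obtain ⟨a, ha0, ha⟩ := hg₁.exists_isotropic (by rw [Fintype.card_fin]; exact hT.pos₁)
  obtain ⟨w₀, hw₀0, hw₀⟩ := hg₂.exists_isotropic (by rw [Fintype.card_fin]; omega)
  obtain ⟨K, hKd, hKn, hK⟩ := hT.plane_of_not hM hgap hg hgT ha0 ha hw₀ hw₀0
  obtain ⟨v, hv, hQv⟩ := Orth.exists_value_in hT.two_ne hKn hKd.ge ((2 : F)⁻¹ * ε)
  have hvv : f₂ v v = ε := mul_left_cancel₀ (inv_ne_zero hT.two_ne) hQv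
  obtain ⟨z, hz0, -, hmap⟩ := hK v hv (by rw [hvv]; exact hε)
    (hgood v 1 one_ne_zero (by rw [hvv, mul_one, mul_one]))
  have hzz : f₂ z z ≠ 0 := by
    have h := hT.aniso_pair hM (by omega) hg hgT (z₁ := z) (z₂ := z) hmap hmap (a := 1) (b := 0)
    rw [one_smul, zero_smul, add_zero] at h
    exact h hz0
  obtain ⟨τ, hτ, hτT, hfix, -⟩ := hT.exists_fixing hM (by omega) hg hgT hmap hmap
  -- a Siegel pair orthogonal to `z`
  set K₁ := LinearMap.ker (hg₂.fl z) with hK₁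
  have hK₁d : n₂ ≤ Module.finrank F K₁ + 1 := by
    have h := Orth.finrank_le_inf_ker (⊤ : Submodule F (Fin n₂ → F)) (hg₂.fl z)
    rwa [top_inf_eq, finrank_top, Module.finrank_fin_fun] at h
  obtain ⟨w, hwK, hw0, hww⟩ := Orth.exists_singular (Q := hg₂.sq) hT.two_ne (W := K₁) (by omega)
  have hw := hg₂.sq_eq_zero.mp hww
  have hwz : f₂ w z = 0 := hwK
  obtain ⟨w', hw', hww'⟩ := hg₂.exists_hyp hw hw0
  set K₂ := K₁ ⊓ LinearMap.ker (hg₂.fl w) ⊓ LinearMap.ker (hg₂.fl w') with hK₂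
  obtain ⟨y, hy, hy0, hyy⟩ := Orth.exists_singular (Q := hg₂.sq) hT.two_ne (W := K₂) (by
    have h1 := Orth.finrank_le_inf_ker K₁ (hg₂.fl w)
    have h2 := Orth.finrank_le_inf_ker (K₁ ⊓ LinearMap.ker (hg₂.fl w)) (hg₂.fl w')
    rw [hK₂]
    omega)
  have hyy' := hg₂.sq_eq_zero.mp hyy
  obtain ⟨⟨hyz, hyw⟩, hyw'⟩ : (f₂ y z = 0 ∧ f₂ y w = 0) ∧ f₂ y w' = 0 := hy
  have hwy : f₂ w y = 0 := hg₂.eq_zero_comm.mp hyw
  have hyn : y ∉ Submodule.span F {w} := fun h => by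
    obtain ⟨t, rfl⟩ := Submodule.mem_span_singleton.mp h
    rw [hg₂.smul_left, hww', mul_one] at hyw'
    exact hy0 (by rw [hyw', zero_smul])
  set k := τ * hT.xs w y hw hwy * τ⁻¹ with hk
  have hkM : k ∈ M := mul_mem (mul_mem hτ (hM.stab_le (hT.xs_mem hw hwy))) (inv_mem hτ)
  have hkT : k ∉ Cfsg.Geo.tensorProductSubgroup n₁ n₂ e P := fun h =>
    hτT (hT.mem_of_conj_xs hM (by omega) hτ hw hw0 hwy hyn h)
  have hfix' : ∀ u, ap τ⁻¹ (pt e P u z) = pt e P u z := fun u => ap_injective τ (by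
    rw [ap_ap_inv, hfix])
  have hkz : ∀ u, ap k (pt e P u z) = pt e P u z := fun u => by
    rw [hk, ap_mul, ap_mul, hfix', hT.ap_xs_of_cc hw hwy
      (by rw [cc_pt, hg₂.symm z w, hwz, zero_smul]), cc_pt, hg₂.symm z y, hyz, zero_smul,
      pt_zero_left, sub_zero, hfix]
  have hkI := hM.le_isom hkM
  -- the alternating form of odd degree
  let C : (Fin n₁ → F) →ₗ[F] (Fin n₁ → F) :=
    (hT.cc w).comp ((apEquiv k).toLinearMap.comp (ptl e P w))
  have halt : ∀ b b', f₁ (C b) b' = -f₁ (C b') b := by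
    intro b b'
    have hτI := hM.le_isom hτ
    have key : ∀ b b', c * f₁ (C b) b' =
        c * (f₁ (hT.cc y (ap τ⁻¹ (pt e P b' w))) (hT.cc w (ap τ⁻¹ (pt e P b w))) -
          f₁ (hT.cc w (ap τ⁻¹ (pt e P b' w))) (hT.cc y (ap τ⁻¹ (pt e P b w)))) := by
      intro b b'
      show c * f₁ (hT.cc w (ap k (pt e P b w))) b' = _
      rw [← hT.polar_right, hk, ap_mul, ap_mul]
      have hb : pt e P b' w = ap τ (ap τ⁻¹ (pt e P b' w)) := (ap_ap_inv τ _).symm
      conv_lhs => rw [hb]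
      rw [Orth.polar_ap hτI, hT.ap_xs, polar_sub_left, polar_add_left, hT.polar_left,
        hT.polar_left, Orth.polar_ap (inv_mem hτI), hT.polar_pt, hw, hyy']
      simp only [mul_zero, zero_smul, add_zero]
      ring
    refine mul_left_cancel₀ hT.c_ne ?_
    rw [mul_neg, key, key, hg₁.symm (hT.cc y (ap τ⁻¹ (pt e P b' w))),
      hg₁.symm (hT.cc w (ap τ⁻¹ (pt e P b' w)))]
    ring
  obtain ⟨b, hb0, hb⟩ : ∃ b, b ≠ 0 ∧ C b = 0 := by
    by_contra hc
    push Not at hc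
    let B : Matrix (Fin n₁) (Fin n₁) F :=
      fun i j => f₁ (C (Pi.single i 1)) (Pi.single j 1)
    have hsum : ∀ x v, f₁ (C x) v = x ⬝ᵥ (B *ᵥ v) := by
      intro x v
      let Bf : (Fin n₁ → F) →ₗ[F] (Fin n₁ → F) →ₗ[F] F := LinearMap.mk₂ F (fun x v => f₁ (C x) v)
        (fun x x' v => by rw [map_add, hg₁.add_left])
        (fun t x v => by rw [map_smul, hg₁.smul_left, smul_eq_mul])
        (fun x v v' => hg₁.add_right _ _ _)
        (fun t x v => by rw [hg₁.smul_right, smul_eq_mul])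
      show Bf x v = _
      conv_lhs => rw [← Matrix.toLinearMap₂'_toMatrix' (R := F) Bf]
      rw [Matrix.toLinearMap₂'_apply']
      rfl
    have hBT : Bᵀ = -B := by
      ext i j
      exact halt (Pi.single j 1) (Pi.single i 1)
    have hdet : B.det = 0 := by
      have h := congrArg Matrix.det hBT
      rw [Matrix.det_transpose, Matrix.det_neg, Fintype.card_fin, h1o.neg_one_pow, neg_one_mul] at h
      have h' : 2 * B.det = 0 := by linear_combination h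
      exact (mul_eq_zero.mp h').resolve_left hT.two_ne
    obtain ⟨x, hx0, hx⟩ := Matrix.exists_vecMul_eq_zero_iff.mpr hdet
    exact hc x hx0 (hg₁.eq_of_forall fun v => by
      rw [hsum, Matrix.dotProduct_mulVec, hx, zero_dotProduct, hg₁.zero_left])
  -- the vector is kept by a commutator
  have hbz : hT.cc z (ap k (pt e P b w)) = 0 := hg₁.eq_of_forall fun u => by
    have h := hT.cc_ap hkI (hkz u) (pt e P b w)
    rw [h, cc_pt, hwz, zero_smul]
  have hzn : z ∉ Submodule.span F {w} := fun h => by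
    obtain ⟨t, rfl⟩ := Submodule.mem_span_singleton.mp h
    exact hzz (by rw [hg₂.smul_left, hg₂.smul_right, hw, mul_zero, mul_zero])
  obtain ⟨g', hg'⟩ := hT.exists_more hM (by omega) (U := ⊥) hkM hkT
    (fun u hu => ⟨0, zero_mem _, by rw [(Submodule.mem_bot F).mp hu, pt_zero_left, ap_zero]⟩)
    hw hw0 (a := b) hb hwz hzn (by rw [hbz]; exact zero_mem _)
  refine hT.false_of_st hM hgap hw hw0 ?_ (Or.inl h6) hg'
  rw [bot_sup_eq, finrank_span_singleton hb0]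
  omega

omit hM in
lemma exists_mapped {g : GL ι F} {z v : Fin n₂ → F} (hv : v ≠ 0)
    (h : ∀ u, ap g (pt e P u z) ∈ slice e P v) :
    ∃ G : (Fin n₁ → F) →ₗ[F] (Fin n₁ → F), ∀ u, ap g (pt e P u z) = pt e P (G u) v := by
  obtain ⟨ω, -, hω⟩ := exists_functional_eq_one
    (U := (⊥ : Submodule F (Fin n₂ → F))) (x := v) (by simpa using hv)
  refine ⟨(con e P ω).comp ((apEquiv g).toLinearMap.comp (ptl e P z)), fun u => ?_⟩
  obtain ⟨u', hu'⟩ := h u
  rw [ptl_apply] at hu'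
  simp [← hu', hω]

omit hM in
lemma mapped_surjective {g : GL ι F} {G : (Fin n₁ → F) →ₗ[F] (Fin n₁ → F)} {z v : Fin n₂ → F}
    (hz : z ≠ 0) (h : ∀ u, ap g (pt e P u z) = pt e P (G u) v) : Function.Surjective G :=
  LinearMap.injective_iff_surjective.mp fun u u' huu =>
    pt_inj_left e P hz (ap_injective g (by rw [h, h, huu]))

/-- Mapped vectors with non-zero product share the map. -/
lemma mem_mapped {g : GL ι F} (hg : g ∈ M) {G G' : (Fin n₁ → F) →ₗ[F] (Fin n₁ → F)}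
    {z z' : Fin n₂ → F} (hz : z ∈ mapped e P g G) (hz' : z' ∈ mapped e P g G')
    (hzz : f₂ z z ≠ 0) (hne : f₂ z z' ≠ 0) : z' ∈ mapped e P g G := by
  have hg₁ := hT.sym₁
  have hg₂ := hT.sym₂
  obtain ⟨v, hv⟩ := hz
  obtain ⟨v', hv'⟩ := hz'
  have hpair : ∀ {G₀ : (Fin n₁ → F) →ₗ[F] (Fin n₁ → F)} {z₀ v₀ : Fin n₂ → F},
      (∀ u, ap g (pt e P u z₀) = pt e P (G₀ u) v₀) → ∀ u u',
      f₁ (G u) (G₀ u') * f₂ v v₀ = f₁ u u' * f₂ z z₀ := by
    intro G₀ z₀ v₀ h₀ u u'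
    have h := Orth.polar_ap (hM.le_isom hg) (pt e P u z) (pt e P u' z₀)
    rw [hv, h₀, hT.polar_pt, hT.polar_pt] at h
    exact mul_left_cancel₀ hT.c_ne h
  have hsurj := hT.mapped_surjective (fun h => hzz (by rw [h, hg₂.zero_left])) hv
  have hG' : ∀ u', (f₂ v v' / f₂ z z') • G' u' = (f₂ v v / f₂ z z) • G u' := fun u' =>
    hg₁.eq_of_forall fun b => by
      obtain ⟨u, rfl⟩ := hsurj b
      rw [hg₁.smul_left, hg₁.smul_left, hg₁.symm _ (G u), hg₁.symm (G u') (G u)]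
      have h1 := hpair hv' u u'
      have h2 := hpair hv u u'
      field_simp
      linear_combination f₂ z z * h1 - f₂ z z' * h2
  have hvv' : f₂ v v' / f₂ z z' ≠ 0 := by
    refine div_ne_zero (fun h0 => ?_) hne
    obtain ⟨u₀, hu₀⟩ := Function.ne_iff.mp (show (fun _ : Fin n₁ => (1 : F)) ≠ 0 from fun h => by
      have := hT.pos₁
      simpa using congrFun h ⟨0, by omega⟩)
    obtain ⟨u', hu'⟩ := hg₁.exists_one (x := fun _ : Fin n₁ => (1 : F))
      (Function.ne_iff.mpr ⟨u₀, hu₀⟩)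
    have h := hpair hv' u' (fun _ => 1)
    rw [h0, mul_zero, hu', one_mul] at h
    exact hne h.symm
  refine ⟨((f₂ v v' / f₂ z z')⁻¹ * (f₂ v v / f₂ z z)) • v', fun u => ?_⟩
  rw [hv', pt_smul_right, ← pt_smul_left, mul_smul, ← hG', inv_smul_smul₀ hvv']

/-- A class of mapped vectors has no isotropic one. -/
lemma mapped_aniso {g : GL ι F} (hg : g ∈ M)
    (hgT : g ∉ Cfsg.Geo.tensorProductSubgroup n₁ n₂ e P)
    {G : (Fin n₁ → F) →ₗ[F] (Fin n₁ → F)} {z : Fin n₂ → F} (hz : z ∈ mapped e P g G)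
    (hz0 : z ≠ 0) : f₂ z z ≠ 0 := by
  intro h0
  have hg₁ := hT.sym₁
  obtain ⟨v, hv⟩ := hz
  obtain ⟨u₀, hu₀0, hu₀⟩ := hg₁.exists_isotropic (by rw [Fintype.card_fin]; exact hT.pos₁)
  obtain ⟨d, -, hd⟩ := hg₁.exists_aniso_perp (by rw [Fintype.card_fin]; exact hT.pos₁) hu₀ hu₀0
  obtain ⟨u, rfl⟩ := hT.mapped_surjective hz0 hv d
  have hv0 : v ≠ 0 := fun h => by
    have h' := hv u₀
    rw [h, pt_zero_right, ← ap_zero g] at h'
    exact pt_ne_zero e P hu₀0 hz0 (ap_injective g h')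
  have hvv : f₂ v v = 0 := by
    have h := Orth.polar_ap (hM.le_isom hg) (pt e P u z) (pt e P u z)
    rw [hv, hT.polar_pt, hT.polar_pt, h0, mul_zero, mul_zero, mul_eq_zero] at h
    exact (mul_eq_zero.mp (h.resolve_left hT.c_ne)).resolve_left hd
  exact hgT (hT.mem_of_slice_map hM hg h0 hz0 hvv hv0 fun u => by
    rw [hv]; exact pt_mem_slice e P _ _)

lemma finrank_mapped_le {g : GL ι F} (hg : g ∈ M)
    (hgT : g ∉ Cfsg.Geo.tensorProductSubgroup n₁ n₂ e P)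
    (G : (Fin n₁ → F) →ₗ[F] (Fin n₁ → F)) : Module.finrank F (mapped e P g G) ≤ 2 := by
  by_contra h
  obtain ⟨z, hz, hz0, hzz⟩ := Orth.exists_singular (Q := hT.sym₂.sq) hT.two_ne
    (W := mapped e P g G) (by omega)
  exact hT.mapped_aniso hM hg hgT hz hz0 (hT.sym₂.sq_eq_zero.mp hzz)

/-- Two classes of mapped vectors are orthogonal or nested. -/
lemma le_or_perp {g : GL ι F} (hg : g ∈ M) (hgT : g ∉ Cfsg.Geo.tensorProductSubgroup n₁ n₂ e P)
    (G G' : (Fin n₁ → F) →ₗ[F] (Fin n₁ → F)) : mapped e P g G' ≤ mapped e P g G ∨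
      ∀ z ∈ mapped e P g G, ∀ z' ∈ mapped e P g G', f₂ z z' = 0 := by
  refine or_iff_not_imp_right.mpr fun h => ?_
  push Not at h
  obtain ⟨z, hz, z', hz', hne⟩ := h
  have hg₂ := hT.sym₂
  have hzz := hT.mapped_aniso hM hg hgT hz fun h => hne (by rw [h, hg₂.zero_left])
  have hz'G := hT.mem_mapped hM hg hz hz' hzz hne
  have hz'z' := hT.mapped_aniso hM hg hgT hz' fun h => hne (by rw [h, hg₂.zero_right])
  intro x hx
  by_cases hx' : f₂ z' x = 0
  · have h := hT.mem_mapped hM hg hz'G (Submodule.add_mem _ hx hz') hz'z'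
      (by rwa [hg₂.add_right, hx', zero_add])
    simpa using Submodule.sub_mem _ h hz'G
  · exact hT.mem_mapped hM hg hz'G hx hz'z' hx'

/-- For each isotropic vector a plane of one class of mapped vectors is orthogonal to it. -/
lemma exists_mapped_plane (hgap : n₁ + 2 ≤ n₂) (h2o : Odd n₂)
    (hq : ∃ t : F, t ≠ 0 ∧ t * t ≠ 1) {g : GL ι F} (hg : g ∈ M)
    (hgT : g ∉ Cfsg.Geo.tensorProductSubgroup n₁ n₂ e P) {w : Fin n₂ → F} (hw : f₂ w w = 0)
    (hw0 : w ≠ 0) :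
    ∃ G, Module.finrank F (mapped e P g G) = 2 ∧ ∀ z ∈ mapped e P g G, f₂ z w = 0 := by
  classical
  have hg₁ := hT.sym₁
  have hg₂ := hT.sym₂
  have h2 := hT.two_ne
  obtain ⟨ε, hε, hgood⟩ := hT.exists_good hM h2o
  obtain ⟨a, ha0, ha⟩ := hg₁.exists_isotropic (by rw [Fintype.card_fin]; exact hT.pos₁)
  obtain ⟨K, hKd, hKn, hK⟩ := hT.plane_of_not hM hgap hg hgT ha0 ha hw hw0
  obtain ⟨v₁, hv₁, hQv₁⟩ := Orth.exists_value_in h2 hKn hKd.ge ((2 : F)⁻¹ * ε)
  have hv₁v₁ : f₂ v₁ v₁ = ε := mul_left_cancel₀ (inv_ne_zero h2) hQv₁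
  obtain ⟨v', hv', hv'0⟩ := Submodule.exists_mem_ne_zero_of_ne_bot
    (show K ⊓ LinearMap.ker (hg₂.fl v₁) ≠ ⊥ from fun h => by
      have h' := Orth.finrank_le_inf_ker K (hg₂.fl v₁)
      rw [h, finrank_bot] at h'
      omega)
  obtain ⟨hv'K, hv'v₁⟩ : v' ∈ K ∧ f₂ v' v₁ = 0 := hv'
  have hv₁v' : f₂ v₁ v' = 0 := hg₂.eq_zero_comm.mp hv'v₁
  obtain ⟨m, hm⟩ : ∃ m, f₂ v' v' = m * ε := ⟨f₂ v' v' / ε, (div_mul_cancel₀ _ hε).symm⟩
  -- two good vectors
  have hgoodv : ∀ v ∈ K, ∀ r : F, r ≠ 0 → f₂ v v = ε * (r * r) →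
      ∃ z, z ≠ 0 ∧ f₂ z w = 0 ∧ (∀ u, ap g (pt e P u z) ∈ slice e P v) :=
    fun v hv r hr hvv => hK v hv (by rw [hvv]; exact mul_ne_zero hε (mul_ne_zero hr hr))
      (hgood v r hr hvv)
  obtain ⟨z₁, hz₁0, hz₁w, hmap₁⟩ := hgoodv v₁ hv₁ 1 one_ne_zero (by rw [hv₁v₁, mul_one, mul_one])
  have hv₁0 : v₁ ≠ 0 := fun h => hε (by rw [← hv₁v₁, h, hg₂.zero_left])
  have horth : ∀ i : F, i * i = -1 → ∀ v ∈ K, f₂ v₁ v = 0 → f₂ v v = ε → False := by
    intro i hi v hv h1v hvv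
    obtain ⟨z, hz0, -, hmap⟩ := hgoodv v hv 1 one_ne_zero (by rw [hvv, mul_one, mul_one])
    have hv0 : v ≠ 0 := fun h => hε (by rw [← hvv, h, hg₂.zero_left])
    refine hT.aniso_pair hM (by omega) (inv_mem hg) (fun h => hgT (inv_mem_iff.mp h))
      (hT.slice_back hz₁0 hv₁0 hmap₁) (hT.slice_back hz0 hv0 hmap) (a := 1) (b := i) ?_ ?_
    · intro h
      have h' := congrArg (fun x => f₂ x v₁) h
      simp only [hg₂.add_left, hg₂.smul_left, hg₂.zero_left, hg₂.symm v v₁, h1v, mul_zero,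
        add_zero, one_mul, hv₁v₁] at h'
      exact hε h'
    · simp only [hg₂.add_left, hg₂.add_right, hg₂.smul_left, hg₂.smul_right, hg₂.symm v v₁, h1v,
        hv₁v₁, hvv]
      linear_combination ε * hi
  obtain ⟨s, hs0, hs1, hs2⟩ : ∃ s : F, s ≠ 0 ∧ s * s ≠ m ∧ s * s ≠ -m := by
    by_contra hc
    push Not at hc
    obtain ⟨t, ht0, ht⟩ := hq
    have h1 : 1 = m ∨ 1 = -m := by
      rcases eq_or_ne (1 : F) m with h | h
      · exact Or.inl h
      · exact Or.inr (by simpa using hc 1 one_ne_zero (by simpa using h))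
    have htm : t * t = m ∨ t * t = -m := by
      rcases eq_or_ne (t * t) m with h | h
      · exact Or.inl h
      · exact Or.inr (hc t ht0 h)
    have hti : t * t = -1 := by
      rcases h1 with h1 | h1 <;> rcases htm with h | h
      · exact absurd (h.trans h1.symm) ht
      · rw [h, ← h1]
      · rw [h, h1, neg_neg]
      · exact absurd (h.trans h1.symm) ht
    rcases h1 with h1 | h1
    · exact horth t hti v' hv'K hv₁v' (by rw [hm, ← h1, one_mul])
    · refine horth t hti (t • v') (K.smul_mem _ hv'K) (by rw [hg₂.smul_right, hv₁v', mul_zero]) ?_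
      rw [hg₂.smul_left, hg₂.smul_right, hm]
      linear_combination ε * m * hti - ε * h1
  have hms : m + s * s ≠ 0 := fun h => hs2 (eq_neg_of_add_eq_zero_right h)
  set v₂ := (m - s * s) • v₁ + (2 * s) • v' with hv₂
  have hv₂K : v₂ ∈ K := K.add_mem (K.smul_mem _ hv₁) (K.smul_mem _ hv'K)
  have hv₁v₂ : f₂ v₁ v₂ = (m - s * s) * ε := by
    rw [hv₂, hg₂.add_right, hg₂.smul_right, hg₂.smul_right, hv₁v₁, hv₁v']; ring
  have hv₂v₂ : f₂ v₂ v₂ = ε * ((m + s * s) * (m + s * s)) := by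
    rw [hv₂]
    simp only [hg₂.add_left, hg₂.add_right, hg₂.smul_left, hg₂.smul_right, hv₁v₁, hv₁v', hv'v₁, hm]
    ring
  obtain ⟨z₂, hz₂0, hz₂w, hmap₂⟩ := hgoodv v₂ hv₂K (m + s * s) hms hv₂v₂
  have hv₂0 : v₂ ≠ 0 := fun h => mul_ne_zero hε (mul_ne_zero hms hms)
    (by rw [← hv₂v₂, h, hg₂.zero_left])
  obtain ⟨G, hG⟩ := hT.exists_mapped hv₁0 hmap₁
  obtain ⟨G', hG'⟩ := hT.exists_mapped hv₂0 hmap₂
  have hz₁G : z₁ ∈ mapped e P g G := ⟨v₁, hG⟩
  have hz₂G : z₂ ∈ mapped e P g G := by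
    refine hT.mem_mapped hM hg hz₁G ⟨v₂, hG'⟩ (hT.mapped_aniso hM hg hgT hz₁G hz₁0) fun h => ?_
    obtain ⟨x, hx⟩ := hg₁.exists_one ha0
    obtain ⟨u, hu⟩ := hT.mapped_surjective hz₁0 hG x
    obtain ⟨u', hu'⟩ := hT.mapped_surjective hz₂0 hG' a
    have h' := Orth.polar_ap (hM.le_isom hg) (pt e P u z₁) (pt e P u' z₂)
    rw [hG, hG', hT.polar_pt, hT.polar_pt, h, hu, hu', hx, one_mul, mul_zero, mul_zero,
      hv₁v₂] at h'
    exact mul_ne_zero hT.c_ne (mul_ne_zero (sub_ne_zero.mpr (Ne.symm hs1)) hε) h'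
  have hindep : z₂ ∉ Submodule.span F {z₁} := fun h => by
    obtain ⟨r, hr⟩ := Submodule.mem_span_singleton.mp h
    have h' := hG' a
    rw [← hr, pt_smul_right, ap_smul, hG] at h'
    have hGa : G a ≠ 0 := fun h0 => by
      have h'' := hG a
      rw [h0, pt_zero_left, ← ap_zero g] at h''
      exact pt_ne_zero e P ha0 hz₁0 (ap_injective g h'')
    obtain ⟨φ, -, hφ⟩ := exists_functional_eq_one
      (U := (⊥ : Submodule F (Fin n₁ → F))) (x := G a) (by simpa using hGa)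
    have h'' := congrArg (fun X => conr e P φ X) h'
    simp only [map_smul, conr_pt, hφ, one_smul] at h''
    have hzero : 2 * s * f₂ v' v' * φ (G' a) = 0 := by
      have h3 := congrArg (fun x => f₂ x v') h''
      simp only [hv₂, hg₂.smul_left, hg₂.add_left, hv₁v', mul_zero, zero_add] at h3
      linear_combination -h3
    have hv'v' : f₂ v' v' ≠ 0 := fun h0 => by
      obtain ⟨y, hy, hxy⟩ := (hKn v' hv'K hv'0).2
      rw [hg₂.polar_sq] at hxy
      have hsp : Submodule.span F {v₁, v'} = K := by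
        refine Submodule.eq_of_le_of_finrank_le (Submodule.span_le.mpr ?_) ?_
        · rintro x (rfl | rfl) <;> assumption
        · have hli : LinearIndependent F ![v₁, v'] := by
            refine LinearIndependent.pair_iff.mpr fun p r hpr => ?_
            have h4 := congrArg (fun x => f₂ x v₁) hpr
            simp only [hg₂.add_left, hg₂.smul_left, hv₁v₁, hv'v₁, hg₂.zero_left, mul_zero,
              add_zero] at h4
            have hp := (mul_eq_zero.mp h4).resolve_right hε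
            rw [hp, zero_smul, zero_add] at hpr
            exact ⟨hp, (smul_eq_zero.mp hpr).resolve_right hv'0⟩
          have h5 := finrank_span_eq_card hli
          rw [Fintype.card_fin, Matrix.range_cons_cons_empty] at h5
          rw [hKd, h5]
      rw [← hsp, Submodule.mem_span_pair] at hy
      obtain ⟨p, r, rfl⟩ := hy
      exact hxy (by rw [hg₂.add_right, hg₂.smul_right, hg₂.smul_right, hv'v₁, h0]; ring)
    have hφ0 : φ (G' a) = 0 :=
      (mul_eq_zero.mp hzero).resolve_left (mul_ne_zero (mul_ne_zero h2 hs0) hv'v')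
    rw [hφ0, zero_smul, smul_eq_zero] at h''
    exact hz₂0 (by rw [← hr, h''.resolve_right hv₁0, zero_smul])
  refine ⟨G, ?_, fun z hz => ?_⟩ <;>
  have hsp : Submodule.span F {z₁, z₂} = mapped e P g G := by
    refine Submodule.eq_of_le_of_finrank_le (Submodule.span_le.mpr ?_)
      ((hT.finrank_mapped_le hM hg hgT G).trans ?_)
    · rintro x (rfl | rfl) <;> assumption
    · by_contra hlt
      refine hindep ?_
      have hle : Submodule.span F {z₁} ≤ Submodule.span F {z₁, z₂} :=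
        Submodule.span_mono (by simp)
      rw [Submodule.eq_of_le_of_finrank_le hle (by rw [finrank_span_singleton hz₁0]; omega)]
      exact Submodule.subset_span (by simp)
  · rw [← hsp]
    refine le_antisymm (by rw [hsp]; exact hT.finrank_mapped_le hM hg hgT G) ?_
    by_contra hlt
    refine hindep ?_
    have hle : Submodule.span F {z₁} ≤ Submodule.span F {z₁, z₂} := Submodule.span_mono (by simp)
    rw [Submodule.eq_of_le_of_finrank_le hle (by rw [finrank_span_singleton hz₁0]; omega)]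
    exact Submodule.subset_span (by simp)
  · rw [← hsp, Submodule.mem_span_pair] at hz
    obtain ⟨p, r, rfl⟩ := hz
    rw [hg₂.add_left, hg₂.smul_left, hg₂.smul_left, hz₁w, hz₂w, mul_zero, mul_zero, add_zero]

/-- For second degree five. -/
theorem false_of_five (hgap : n₁ + 2 ≤ n₂) (h5 : n₂ = 5) (hq : ∃ t : F, t ≠ 0 ∧ t * t ≠ 1)
    {g : GL ι F} (hg : g ∈ M) (hgT : g ∉ Cfsg.Geo.tensorProductSubgroup n₁ n₂ e P) : False := by
  classical
  have hg₂ := hT.sym₂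
  have h2 := hT.two_ne
  have h2o : Odd n₂ := ⟨2, by omega⟩
  have hcard : 3 ≤ Fintype.card (Fin n₂) := by rw [Fintype.card_fin]; omega
  have haniso : ∀ G, ∀ z ∈ mapped e P g G, z ≠ 0 → f₂ z z ≠ 0 := fun G z hz hz0 =>
    hT.mapped_aniso hM hg hgT hz hz0
  have hnd : ∀ G, Cfsg.Geo.IsNondegenerateOn (polar (⇑hg₂.sq)) (mapped e P g G) :=
    fun G z hz hz0 => ⟨⟨z, hz, by rw [hg₂.polar_sq]; exact haniso G z hz hz0⟩,
      ⟨z, hz, by rw [hg₂.polar_sq]; exact haniso G z hz hz0⟩⟩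
  have hperp : ∀ G G', Module.finrank F (mapped e P g G) = 2 →
      Module.finrank F (mapped e P g G') = 2 → ∀ {w : Fin n₂ → F} {x : Fin n₂ → F},
      x ∈ mapped e P g G → f₂ x w ≠ 0 → (∀ z ∈ mapped e P g G', f₂ z w = 0) →
      ∀ z ∈ mapped e P g G, ∀ z' ∈ mapped e P g G', f₂ z z' = 0 := by
    intro G G' hd hd' w x hx hxw hw'
    refine (hT.le_or_perp hM hg hgT G G').resolve_left fun hle => ?_
    have heq := Submodule.eq_of_le_of_finrank_eq hle (by omega)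
    exact hxw (hw' x (heq.symm ▸ hx))
  obtain ⟨w₁, hw₁0, hw₁⟩ := hg₂.exists_isotropic hcard
  obtain ⟨G₁, hd₁, -⟩ := hT.exists_mapped_plane hM hgap h2o hq hg hgT hw₁ hw₁0
  obtain ⟨a, ha, ha0⟩ := Submodule.exists_mem_ne_zero_of_ne_bot
    (show mapped e P g G₁ ≠ ⊥ from fun h => by rw [h, finrank_bot] at hd₁; omega)
  obtain ⟨w₂, hw₂, hw₂a⟩ : ∃ w, f₂ w w = 0 ∧ f₂ w a ≠ 0 := by
    by_contra hc
    push Not at hc
    have h := LinearMap.congr_fun (hg₂.eq_zero_of_iso hcard (L := hg₂.fl a) hc) a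
    exact haniso G₁ a ha ha0 h
  obtain ⟨G₂, hd₂, hG₂⟩ := hT.exists_mapped_plane hM hgap h2o hq hg hgT hw₂
    fun h => hw₂a (by rw [h, hg₂.zero_left])
  have h12' := hperp G₁ G₂ hd₁ hd₂ ha (fun h => hw₂a (by rw [hg₂.symm]; exact h)) hG₂
  obtain ⟨p, hp, hQp⟩ := Orth.exists_value_in h2 (hnd G₁) hd₁.ge ((2 : F)⁻¹ * 1)
  obtain ⟨r, hr, hQr⟩ := Orth.exists_value_in h2 (hnd G₂) hd₂.ge ((2 : F)⁻¹ * -1)
  have hpp : f₂ p p = 1 := mul_left_cancel₀ (inv_ne_zero h2) hQp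
  have hrr : f₂ r r = -1 := mul_left_cancel₀ (inv_ne_zero h2) hQr
  have hpr := h12' p hp r hr
  have hw₃ : f₂ (p + r) (p + r) = 0 := by
    rw [hg₂.add_left, hg₂.add_right, hg₂.add_right, hpp, hrr, hg₂.symm r p, hpr]; ring
  have hpw : f₂ p (p + r) ≠ 0 := by rw [hg₂.add_right, hpp, hpr, add_zero]; exact one_ne_zero
  have hrw : f₂ r (p + r) ≠ 0 := by
    rw [hg₂.add_right, hrr, hg₂.symm r p, hpr, zero_add]; exact neg_ne_zero.mpr one_ne_zero
  obtain ⟨G₃, hd₃, hG₃⟩ := hT.exists_mapped_plane hM hgap h2o hq hg hgT hw₃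
    fun h => hpw (by rw [h, hg₂.zero_right])
  have h13 := hperp G₁ G₃ hd₁ hd₃ hp hpw hG₃
  have h23 := hperp G₂ G₃ hd₂ hd₃ hr hrw hG₃
  set Z₁ := mapped e P g G₁
  set Z₂ := mapped e P g G₂
  set Z₃ := mapped e P g G₃
  have hd12 := Submodule.finrank_sup_add_finrank_inf_eq Z₁ Z₂
  have hd123 := Submodule.finrank_sup_add_finrank_inf_eq (Z₁ ⊔ Z₂) Z₃
  have e12 : Z₁ ⊓ Z₂ = ⊥ := eq_bot_iff.mpr fun x hx => by
    by_contra h0
    exact haniso G₁ x hx.1 (fun h => h0 (by simp [h])) (h12' x hx.1 x hx.2)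
  have e123 : (Z₁ ⊔ Z₂) ⊓ Z₃ = ⊥ := eq_bot_iff.mpr fun x hx => by
    by_contra h0
    obtain ⟨x₁, hx₁, x₂, hx₂, hxe⟩ := Submodule.mem_sup.mp hx.1
    refine haniso G₃ x hx.2 (fun h => h0 (by simp [h])) ?_
    have h1 : f₂ x₁ x = 0 := h13 x₁ hx₁ x hx.2
    have h3 : f₂ x₂ x = 0 := h23 x₂ hx₂ x hx.2
    calc f₂ x x = f₂ (x₁ + x₂) x := by rw [hxe]
      _ = 0 := by rw [hg₂.add_left, h1, h3, add_zero]
  rw [e12, finrank_bot] at hd12
  rw [e123, finrank_bot] at hd123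
  have := Submodule.finrank_le ((Z₁ ⊔ Z₂) ⊔ Z₃)
  rw [Module.finrank_fin_fun] at this
  omega

end OTensor

end CfsgLib.Geometric.OrthTensor
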