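import Cfsg.Agent.Lib.Geometric.Orth.DecompReflect
import Cfsg.Agent.Lib.Geometric.Orth.PairStab
import Cfsg.Agent.Lib.Geometric.Symp

/-!
A non-degenerate symmetric bilinear form in odd characteristic: its Siegel elements are commutators
of isometries, and the isotropic vectors determine linear maps and symmetric forms.
-/

namespace CfsgLib.Geometric.OrthTensor

open Matrix QuadraticMap
open scoped commutatorElement

/-- A non-degenerate symmetric bilinear form in odd characteristic. -/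
structure SymForm {F : Type*} [Field F] {κ : Type} (g : (κ → F) → (κ → F) → F) : Prop where
  two_ne : (2 : F) ≠ 0
  symmetric : Cfsg.Geo.IsSymmetricForm g

set_option linter.unusedSectionVars false

namespace SymForm

variable {F : Type*} [Field F] {κ : Type} {g : (κ → F) → (κ → F) → F} (hg : SymForm g)
include hg

lemma symm (x y : κ → F) : g x y = g y x := hg.symmetric.symm x y

lemma add_left (x y z : κ → F) : g (x + y) z = g x z + g y z :=
  hg.symmetric.bilinear.add_left x y z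

lemma smul_left (t : F) (x y : κ → F) : g (t • x) y = t * g x y :=
  hg.symmetric.bilinear.smul_left t x y

lemma add_right (x y z : κ → F) : g x (y + z) = g x y + g x z :=
  hg.symmetric.bilinear.add_right x y z

lemma smul_right (t : F) (x y : κ → F) : g x (t • y) = t * g x y :=
  hg.symmetric.bilinear.smul_right t x y

lemma zero_left (x : κ → F) : g 0 x = 0 := by simpa using hg.smul_left 0 0 x

lemma zero_right (x : κ → F) : g x 0 = 0 := by simpa using hg.smul_right 0 x 0

lemma neg_left (x y : κ → F) : g (-x) y = -g x y := by simpa using hg.smul_left (-1) x y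

lemma neg_right (x y : κ → F) : g x (-y) = -g x y := by simpa using hg.smul_right (-1) x y

lemma sub_left (x y z : κ → F) : g (x - y) z = g x z - g y z := by
  rw [sub_eq_add_neg, hg.add_left, hg.neg_left, ← sub_eq_add_neg]

lemma sub_right (x y z : κ → F) : g x (y - z) = g x y - g x z := by
  rw [sub_eq_add_neg, hg.add_right, hg.neg_right, ← sub_eq_add_neg]

lemma eq_zero_comm {x y : κ → F} : g x y = 0 ↔ g y x = 0 := by rw [hg.symm]

omit hg in
/-- The functional `x ↦ g(x, y)`. -/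
def fl (hg : SymForm g) (y : κ → F) : (κ → F) →ₗ[F] F where
  toFun x := g x y
  map_add' a b := hg.add_left a b y
  map_smul' t a := hg.smul_left t a y

@[simp] lemma fl_apply (y x : κ → F) : hg.fl y x = g x y := rfl

lemma exists_ne {x : κ → F} (hx : x ≠ 0) : ∃ y, g x y ≠ 0 :=
  (hg.symmetric.nondegenerate x hx).2

lemma exists_one {x : κ → F} (hx : x ≠ 0) : ∃ y, g y x = 1 := by
  obtain ⟨y, hy⟩ := hg.exists_ne hx
  exact ⟨(g y x)⁻¹ • y, by
    rw [hg.smul_left, inv_mul_cancel₀ (fun h => hy ((hg.eq_zero_comm).mp h))]⟩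

lemma eq_of_forall {p r : κ → F} (h : ∀ b, g p b = g r b) : p = r := by
  by_contra hne
  obtain ⟨b, hb⟩ := hg.exists_ne (sub_ne_zero.mpr hne)
  exact hb (by rw [hg.sub_left, h, sub_self])

omit hg in
/-- The quadratic form with polar form `g`. -/
def sq (hg : SymForm g) : QuadraticForm F (κ → F) :=
  LinearMap.BilinMap.toQuadraticMap
    ((2 : F)⁻¹ • LinearMap.mk₂ F g hg.add_left hg.smul_left hg.add_right hg.smul_right)

lemma sq_apply (x : κ → F) : hg.sq x = (2 : F)⁻¹ * g x x := rfl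

lemma polar_sq (x y : κ → F) : polar hg.sq x y = g x y := by
  have := hg.two_ne
  rw [polar, hg.sq_apply, hg.sq_apply, hg.sq_apply, hg.add_left, hg.add_right, hg.add_right,
    hg.symm y x]
  field_simp
  ring

lemma nondeg_sq : CfsgLib.ClassicalForms.Nondeg hg.sq := fun x hx => by
  by_contra h
  obtain ⟨y, hy⟩ := hg.exists_ne h
  exact hy (by rw [← hg.polar_sq]; exact hx y)

lemma sq_eq_zero {x : κ → F} : hg.sq x = 0 ↔ g x x = 0 := by simp [hg.sq_apply, hg.two_ne]

variable [Fintype κ] [DecidableEq κ]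

lemma isometryGroup_sq : Cfsg.isometryGroup F (⇑hg.sq) = isom g := by
  ext a
  rw [Orth.mem_isometryGroup_iff, mem_isom_iff]
  refine ⟨fun h x y => ?_, fun h x => by rw [hg.sq_apply, hg.sq_apply, h]⟩
  rw [← hg.polar_sq, ← hg.polar_sq, Orth.polar_ap (Orth.mem_isometryGroup_iff.mpr h)]

omit hg in
/-- The Siegel element of an isotropic `u` and `v` orthogonal to it. -/
def rho (hg : SymForm g) (u v : κ → F) (hu : g u u = 0) (hv : g u v = 0) : GL κ F :=
  Orth.sg hg.sq u v (hg.sq_eq_zero.mpr hu) (by rw [hg.polar_sq]; exact hv)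

lemma ap_rho {u v : κ → F} (hu : g u u = 0) (hv : g u v = 0) (x : κ → F) :
    ap (hg.rho u v hu hv) x =
      x + g x u • v - (g x v + (2 : F)⁻¹ * g v v * g x u) • u := by
  rw [rho, Orth.ap_sg, hg.polar_sq, hg.polar_sq, hg.sq_apply]

lemma rho_mem_isom {u v : κ → F} (hu : g u u = 0) (hv : g u v = 0) :
    hg.rho u v hu hv ∈ isom g := by
  rw [← hg.isometryGroup_sq]
  exact Orth.orthToGL_mem _

lemma ap_rho_fix {u v x : κ → F} (hu : g u u = 0) (hv : g u v = 0) (h1 : g x u = 0)
    (h2 : g x v = 0) : ap (hg.rho u v hu hv) x = x := by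
  rw [hg.ap_rho, h1, h2]; simp

lemma rho_inv {u v : κ → F} (hu : g u u = 0) (hv : g u v = 0) :
    (hg.rho u v hu hv)⁻¹ = hg.rho u (-v) hu (by rw [hg.neg_right, hv, neg_zero]) := by
  refine inv_eq_of_mul_eq_one_right (gl_ext fun x => ?_)
  rw [rho, rho, Orth.sg_mul', Orth.ap_sg, ap_one, add_neg_cancel, polar_zero_right,
    QuadraticMap.map_zero]
  simp

/-- An isotropic partner. -/
lemma exists_hyp {u : κ → F} (hu : g u u = 0) (hu0 : u ≠ 0) :
    ∃ u', g u' u' = 0 ∧ g u u' = 1 := by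
  have := hg.two_ne
  obtain ⟨p, hp⟩ := hg.exists_one hu0
  refine ⟨p - ((2 : F)⁻¹ * g p p) • u, ?_, ?_⟩
  · rw [hg.sub_left, hg.sub_right, hg.sub_right, hg.smul_left, hg.smul_left, hg.smul_right,
      hg.smul_right, hu, hp, hg.symm u p, hp]
    field_simp
    ring
  · rw [hg.sub_right, hg.smul_right, hu, mul_zero, sub_zero, hg.symm, hp]

omit hg in
/-- The projection off a hyperbolic pair. -/
def pr (g : (κ → F) → (κ → F) → F) (u u' x : κ → F) : κ → F :=
  x - g x u' • u - g x u • u'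

lemma pr_perp {u u' : κ → F} (hu : g u u = 0) (hu' : g u' u' = 0) (h1 : g u u' = 1)
    (x : κ → F) : g (pr g u u' x) u = 0 ∧ g (pr g u u' x) u' = 0 := by
  have h1' : g u' u = 1 := by rw [hg.symm, h1]
  constructor <;> simp [pr, hg.sub_left, hg.smul_left, hu, hu', h1, h1']

/-- Every Siegel element is a commutator of isometries. -/
lemma rho_mem_commutator {u v : κ → F} (hu : g u u = 0) (hv : g u v = 0) :
    hg.rho u v hu hv ∈ ⁅isom g, isom g⁆ := by
  have h2 := hg.two_ne
  by_cases hu0 : u = 0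
  · have h : hg.rho u v hu hv = 1 := gl_ext fun x => by
      rw [hg.ap_rho, hu0, hg.zero_right]; simp
    rw [h]; exact one_mem _
  obtain ⟨u', hu', h1⟩ := hg.exists_hyp hu hu0
  have h1' : g u' u = 1 := by rw [hg.symm, h1]
  set Q := hg.sq with hQ
  set a := (-(2 : F)⁻¹) • (v - g v u' • u) with ha
  have hau : g u a = 0 := by rw [ha, hg.smul_right, hg.sub_right, hg.smul_right, hv, hu]; ring
  have hau' : g a u' = 0 := by rw [ha, hg.smul_left, hg.sub_left, hg.smul_left, h1]; ring
  set t := Orth.rf Q (u + u') * Orth.rf Q (u - u') with ht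
  have htI : t ∈ Cfsg.isometryGroup F (⇑Q) := mul_mem (Orth.rf_mem_isom _) (Orth.rf_mem_isom _)
  have htu : ap t u = -u := by
    have e1 : ap (Orth.rf Q (u - u')) u = u' := by
      refine Orth.ap_rf_sub ?_ ?_
      · rw [hQ, hg.sq_apply, hg.sq_apply, hu, hu']
      · rw [hQ, hg.sq_apply, hg.sub_left, hg.sub_right, hg.sub_right, hu, hu', h1, h1']
        exact mul_ne_zero (inv_ne_zero h2) fun h => h2 (by linear_combination -h)
    have hQ1 : Q (u + u') = 1 := by
      rw [hQ, hg.sq_apply, hg.add_left, hg.add_right, hg.add_right, hu, hu', h1, h1']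
      field_simp
      ring
    rw [ht, ap_mul, e1, Orth.ap_rf, hQ1, hQ, hg.polar_sq, hg.add_right, h1', hu']
    simp
  have hta : ap t a = a := by
    rw [ht, ap_mul, Orth.ap_rf_fix (x := a), Orth.ap_rf_fix (x := a)]
    · rw [hQ, hg.polar_sq, hg.add_right, hg.symm a u, hau, hau', add_zero]
    · rw [hQ, hg.polar_sq, hg.sub_right, hg.symm a u, hau, hau', sub_zero]
  have hu'' : Q u = 0 := hg.sq_eq_zero.mpr hu
  have hau'' : polar Q u a = 0 := by rw [hQ, hg.polar_sq, hau]
  have key : hg.rho u v hu hv = ⁅t, Orth.sg Q u a hu'' hau''⁆ := by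
    rw [commutatorElement_def, Orth.conj_sg htI]
    refine gl_ext fun x => ?_
    have hrest : ∀ y, ap (Orth.sg Q (ap t u) (ap t a)
        (by rw [Orth.mem_isometryGroup_iff.mp htI, hu''])
        (by rw [Orth.polar_ap htI, hau''])) y =
        ap (Orth.sg Q u (-a) hu'' (by rw [polar_neg_right, hau'', neg_zero])) y := by
      intro y
      rw [Orth.ap_sg, Orth.ap_sg, htu, hta, polar_neg_right, polar_neg_right, QuadraticMap.map_neg]
      module
    have hinv := hg.rho_inv (v := a) hu hau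
    rw [rho, rho] at hinv
    rw [ap_mul, hrest, hinv, ← ap_mul, Orth.sg_mul']
    have e2 : (2 : F)⁻¹ * 2 = 1 := inv_mul_cancel₀ h2
    rw [hg.ap_rho, Orth.ap_sg, hQ, hg.polar_sq, hg.polar_sq, hg.sq_apply,
      show -a + -a = v - g v u' • u by
        rw [ha]; match_scalars <;> field_simp <;> ring,
      hg.sub_left, hg.sub_right, hg.sub_right, hg.sub_right, hg.smul_left, hg.smul_left,
      hg.smul_right, hg.smul_right, hg.smul_right, hu, hg.symm v u, hv]
    module
  rw [key, ← hg.isometryGroup_sq]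
  exact Subgroup.commutator_mem_commutator htI (Orth.orthToGL_mem _)

/-- An anisotropic vector in a subspace carrying a non-zero form. -/
lemma exists_aniso_in {K : Submodule F (κ → F)} {x y : κ → F} (hx : x ∈ K) (hy : y ∈ K)
    (hxy : g x y ≠ 0) : ∃ z ∈ K, g z z ≠ 0 := by
  by_cases h1 : g x x = 0
  · by_cases h2 : g y y = 0
    · refine ⟨x + y, K.add_mem hx hy, ?_⟩
      rw [hg.add_left, hg.add_right, hg.add_right, h1, h2, hg.symm y x]
      intro h
      exact mul_ne_zero hg.two_ne hxy (by linear_combination h)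
    · exact ⟨y, hy, h2⟩
  · exact ⟨x, hx, h1⟩

/-- An anisotropic vector orthogonal to a hyperbolic pair. -/
lemma exists_aniso_pr (hd : 3 ≤ Fintype.card κ) {u u' : κ → F} (hu : g u u = 0)
    (hu' : g u' u' = 0) (h1 : g u u' = 1) :
    ∃ v, g v u = 0 ∧ g v u' = 0 ∧ g v v ≠ 0 := by
  let K : Submodule F (κ → F) := LinearMap.ker ((hg.fl u).prod (hg.fl u'))
  have hmem : ∀ z, z ∈ K ↔ g z u = 0 ∧ g z u' = 0 := fun z => by simp [K]
  obtain ⟨x, hx, hx0⟩ := Submodule.exists_mem_ne_zero_of_ne_bot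
    (LinearMap.ker_ne_bot_of_finrank_lt (f := (hg.fl u).prod (hg.fl u')) (by simp; omega))
  obtain ⟨y, hy⟩ := hg.exists_ne hx0
  have hx' := (hmem x).mp hx
  have hxy : g x (pr g u u' y) ≠ 0 := by
    simpa [pr, hg.sub_right, hg.smul_right, hx'.1, hx'.2] using hy
  obtain ⟨z, hz, hzz⟩ := hg.exists_aniso_in hx
    ((hmem _).mpr (hg.pr_perp hu hu' h1 y)) hxy
  exact ⟨z, ((hmem z).mp hz).1, ((hmem z).mp hz).2, hzz⟩

/-- An anisotropic vector orthogonal to an isotropic one. -/
lemma exists_aniso_perp (hd : 3 ≤ Fintype.card κ) {u : κ → F} (hu : g u u = 0) (hu0 : u ≠ 0) :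
    ∃ v, g u v = 0 ∧ g v v ≠ 0 := by
  obtain ⟨u', hu', h1⟩ := hg.exists_hyp hu hu0
  obtain ⟨v, hv, -, hvv⟩ := hg.exists_aniso_pr hd hu hu' h1
  exact ⟨v, by rw [hg.symm, hv], hvv⟩

/-- An anisotropic vector orthogonal to a hyperbolic pair and an anisotropic vector. -/
lemma exists_aniso_pr_two (hd : 4 ≤ Fintype.card κ) {u u' v : κ → F} (hu : g u u = 0)
    (hu' : g u' u' = 0) (h1 : g u u' = 1) (hvu : g v u = 0) (hvu' : g v u' = 0) (hv : g v v ≠ 0) :
    ∃ z, g z u = 0 ∧ g z u' = 0 ∧ g z v = 0 ∧ g z z ≠ 0 := by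
  let Φ := ((hg.fl u).prod (hg.fl u')).prod (hg.fl v)
  have hmem : ∀ z, z ∈ LinearMap.ker Φ ↔ (g z u = 0 ∧ g z u' = 0) ∧ g z v = 0 := fun z => by
    simp [Φ]
  obtain ⟨x, hx, hx0⟩ := Submodule.exists_mem_ne_zero_of_ne_bot
    (LinearMap.ker_ne_bot_of_finrank_lt (f := Φ) (by simp; omega))
  obtain ⟨y, hy⟩ := hg.exists_ne hx0
  have hx' := (hmem x).mp hx
  set p := pr g u u' y
  have hp := hg.pr_perp hu hu' h1 y
  have hxy : g x (p - (g p v / g v v) • v) ≠ 0 := by
    simpa [p, pr, hg.sub_right, hg.smul_right, hx'.1.1, hx'.1.2, hx'.2] using hy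
  have hp' : p - (g p v / g v v) • v ∈ LinearMap.ker Φ := (hmem _).mpr
    ⟨⟨by rw [hg.sub_left, hg.smul_left, hp.1, hvu]; ring,
      by rw [hg.sub_left, hg.smul_left, hp.2, hvu']; ring⟩,
      by rw [hg.sub_left, hg.smul_left, div_mul_cancel₀ _ hv, sub_self]⟩
  obtain ⟨z, hz, hzz⟩ := hg.exists_aniso_in hx hp' hxy
  exact ⟨z, ((hmem z).mp hz).1.1, ((hmem z).mp hz).1.2, ((hmem z).mp hz).2, hzz⟩

omit hg in
/-- `u + v - (g(v, v) / 2) u'`. -/
def iso3 (g : (κ → F) → (κ → F) → F) (u u' v : κ → F) : κ → F :=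
  u + v - ((2 : F)⁻¹ * g v v) • u'

lemma iso3_spec {u u' v : κ → F} (hu : g u u = 0) (hu' : g u' u' = 0) (h1 : g u u' = 1)
    (hvu : g v u = 0) (hvu' : g v u' = 0) :
    g (iso3 g u u' v) (iso3 g u u' v) = 0 ∧ g (iso3 g u u' v) u' = 1 := by
  have := hg.two_ne
  have h1' : g u' u = 1 := by rw [hg.symm, h1]
  have huv : g u v = 0 := by rw [hg.symm, hvu]
  have hu'v : g u' v = 0 := by rw [hg.symm, hvu']
  simp only [iso3, hg.sub_left, hg.sub_right, hg.add_left, hg.add_right, hg.smul_left,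
    hg.smul_right, hu, hu', h1, h1', huv, hvu, hu'v, hvu']
  constructor
  · field_simp; ring
  · ring

variable [Finite F]

lemma exists_isotropic (hd : 3 ≤ Fintype.card κ) : ∃ u, u ≠ 0 ∧ g u u = 0 := by
  obtain ⟨u, -, hu0, hu⟩ := Orth.exists_singular (Q := hg.sq) hg.two_ne (W := ⊤)
    (by rw [finrank_top, Module.finrank_fintype_fun_eq_card]; exact hd)
  exact ⟨u, hu0, hg.sq_eq_zero.mp hu⟩

omit [Finite F] in
/-- A linear map vanishing on the isotropic vectors not orthogonal to `w` vanishes. -/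
lemma eq_zero_of_iso_near {M : Type*} [AddCommGroup M] [Module F M] (hd : 3 ≤ Fintype.card κ)
    {w : κ → F} (hw : g w w = 0) (hw0 : w ≠ 0) {L : (κ → F) →ₗ[F] M}
    (h : ∀ x, g x x = 0 → g x w ≠ 0 → L x = 0) : L = 0 := by
  obtain ⟨w', hw', h1⟩ := hg.exists_hyp hw hw0
  have h1' : g w' w = 1 := by rw [hg.symm, h1]
  have hLw' : L w' = 0 := h w' hw' (by rw [h1']; exact one_ne_zero)
  have key : ∀ v, g v w = 0 → g v w' = 0 → L v = 0 ∧ ((2 : F)⁻¹ * g v v) • L w = 0 := by
    intro v hv hv'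
    obtain ⟨a1, a2⟩ := hg.iso3_spec hw' hw h1' hv' hv
    obtain ⟨b1, b2⟩ := hg.iso3_spec hw' hw h1' (v := -v) (by rw [hg.neg_left, hv', neg_zero])
      (by rw [hg.neg_left, hv, neg_zero])
    have e1 := h _ a1 (by rw [a2]; exact one_ne_zero)
    have e2 := h _ b1 (by rw [b2]; exact one_ne_zero)
    simp only [iso3, map_sub, map_add, map_smul, map_neg, hLw', hg.neg_left, hg.neg_right, neg_neg,
      zero_add] at e1 e2
    have e3 : (2 : F) • L v = 0 := by linear_combination (norm := module) e1 - e2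
    have e4 := (smul_eq_zero.mp e3).resolve_left hg.two_ne
    rw [e4, zero_sub, neg_eq_zero] at e1
    exact ⟨e4, e1⟩
  obtain ⟨v, hv, hv', hvv⟩ := hg.exists_aniso_pr hd hw hw' h1
  have hLw : L w = 0 := (smul_eq_zero.mp (key v hv hv').2).resolve_left
    (mul_ne_zero (inv_ne_zero hg.two_ne) hvv)
  refine LinearMap.ext fun x => ?_
  obtain ⟨p1, p2⟩ := hg.pr_perp hw hw' h1 x
  rw [show x = pr g w w' x + g x w' • w + g x w • w' by rw [pr]; abel, map_add, map_add, map_smul,
    map_smul, hLw, hLw', (key _ p1 p2).1, LinearMap.zero_apply]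
  simp

/-- A linear map vanishing on the isotropic vectors vanishes. -/
lemma eq_zero_of_iso {M : Type*} [AddCommGroup M] [Module F M] (hd : 3 ≤ Fintype.card κ)
    {L : (κ → F) →ₗ[F] M} (h : ∀ x, g x x = 0 → L x = 0) : L = 0 := by
  obtain ⟨w, hw0, hw⟩ := hg.exists_isotropic hd
  exact hg.eq_zero_of_iso_near hd hw hw0 fun x hx _ => h x hx

/-- A linear map vanishing on the isotropic vectors orthogonal to an isotropic `w` vanishes on
all vectors orthogonal to it. -/
lemma eq_zero_of_iso_perp {M : Type*} [AddCommGroup M] [Module F M] (hd : 5 ≤ Fintype.card κ)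
    {w : κ → F} (hw : g w w = 0) (hw0 : w ≠ 0) {L : (κ → F) →ₗ[F] M}
    (h : ∀ x, g x w = 0 → g x x = 0 → L x = 0) {y : κ → F} (hy : g y w = 0) : L y = 0 := by
  obtain ⟨w', hw', h1⟩ := hg.exists_hyp hw hw0
  have h1' : g w' w = 1 := by rw [hg.symm, h1]
  set W1 := LinearMap.ker ((hg.fl w).prod (hg.fl w')) with hW1def
  have hW1 : 3 ≤ Module.finrank F W1 := by
    have h3 := ((hg.fl w).prod (hg.fl w')).finrank_range_add_finrank_ker
    have h4 := Submodule.finrank_le (LinearMap.range ((hg.fl w).prod (hg.fl w')))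
    rw [Module.finrank_prod, Module.finrank_self] at h4
    rw [Module.finrank_fintype_fun_eq_card] at h3
    rw [hW1def]
    omega
  obtain ⟨e, he, he0, hee⟩ := Orth.exists_singular (Q := hg.sq) hg.two_ne hW1
  have hee' := hg.sq_eq_zero.mp hee
  obtain ⟨hew, hew'⟩ : g e w = 0 ∧ g e w' = 0 := by simpa [hW1def] using he
  obtain ⟨p, hp⟩ := hg.exists_one he0
  obtain ⟨q1, q2⟩ := hg.pr_perp hw hw' h1 p
  have hqe : g (pr g w w' p) e = 1 := by
    simp [pr, hg.sub_left, hg.smul_left, hp, hg.symm w e, hg.symm w' e, hew, hew']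
  set q := pr g w w' p
  set e' := q - ((2 : F)⁻¹ * g q q) • e with he'
  have he'w : g e' w = 0 := by rw [he', hg.sub_left, hg.smul_left, q1, hew]; ring
  have he'w' : g e' w' = 0 := by rw [he', hg.sub_left, hg.smul_left, q2, hew']; ring
  have he'e' : g e' e' = 0 := by
    have := hg.two_ne
    rw [he', hg.sub_left, hg.sub_right, hg.sub_right, hg.smul_left, hg.smul_left, hg.smul_right,
      hg.smul_right, hee', hqe, hg.symm e q, hqe]
    field_simp; ring
  have hee'1 : g e e' = 1 := by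
    rw [he', hg.sub_right, hg.smul_right, hee', hg.symm, hqe]; ring
  have key : ∀ v, g v w = 0 → g v e = 0 → g v e' = 0 → L v = 0 := by
    intro v hv hve hve'
    obtain ⟨a1, -⟩ := hg.iso3_spec hee' he'e' hee'1 hve hve'
    have e1 := h _ (by simp [iso3, hg.sub_left, hg.add_left, hg.smul_left, hv, hew, he'w]) a1
    simp only [iso3, map_sub, map_add, map_smul, h e hew hee', h e' he'w he'e', zero_add, smul_zero,
      sub_zero] at e1
    exact e1
  obtain ⟨p1, p2⟩ := hg.pr_perp hee' he'e' hee'1 y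
  have hpw : g (pr g e e' y) w = 0 := by
    simp [pr, hg.sub_left, hg.smul_left, hy, hew, he'w]
  rw [show y = pr g e e' y + g y e' • e + g y e • e' by rw [pr]; abel, map_add, map_add, map_smul,
    map_smul, h e hew hee', h e' he'w he'e', key _ hpw p1 p2]
  simp

/-- An isometry in the commutator group moves one isotropic vector to an orthogonal one. -/
lemma exists_move_perp {a b : κ → F} (ha : g a a = 0) (hb : g b b = 0) (hab : g a b = 0)
    (ha0 : a ≠ 0) (hind : ∀ t : F, b ≠ t • a) : ∃ h ∈ ⁅isom g, isom g⁆, ap h a = b := by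
  obtain ⟨z, -, hz, hza, hzb⟩ := (CfsgLib.ClassicalForms.Sec.top hg.sq).exists_common hg.nondeg_sq
    (CfsgLib.ClassicalForms.Sec.mem_top a) (CfsgLib.ClassicalForms.Sec.mem_top b)
    (hg.sq_eq_zero.mpr ha) (by rw [hg.polar_sq, hab]) ha0 hind
  have hd : polar hg.sq z (b - a) = 0 := by rw [polar_sub_right, hzb, hza, sub_self]
  refine ⟨hg.rho z (b - a) (hg.sq_eq_zero.mp hz) (by rw [← hg.polar_sq]; exact hd),
    hg.rho_mem_commutator _ _, ?_⟩
  exact Orth.ap_sg_move hz (hg.sq_eq_zero.mpr ha) (hg.sq_eq_zero.mpr hb) hza hzb hd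

/-- The commutator group of the isometries is transitive on isotropic vectors. -/
lemma exists_move (hd : 5 ≤ Fintype.card κ) {a b : κ → F} (ha : g a a = 0) (hb : g b b = 0)
    (ha0 : a ≠ 0) (hb0 : b ≠ 0) : ∃ h ∈ ⁅isom g, isom g⁆, ap h a = b := by
  obtain ⟨a', ha', h1⟩ := hg.exists_hyp ha ha0
  by_cases hind : ∀ t : F, b ≠ t • a
  · by_cases hab : g a b = 0
    · exact hg.exists_move_perp ha hb hab ha0 hind
    set K := LinearMap.ker ((hg.fl a).prod (hg.fl b)) with hK
    obtain ⟨v, hv, hv0, hvv⟩ := Orth.exists_singular (Q := hg.sq) hg.two_ne (W := K) (by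
      have h3 := ((hg.fl a).prod (hg.fl b)).finrank_range_add_finrank_ker
      have h4 := Submodule.finrank_le (LinearMap.range ((hg.fl a).prod (hg.fl b)))
      rw [Module.finrank_prod, Module.finrank_self] at h4
      rw [Module.finrank_fintype_fun_eq_card] at h3
      rw [hK]
      omega)
    have hvv' := hg.sq_eq_zero.mp hvv
    obtain ⟨hva, hvb⟩ : g v a = 0 ∧ g v b = 0 := by simpa [hK] using hv
    obtain ⟨h₁, hh₁, e₁⟩ := hg.exists_move_perp ha hvv' (by rw [hg.symm, hva]) ha0 fun t ht =>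
      hv0 (by
        rw [ht, hg.smul_left, mul_eq_zero] at hvb
        rw [ht, hvb.resolve_right hab, zero_smul])
    obtain ⟨h₂, hh₂, e₂⟩ := hg.exists_move_perp hvv' hb hvb hv0 fun t ht =>
      hab (by rw [ht, hg.smul_right, hg.symm, hva, mul_zero])
    exact ⟨h₂ * h₁, mul_mem hh₂ hh₁, by rw [ap_mul, e₁, e₂]⟩
  push Not at hind
  obtain ⟨t, rfl⟩ := hind
  have ht : t ≠ 0 := fun h => hb0 (by rw [h, zero_smul])
  set K := LinearMap.ker ((hg.fl a).prod (hg.fl a')) with hK
  obtain ⟨v, hv, hv0, hvv⟩ := Orth.exists_singular (Q := hg.sq) hg.two_ne (W := K) (by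
    have h3 := ((hg.fl a).prod (hg.fl a')).finrank_range_add_finrank_ker
    have h4 := Submodule.finrank_le (LinearMap.range ((hg.fl a).prod (hg.fl a')))
    rw [Module.finrank_prod, Module.finrank_self] at h4
    rw [Module.finrank_fintype_fun_eq_card] at h3
    rw [hK]
    omega)
  have hvv' := hg.sq_eq_zero.mp hvv
  obtain ⟨hva, hva'⟩ : g v a = 0 ∧ g v a' = 0 := by simpa [hK] using hv
  obtain ⟨h₁, hh₁, e₁⟩ := hg.exists_move_perp ha hvv' (by rw [hg.symm, hva]) ha0 fun s hs => hv0 (by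
    rw [hs, hg.smul_left, h1, mul_one] at hva'
    rw [hs, hva', zero_smul])
  obtain ⟨h₂, hh₂, e₂⟩ := hg.exists_move_perp hvv' hb
    (by rw [hg.smul_right, hva, mul_zero]) hv0 fun s hs => by
      have := congrArg (fun x => g x a') hs
      simp only [hg.smul_left, h1, hva', mul_one, mul_zero] at this
      exact ht this
  exact ⟨h₂ * h₁, mul_mem hh₂ hh₁, by rw [ap_mul, e₁, e₂]⟩

end SymForm

end CfsgLib.Geometric.OrthTensor
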